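import Cfsg.Prelude.Def_JComponents
import Cfsg.Agent.Components.Cores
import Cfsg.Agent.Offender.MaxElem

/-!
Basic facts on Thompson subgroups of 2-subgroups and on J(T)-components.
-/

set_option autoImplicit false
open scoped commutatorElement
open Cfsg

namespace CfsgLib.JComp

variable {G : Type*} [Group G] [Finite G]

/-- `A` is an elementary abelian subgroup of `S` of largest order. -/
structure IsMaxEl (S A : Subgroup G) : Prop where
  le : A ≤ S
  el : IsElementaryAbelian 2 A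
  max : ∀ B : Subgroup G, B ≤ S → IsElementaryAbelian 2 B → Nat.card ↥B ≤ Nat.card ↥A

theorem el_comm {A : Subgroup G} (hA : IsElementaryAbelian 2 A) {a b : G} (ha : a ∈ A) (hb : b ∈ A) :
    Commute a b := congrArg Subtype.val (hA.1.is_comm.comm ⟨a, ha⟩ ⟨b, hb⟩)

theorem el_sq {A : Subgroup G} (hA : IsElementaryAbelian 2 A) {a : G} (ha : a ∈ A) : a * a = 1 := by
  rw [← pow_two]; exact hA.2 a ha

theorem el_map_subtype {S : Subgroup G} {A : Subgroup ↥S} (h : IsElementaryAbelian 2 A) :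
    IsElementaryAbelian 2 (A.map S.subtype) := by
  refine ⟨⟨⟨?_⟩⟩, ?_⟩
  · rintro ⟨_, a, ha, rfl⟩ ⟨_, b, hb, rfl⟩
    exact Subtype.ext (congrArg S.subtype (congrArg Subtype.val (h.1.is_comm.comm ⟨a, ha⟩ ⟨b, hb⟩)))
  · rintro _ ⟨a, ha, rfl⟩
    rw [← map_pow, h.2 a ha, map_one]

theorem el_subgroupOf {S B : Subgroup G} (hB : B ≤ S) (h : IsElementaryAbelian 2 B) :
    IsElementaryAbelian 2 (B.subgroupOf S) :=
  ⟨⟨⟨fun a b => Subtype.ext (Subtype.ext (el_comm h a.2 b.2))⟩⟩,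
    fun a ha => Subtype.ext (h.2 (a : G) ha)⟩

theorem isMaxEl_map {S : Subgroup G} {A : Subgroup ↥S} (hA : A ∈ maxElementaryAbelianSubgroups 2 ↥S) :
    IsMaxEl S (A.map S.subtype) := by
  refine ⟨Subgroup.map_subtype_le A, el_map_subtype hA.1, fun B hB hBe => ?_⟩
  rw [Subgroup.card_map_of_injective S.subtype_injective,
    ← Nat.card_congr (Subgroup.subgroupOfEquivOfLe hB).toEquiv]
  exact hA.2 _ (el_subgroupOf hB hBe)

theorem IsMaxEl.le_thompson {S A : Subgroup G} (h : IsMaxEl S A) : A ≤ thompsonSubgroupOf 2 S := by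
  have hm : A.subgroupOf S ∈ maxElementaryAbelianSubgroups 2 ↥S := by
    refine ⟨el_subgroupOf h.le h.el, fun B hB => ?_⟩
    rw [Nat.card_congr (Subgroup.subgroupOfEquivOfLe h.le).toEquiv,
      ← Subgroup.card_map_of_injective S.subtype_injective]
    exact h.max _ (Subgroup.map_subtype_le B) (el_map_subtype hB)
  intro a ha
  exact ⟨⟨a, h.le ha⟩, le_sSup hm ha, rfl⟩

theorem thompson_le {S H : Subgroup G} (h : ∀ A, IsMaxEl S A → A ≤ H) : thompsonSubgroupOf 2 S ≤ H := by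
  rw [thompsonSubgroupOf, Subgroup.map_le_iff_le_comap]
  refine sSup_le fun A hA => ?_
  rw [← Subgroup.map_le_iff_le_comap]
  exact h _ (isMaxEl_map hA)

theorem thompson_le_self (S : Subgroup G) : thompsonSubgroupOf 2 S ≤ S := Subgroup.map_subtype_le _

theorem exists_maxEl (S : Subgroup G) : ∃ A, IsMaxEl S A := by
  have hne : {B : Subgroup G | B ≤ S ∧ IsElementaryAbelian 2 B}.Nonempty := by
    refine ⟨⊥, bot_le, ⟨⟨fun a b => Subtype.ext ?_⟩⟩, fun a ha => ?_⟩
    · rw [Subgroup.coe_mul, Subgroup.coe_mul, Subgroup.mem_bot.1 a.2, Subgroup.mem_bot.1 b.2]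
    · rw [Subgroup.mem_bot.1 ha, one_pow]
  obtain ⟨A, hA, hmax⟩ := Set.exists_max_image _ (fun B : Subgroup G => Nat.card ↥B) (Set.toFinite _) hne
  exact ⟨A, hA.1, hA.2, fun B h1 h2 => hmax B ⟨h1, h2⟩⟩

theorem IsMaxEl.of_thompson_eq {S T A : Subgroup G} (hJ : thompsonSubgroupOf 2 S = thompsonSubgroupOf 2 T)
    (h : IsMaxEl T A) : IsMaxEl S A := by
  refine ⟨h.le_thompson.trans (hJ ▸ thompson_le_self S), h.el, fun B hB hBe => ?_⟩
  obtain ⟨C, hC⟩ := exists_maxEl S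
  exact (hC.max B hB hBe).trans (h.max C ((hC.le_thompson.trans hJ.le).trans (thompson_le_self T)) hC.el)

/-- The normalizer of `S` normalizes the Thompson subgroup of `S`. -/
theorem conj_mem_thompson {S : Subgroup G} {g : G} (hg : ∀ s ∈ S, g * s * g⁻¹ ∈ S)
    {x : G} (hx : x ∈ thompsonSubgroupOf 2 S) : g * x * g⁻¹ ∈ thompsonSubgroupOf 2 S := by
  have hle : thompsonSubgroupOf 2 S ≤ (thompsonSubgroupOf 2 S).comap (MulAut.conj g).toMonoidHom := by
    refine thompson_le fun A hA a ha => ?_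
    have hA' : IsMaxEl S (A.map (MulAut.conj g).toMonoidHom) := by
      refine ⟨?_, ?_, fun B hB hBe => ?_⟩
      · rintro _ ⟨b, hb, rfl⟩; exact hg b (hA.le hb)
      · refine ⟨⟨⟨?_⟩⟩, ?_⟩
        · rintro ⟨_, b, hb, rfl⟩ ⟨_, c, hc, rfl⟩
          refine Subtype.ext ?_
          show (MulAut.conj g).toMonoidHom b * (MulAut.conj g).toMonoidHom c =
            (MulAut.conj g).toMonoidHom c * (MulAut.conj g).toMonoidHom b
          rw [← map_mul, (el_comm hA.el hb hc).eq, map_mul]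
        · rintro _ ⟨b, hb, rfl⟩
          rw [← map_pow, hA.el.2 b hb, map_one]
      · rw [Subgroup.card_map_of_injective (MulAut.conj g).injective]
        exact hA.max B hB hBe
    exact hA'.le_thompson ⟨a, ha, rfl⟩
  exact hle hx

theorem normalizer_le_thompson (S : Subgroup G) :
    Subgroup.normalizer (S : Set G) ≤ Subgroup.normalizer (thompsonSubgroupOf 2 S : Set G) := by
  intro g hg
  rw [Subgroup.mem_normalizer_iff]
  intro x
  refine ⟨conj_mem_thompson fun s hs => (Subgroup.mem_normalizer_iff.1 hg s).1 hs, fun hx => ?_⟩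
  have := conj_mem_thompson (g := g⁻¹) (fun s hs => (Subgroup.mem_normalizer_iff.1
    ((Subgroup.normalizer (S : Set G)).inv_mem hg) s).1 hs) hx
  rwa [show g⁻¹ * (g * x * g⁻¹) * g⁻¹⁻¹ = x by group] at this

theorem isPGroup_thompson {T : Subgroup G} (hT : IsPGroup 2 ↥T) : IsPGroup 2 ↥(thompsonSubgroupOf 2 T) :=
  hT.to_le (thompson_le_self T)

/-- A 2-subgroup of `H` lies in a Sylow 2-subgroup of `H`. -/
theorem exists_sylowTwoIn {H X : Subgroup G} (hX : IsPGroup 2 ↥X) (hXH : X ≤ H) :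
    ∃ S, X ≤ S ∧ IsSylowTwoIn S H := by
  haveI : Fact (Nat.Prime 2) := ⟨Nat.prime_two⟩
  obtain ⟨P, hP⟩ := (hX.comap_subtype (K := H)).exists_le_sylow
  refine ⟨(P : Subgroup ↥H).map H.subtype, fun x hx => ⟨⟨x, hXH hx⟩, hP hx, rfl⟩,
    Subgroup.map_subtype_le _, P.isPGroup'.map _, ?_⟩
  have h2 : ¬ 2 ∣ (P : Subgroup ↥H).index := P.not_dvd_index
  rw [Subgroup.relIndex, Subgroup.subgroupOf, Subgroup.comap_map_eq_self_of_injective H.subtype_injective]
  exact Nat.odd_iff.2 (by omega)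

theorem pCoreOf_le (H : Subgroup G) : pCoreOf 2 H ≤ H := Subgroup.map_subtype_le _

theorem isPGroup_pCoreOf (H : Subgroup G) : IsPGroup 2 ↥(pCoreOf 2 H) :=
  (Components.pCore_isPGroup 2).map _

theorem conj_mem_pCoreOf {H : Subgroup G} {g x : G} (hg : ∀ h ∈ H, g * h * g⁻¹ ∈ H)
    (hx : x ∈ pCoreOf 2 H) : g * x * g⁻¹ ∈ pCoreOf 2 H := by
  obtain ⟨y, hy, rfl⟩ := hx
  set φ : ↥H →* ↥H :=
    { toFun := fun h => ⟨g * (h : G) * g⁻¹, hg _ h.2⟩
      map_one' := Subtype.ext (by simp)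
      map_mul' := fun a b => Subtype.ext (by simp [mul_assoc]) } with hφ
  have hb : Function.Bijective φ := by
    rw [← Finite.injective_iff_bijective]
    intro a b e
    have := congrArg Subtype.val e
    exact Subtype.ext (by simpa [hφ] using this)
  haveI := Components.pCore_characteristic (G := ↥H) 2
  have : (pCore 2 ↥H).map (MulEquiv.ofBijective φ hb).toMonoidHom ≤ pCore 2 ↥H :=
    (Subgroup.characteristic_iff_map_le.1 inferInstance) _
  exact ⟨φ y, this ⟨y, hy, rfl⟩, rfl⟩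

theorem omegaOne_mem {X : Subgroup G} (hc : ∀ a ∈ X, ∀ b ∈ X, a * b = b * a) {x : G}
    (hx : x ∈ omegaOne 2 X) : x ∈ X ∧ x * x = 1 := by
  induction hx using Subgroup.closure_induction with
  | mem y hy => exact ⟨hy.1, by rw [← pow_two]; exact hy.2⟩
  | one => exact ⟨X.one_mem, one_mul 1⟩
  | mul a b _ _ ha hb =>
    refine ⟨X.mul_mem ha.1 hb.1, ?_⟩
    rw [mul_assoc a b, ← mul_assoc b a, ← hc a ha.1 b hb.1, ← mul_assoc, ← mul_assoc, ha.2, one_mul, hb.2]
  | inv a _ ha => exact ⟨X.inv_mem ha.1, by rw [← mul_inv_rev, ha.2, inv_one]⟩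

theorem mem_omegaCenterOf {X : Subgroup G} {x : G} :
    x ∈ omegaCenterOf X ↔ x ∈ X ∧ (∀ y ∈ X, y * x = x * y) ∧ x * x = 1 := by
  constructor
  · intro hx
    have := omegaOne_mem (X := X ⊓ Subgroup.centralizer (X : Set G))
      (fun a ha b hb => (Subgroup.mem_centralizer_iff.1 hb.2 a ha.1)) hx
    exact ⟨this.1.1, Subgroup.mem_centralizer_iff.1 this.1.2, this.2⟩
  · rintro ⟨h1, h2, h3⟩
    exact Subgroup.subset_closure ⟨⟨h1, Subgroup.mem_centralizer_iff.2 h2⟩, by rw [pow_two]; exact h3⟩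

section component

variable {T K : Subgroup G}

theorem commute_pow_two_fixed {k u e : G} (n : ℕ) (he : k * u * k⁻¹ = e * u) (hk : k * e * k⁻¹ = e) :
    k ^ n * u * (k ^ n)⁻¹ = e ^ n * u := by
  induction n with
  | zero => simp
  | succ n ih =>
    rw [pow_succ' k, pow_succ e,
      show k * k ^ n * u * (k * k ^ n)⁻¹ = k * (k ^ n * u * (k ^ n)⁻¹) * k⁻¹ by group, ih,
      show k * (e ^ n * u) * k⁻¹ = (k * e * k⁻¹) ^ n * (k * u * k⁻¹) by rw [conj_pow]; group,
      hk, he, mul_assoc]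

theorem J_normalizes (hK : IsJComponent T K) :
    thompsonSubgroupOf 2 T ≤ Subgroup.normalizer (K : Set G) := by
  have h : ∀ j ∈ thompsonSubgroupOf 2 T, ∀ k ∈ K, j * k * j⁻¹ ∈ K := by
    intro j hj k hk
    have hc : ⁅k⁻¹, j⁆ ∈ K := hK.2.1.le (Subgroup.commutator_mem_commutator (K.inv_mem hk) hj)
    have e : j * k * j⁻¹ = k * ⁅k⁻¹, j⁆ := by rw [commutatorElement_def]; group
    rw [e]; exact K.mul_mem hk hc
  intro j hj
  rw [Subgroup.mem_normalizer_iff]
  refine fun k => ⟨h j hj k, fun hk => ?_⟩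
  have := h j⁻¹ ((thompsonSubgroupOf 2 T).inv_mem hj) _ hk
  rwa [show j⁻¹ * (j * k * j⁻¹) * j⁻¹⁻¹ = k by group] at this

theorem conj_mem_wOf {g w : G} (hg : ∀ h ∈ K, g * h * g⁻¹ ∈ K) (hw : w ∈ wOf K) : g * w * g⁻¹ ∈ wOf K := by
  have : wOf K ≤ (wOf K).comap (MulAut.conj g).toMonoidHom := by
    rw [wOf, Subgroup.commutator_le]
    intro u hu k hk
    rw [Subgroup.mem_comap]
    have hu' : g * u * g⁻¹ ∈ omegaCenterOf (pCoreOf 2 K) := by
      obtain ⟨h1, h2, h3⟩ := mem_omegaCenterOf.1 hu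
      refine mem_omegaCenterOf.2 ⟨conj_mem_pCoreOf hg h1, fun y hy => ?_, ?_⟩
      · have hy' : g⁻¹ * y * g⁻¹⁻¹ ∈ pCoreOf 2 K := conj_mem_pCoreOf (fun h hh => by
          have hb : Function.Surjective (fun h : ↥K => (⟨g * (h : G) * g⁻¹, hg _ h.2⟩ : ↥K)) :=
            Finite.surjective_of_injective fun a b e => Subtype.ext (by simpa using congrArg Subtype.val e)
          obtain ⟨a, ha⟩ := hb ⟨h, hh⟩
          rw [← show g * (a : G) * g⁻¹ = h from congrArg Subtype.val ha]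
          simpa [mul_assoc] using a.2) hy
        calc y * (g * u * g⁻¹) = g * ((g⁻¹ * y * g⁻¹⁻¹) * u) * g⁻¹ := by group
          _ = g * (u * (g⁻¹ * y * g⁻¹⁻¹)) * g⁻¹ := by rw [h2 _ hy']
          _ = g * u * g⁻¹ * y := by group
      · rw [show g * u * g⁻¹ * (g * u * g⁻¹) = g * (u * u) * g⁻¹ by group, h3]; group
    have : (MulAut.conj g).toMonoidHom ⁅u, k⁆ = ⁅g * u * g⁻¹, g * k * g⁻¹⁆ := by
      rw [map_commutatorElement]; rfl
    rw [this]
    exact Subgroup.commutator_mem_commutator hu' (hg k hk)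
  exact this hw

theorem wOf_le_omega (K : Subgroup G) : wOf K ≤ omegaCenterOf (pCoreOf 2 K) := by
  rw [wOf, Subgroup.commutator_le]
  intro u hu k hk
  have hk' : k * u⁻¹ * k⁻¹ ∈ omegaCenterOf (pCoreOf 2 K) := by
    obtain ⟨h1, h2, h3⟩ := mem_omegaCenterOf.1 ((omegaCenterOf (pCoreOf 2 K)).inv_mem hu)
    refine mem_omegaCenterOf.2 ⟨conj_mem_pCoreOf (fun h hh => K.mul_mem (K.mul_mem hk hh) (K.inv_mem hk)) h1,
      fun y hy => ?_, ?_⟩
    · have hy' : k⁻¹ * y * k⁻¹⁻¹ ∈ pCoreOf 2 K :=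
        conj_mem_pCoreOf (fun h hh => K.mul_mem (K.mul_mem (K.inv_mem hk) hh) (K.inv_mem (K.inv_mem hk))) hy
      calc y * (k * u⁻¹ * k⁻¹) = k * ((k⁻¹ * y * k⁻¹⁻¹) * u⁻¹) * k⁻¹ := by group
        _ = k * (u⁻¹ * (k⁻¹ * y * k⁻¹⁻¹)) * k⁻¹ := by rw [h2 _ hy']
        _ = k * u⁻¹ * k⁻¹ * y := by group
    · rw [show k * u⁻¹ * k⁻¹ * (k * u⁻¹ * k⁻¹) = k * (u⁻¹ * u⁻¹) * k⁻¹ by group, h3]; group
  rw [commutatorElement_def, mul_assoc, mul_assoc, ← mul_assoc k]
  exact (omegaCenterOf (pCoreOf 2 K)).mul_mem hu hk'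

theorem wOf_le_pCoreOf (K : Subgroup G) : wOf K ≤ pCoreOf 2 K := fun _ hw =>
  (mem_omegaCenterOf.1 (wOf_le_omega K hw)).1

theorem exists_odd_notMem (hK : IsJComponent T K) : ∃ k ∈ K, Odd (orderOf k) ∧ k ∉ pCoreOf 2 K := by
  by_contra h
  push Not at h
  have hle : K ≤ pCoreOf 2 K := by
    conv_lhs => rw [← hK.1]
    rw [Subgroup.closure_le]
    exact fun g hg => h g hg.1 hg.2
  have := hK.2.2.1
  rw [Subgroup.relIndex_eq_one.2 hle] at this
  omega

/-- The coset decomposition of `K` over its 2-core. -/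
theorem K_cases (hK : IsJComponent T K) {k : G} (hk : k ∈ K) (hkQ : k ∉ pCoreOf 2 K) :
    k * k * k ∈ pCoreOf 2 K ∧
    ∀ x ∈ K, x ∈ pCoreOf 2 K ∨ x * k⁻¹ ∈ pCoreOf 2 K ∨ x * (k * k)⁻¹ ∈ pCoreOf 2 K := by
  haveI : Fact (Nat.Prime 3) := ⟨Nat.prime_three⟩
  haveI := Components.pCore_characteristic (G := ↥K) 2
  set N := pCore 2 ↥K
  have hc : Nat.card (↥K ⧸ N) = 3 := by
    have := hK.2.2.1
    rw [Subgroup.relIndex, pCoreOf, Subgroup.subgroupOf,
      Subgroup.comap_map_eq_self_of_injective K.subtype_injective] at this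
    exact this
  have hiff : ∀ y : ↥K, QuotientGroup.mk' N y = 1 ↔ (y : G) ∈ pCoreOf 2 K := fun y => by
    rw [QuotientGroup.mk'_apply, QuotientGroup.eq_one_iff]
    exact ⟨fun h => ⟨y, h, rfl⟩, fun ⟨z, hz, e⟩ => Subtype.ext e ▸ hz⟩
  set q := QuotientGroup.mk' N ⟨k, hk⟩ with hq
  have hq1 : q ≠ 1 := fun h => hkQ ((hiff _).1 h)
  refine ⟨(hiff (⟨k, hk⟩ * ⟨k, hk⟩ * ⟨k, hk⟩)).1 ?_, fun x hx => ?_⟩
  · rw [map_mul, map_mul, ← hq, ← pow_two, ← pow_succ, show 2 + 1 = Nat.card (↥K ⧸ N) from hc.symm]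
    exact pow_card_eq_one'
  · obtain ⟨i, hi⟩ := mem_powers_of_prime_card (g := q) (g' := QuotientGroup.mk' N ⟨x, hx⟩) hc hq1
    simp only at hi
    have hq3 : q ^ 3 = 1 := hc ▸ pow_card_eq_one'
    rw [← Nat.div_add_mod i 3, pow_add, pow_mul, hq3, one_pow, one_mul] at hi
    have h3 : i % 3 = 0 ∨ i % 3 = 1 ∨ i % 3 = 2 := by omega
    rcases h3 with h | h | h <;> simp only [h] at hi
    · exact Or.inl ((hiff ⟨x, hx⟩).1 (by simpa using hi.symm))
    · refine Or.inr (Or.inl ((hiff (⟨x, hx⟩ * ⟨k, hk⟩⁻¹)).1 ?_))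
      rw [map_mul, map_inv, ← hi, pow_one, ← hq, mul_inv_cancel]
    · refine Or.inr (Or.inr ((hiff (⟨x, hx⟩ * (⟨k, hk⟩ * ⟨k, hk⟩)⁻¹)).1 ?_))
      rw [map_mul, map_inv, map_mul, ← hi, pow_two, ← hq, mul_inv_cancel]

/-- An odd element of a J-component outside the 2-core acts without fixed points on `W`. -/
theorem fpf_wOf (hK : IsJComponent T K) {k : G} (hk : k ∈ K) (hko : Odd (orderOf k)) (hkQ : k ∉ pCoreOf 2 K)
    {w : G} (hw : w ∈ wOf K) (hkw : k * w * k⁻¹ = w) : w = 1 := by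
  classical
  by_contra hw1
  obtain ⟨hk3, hcases⟩ := K_cases hK hk hkQ
  have hQW : ∀ y ∈ pCoreOf 2 K, ∀ v ∈ wOf K, y * v = v * y := fun y hy v hv =>
    (mem_omegaCenterOf.1 (wOf_le_omega K hv)).2.1 y hy
  have hk1 : ∀ v ∈ wOf K, k * v * k⁻¹ = v := by
    intro v hv
    -- conjugation by `k` is a permutation with third power one fixing two of four points
    have hmem : ∀ v ∈ wOf K, k * v * k⁻¹ ∈ wOf K := fun v hv =>
      conj_mem_wOf (fun h hh => K.mul_mem (K.mul_mem hk hh) (K.inv_mem hk)) hv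
    have h3 : k * (k * (k * v * k⁻¹) * k⁻¹) * k⁻¹ = v := by
      rw [show k * (k * (k * v * k⁻¹) * k⁻¹) * k⁻¹ = (k * k * k) * v * (k * k * k)⁻¹ by group,
        hQW _ hk3 v hv]
      group
    by_contra hne
    have hset : {1, w, v, k * v * k⁻¹, k * (k * v * k⁻¹) * k⁻¹} ⊆ (wOf K : Set G) := by
      intro x hx
      simp only [Set.mem_insert_iff, Set.mem_singleton_iff] at hx
      rcases hx with rfl | rfl | rfl | rfl | rfl
      exacts [(wOf K).one_mem, hw, hv, hmem v hv, hmem _ (hmem v hv)]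
    have hinj : ∀ {x y : G}, k * x * k⁻¹ = k * y * k⁻¹ → x = y := fun h => by simpa using h
    have n1 : v ≠ 1 := fun h => hne (by rw [h]; group)
    have n2 : v ≠ w := fun h => hne (by rw [h]; exact hkw)
    have n3 : k * v * k⁻¹ ≠ 1 := fun h => n1 (hinj (by rw [h]; group))
    have n4 : k * v * k⁻¹ ≠ w := fun h => n2 (hinj (h.trans hkw.symm))
    have n5 : k * (k * v * k⁻¹) * k⁻¹ ≠ 1 := fun h => n3 (hinj (by rw [h]; group))
    have n6 : k * (k * v * k⁻¹) * k⁻¹ ≠ w := fun h => n4 (hinj (h.trans hkw.symm))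
    have n7 : k * (k * v * k⁻¹) * k⁻¹ ≠ v := fun h => hne (by
      have := h3; rwa [h] at this)
    have n8 : k * (k * v * k⁻¹) * k⁻¹ ≠ k * v * k⁻¹ := fun h => hne (hinj h)
    have hcard := Set.ncard_le_ncard hset (Set.toFinite _)
    rw [show (wOf K : Set G).ncard = 4 from hK.2.2.2.2.1] at hcard
    have h5 : ({1, w, v, k * v * k⁻¹, k * (k * v * k⁻¹) * k⁻¹} : Set G).ncard = 5 := by
      rw [Set.ncard_insert_of_notMem (by
          simp only [Set.mem_insert_iff, Set.mem_singleton_iff, not_or]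
          exact ⟨fun h => hw1 h.symm, fun h => n1 h.symm, fun h => n3 h.symm, fun h => n5 h.symm⟩),
        Set.ncard_insert_of_notMem (by
          simp only [Set.mem_insert_iff, Set.mem_singleton_iff, not_or]
          exact ⟨fun h => n2 h.symm, fun h => n4 h.symm, fun h => n6 h.symm⟩),
        Set.ncard_insert_of_notMem (by
          simp only [Set.mem_insert_iff, Set.mem_singleton_iff, not_or]
          exact ⟨fun h => hne h.symm, fun h => n7 h.symm⟩),
        Set.ncard_pair (fun h => n8 h.symm)]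
    omega
  -- `k` centralizes `W`, hence also `Ω₁ Z(O₂ K)`
  have hU : ∀ u ∈ omegaCenterOf (pCoreOf 2 K), k * u = u * k := by
    intro u hu
    set e := k * u * k⁻¹ * u⁻¹ with he
    have heW : e ∈ wOf K := by
      have h1 := Subgroup.commutator_mem_commutator hu hk
      have h2 := (wOf K).inv_mem (show ⁅u, k⁆ ∈ wOf K from h1)
      rwa [commutatorElement_inv, commutatorElement_def] at h2
    have h := commute_pow_two_fixed (u := u) (e := e) (orderOf k) (by rw [he]; group) (hk1 e heW)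
    rw [pow_orderOf_eq_one, one_mul, inv_one, mul_one, eq_comm, mul_eq_right] at h
    have h2 : orderOf e ∣ 2 := orderOf_dvd_of_pow_eq_one (by rw [pow_two]; exact hK.2.2.2.2.2 e heW)
    have : e = 1 := orderOf_eq_one_iff.1
      (Nat.eq_one_of_dvd_coprimes (Nat.coprime_two_right.2 hko) (orderOf_dvd_of_pow_eq_one h) h2)
    rwa [he, mul_inv_eq_one, mul_inv_eq_iff_eq_mul] at this
  have hbot : wOf K = ⊥ := by
    rw [wOf, Subgroup.commutator_eq_bot_iff_le_centralizer]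
    intro u hu
    refine Subgroup.mem_centralizer_iff.2 fun x hx => ?_
    have hQu : ∀ y ∈ pCoreOf 2 K, y * u = u * y := (mem_omegaCenterOf.1 hu).2.1
    rcases hcases x hx with h | h | h
    · exact hQu x h
    · rw [show x = x * k⁻¹ * k by group]
      exact ((show Commute (x * k⁻¹) u from hQu _ h).mul_left (hU u hu)).eq
    · rw [show x = x * (k * k)⁻¹ * (k * k) by group]
      exact ((show Commute (x * (k * k)⁻¹) u from hQu _ h).mul_left
        ((show Commute k u from hU u hu).mul_left (hU u hu))).eq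
  have := hK.2.2.2.2.1
  rw [hbot, Subgroup.card_bot] at this
  omega

end component

end CfsgLib.JComp
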