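import Cfsg.Agent.JComp.Pair2

/-!
The case in which each of the two subgroups centralizes the fixed point of the other.
-/

set_option autoImplicit false
open Cfsg

namespace CfsgLib.JComp

variable {G : Type*} [Group G] [Finite G]

namespace Pair2

variable {T : Subgroup G} {K : Bool → Subgroup G} {u : Bool → G} (c : Pair2 T K u)
include c

/-- From a noncommuting pair at distance two, two good elements of order two in the middle. -/
theorem middle {s : Bool} (hcu : ∀ y ∈ K (!s) ⊔ T, y * u s = u s * y)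
    (hW : ∀ x ∈ wOf (K s), ∀ y ∈ wOf (K (!s)), x * y = y * x)
    {p a b : G} (hp : p ∈ K (!s) ⊔ T) (ha : a ∈ wOf (K s)) (hb : b ∈ wOf (K s))
    (hne : a * (p * b * p⁻¹) ≠ p * b * p⁻¹ * a) :
    ∃ k v : G, k ∈ K (!s) ∧ Odd (orderOf k) ∧ k ∉ pCoreOf 2 (K (!s)) ∧ v ∈ wOf (K s) ∧ v ≠ 1 ∧ v ≠ u s ∧
      v ∈ qOf T (K (!s)) ∧
      ∀ j ∈ ({k, k * k} : Set G), j * v * j⁻¹ ∈ qOf T (K (!s)) ∧ j * v * j⁻¹ ∉ qOf T (K s) ∧
        (j * v * j⁻¹) * (j * v * j⁻¹) = 1 ∧
        ∀ q ∈ qOf T (K (!s)), q * (j * v * j⁻¹) * q⁻¹ * (j * v * j⁻¹)⁻¹ = 1 ∨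
          q * (j * v * j⁻¹) * q⁻¹ * (j * v * j⁻¹)⁻¹ = u s := by
  classical
  set e := !s with he
  have hWQ : ∀ w ∈ wOf (K s), w ∈ qOf T (K e) := fun w hw =>
    mem_qOf.2 ⟨c.W_T hw, fun y hy => (hW w hw y hy).symm⟩
  have hfix : ∀ j ∈ K e ⊔ T, j * u s * j⁻¹ = u s := fun j hj => by rw [hcu j hj, mul_inv_cancel_right]
  have hb1 : b ≠ 1 := fun e1 => hne (by rw [e1]; simp)
  have hbu : b ≠ u s := fun e1 => hne (by rw [e1, hfix p hp, c.fixT s a (c.W_T ha)])
  obtain ⟨y, hy, t, ht, rfl⟩ := (c.side e).decomp hp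
  obtain ⟨k₀, hk₀, hk₀o, hk₀Q⟩ := exists_odd_notMem (c.side e).comp
  set v := t * b * t⁻¹ with hv
  have hvW : v ∈ wOf (K s) := c.conjWT ht hb
  have hv1 : v ≠ 1 := fun e1 => hb1 (by rw [hv] at e1; simpa using e1)
  have hvu : v ≠ u s := (c.side s).conj_ne (c.mem s) (c.ne_one s) (c.fixT s) hbu ht
  rw [show y * t * b * (y * t)⁻¹ = y * v * y⁻¹ by rw [hv]; group] at hne
  -- replace `y` by an odd element
  obtain ⟨k, hk, hko, hkQ, q, hq, rfl⟩ : ∃ k ∈ K e, Odd (orderOf k) ∧ k ∉ pCoreOf 2 (K e) ∧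
      ∃ q ∈ pCoreOf 2 (K e), y = q * k := by
    rcases (K_cases (c.side e).comp hk₀ hk₀Q).2 y hy with h | h | h
    · refine absurd ?_ hne
      have h2 := c.conjWT ((c.side e).coreT h) hvW
      exact (c.side s).W_comm ha h2
    · exact ⟨k₀, hk₀, hk₀o, hk₀Q, _, h, by group⟩
    · refine ⟨k₀ * k₀, (K e).mul_mem hk₀ hk₀, ?_, fun h1 => ?_, _, h, by group⟩
      · obtain ⟨d, hd⟩ := orderOf_pow_dvd (x := k₀) (n := 2)
        have h3 : Odd (orderOf (k₀ ^ 2)) := Odd.of_dvd_nat hk₀o ⟨d, hd⟩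
        rwa [pow_two] at h3
      · refine hk₀Q ?_
        have h2 := (pCoreOf 2 (K e)).mul_mem ((pCoreOf 2 (K e)).inv_mem h1) (K_cases (c.side e).comp hk₀ hk₀Q).1
        rwa [show (k₀ * k₀)⁻¹ * (k₀ * k₀ * k₀) = k₀ by group] at h2
  have hkP : k ∈ K e ⊔ T := Subgroup.mem_sup_left hk
  have hqT := (c.side e).coreT hq
  set x := k * v * k⁻¹ with hx
  have hxQ : x ∈ qOf T (K e) := (c.side e).conjQ hkP (hWQ v hvW)
  have hxq : ∀ j ∈ K e ⊔ T, ∀ r ∈ qOf T (K e), r * (j * v * j⁻¹) * r⁻¹ * (j * v * j⁻¹)⁻¹ = 1 ∨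
      r * (j * v * j⁻¹) * r⁻¹ * (j * v * j⁻¹)⁻¹ = u s := by
    intro j hj r hr
    have hr' : j⁻¹ * r * j ∈ T := by
      have := (c.side e).conjQ (Subgroup.inv_mem _ hj) hr
      rw [inv_inv] at this
      exact (mem_qOf.1 this).1
    have e0 : r * (j * v * j⁻¹) * r⁻¹ * (j * v * j⁻¹)⁻¹ =
        j * ((j⁻¹ * r * j) * v * (j⁻¹ * r * j)⁻¹ * v⁻¹) * j⁻¹ := by group
    rcases c.val hr' hvW with e1 | e1
    · left; rw [e0, e1]; group
    · right; rw [e0, e1, hfix j hj]
  -- `x` does not commute with `v`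
  have hxv : v * x ≠ x * v := by
    intro e1
    refine hne ?_
    have hxa : a * x = x * a := by
      rcases four_cases (c.side s).comp.2.2.2.2.1 (fun _ h => (c.side s).W_sq h) (c.mem s) hvW (c.ne_one s) hv1
        (Ne.symm hvu) ha with rfl | rfl | rfl | rfl
      · simp
      · exact (c.fixT s x (mem_qOf.1 hxQ).1).symm
      · exact e1
      · exact ((show Commute (u s) x from (c.fixT s x (mem_qOf.1 hxQ).1).symm).mul_left
          (show Commute v x from e1)).eq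
    have e2 : q * x * q⁻¹ = x ∨ q * x * q⁻¹ = u s * x := by
      rcases hxq k hkP q ((c.side e).core_le_Q hq) with e3 | e3
      · left; rw [mul_inv_eq_one] at e3; exact e3
      · right; exact mul_inv_eq_iff_eq_mul.1 e3
    rw [show q * k * v * (q * k)⁻¹ = q * x * q⁻¹ by rw [hx]; group]
    rcases e2 with e3 | e3 <;> rw [e3]
    · exact hxa
    · exact ((show Commute a (u s) from c.fixT s a (c.W_T ha)).mul_right (show Commute a x from hxa)).eq
  have hk3 : k * k * k ∈ pCoreOf 2 (K e) := (K_cases (c.side e).comp hk hkQ).1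
  refine ⟨k, v, hk, hko, hkQ, hvW, hv1, hvu, hWQ v hvW, ?_⟩
  rintro j (rfl | rfl)
  · refine ⟨hxQ, fun h => hxv ((mem_qOf.1 h).2 v hvW), ?_, hxq j hkP⟩
    rw [show j * v * j⁻¹ * (j * v * j⁻¹) = j * (v * v) * j⁻¹ by group, (c.side s).W_sq hvW]; group
  · have hkkP : k * k ∈ K e ⊔ T := (K e ⊔ T).mul_mem hkP hkP
    refine ⟨(c.side e).conjQ hkkP (hWQ v hvW), fun h => ?_, ?_, hxq _ hkkP⟩
    · -- conjugate the commutation by `k`
      refine hxv ?_
      set v' := (k * k * k) * v * (k * k * k)⁻¹ with hv'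
      have hv'W : v' ∈ wOf (K s) := c.conjWT ((c.side e).coreT hk3) hvW
      have h1 := conj_comm k ((mem_qOf.1 h).2 v hvW)
      rw [show k * (k * k * v * (k * k)⁻¹) * k⁻¹ = v' by rw [hv']; group, ← hx] at h1
      -- `x` commutes with `v'`, hence with `v`
      have hxT := (mem_qOf.1 hxQ).1
      rcases four_cases (c.side s).comp.2.2.2.2.1 (fun _ h => (c.side s).W_sq h) (c.mem s) hvW (c.ne_one s) hv1
        (Ne.symm hvu) hv'W with e1 | e1 | e1 | e1
      · refine absurd ?_ hv1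
        calc v = (k * k * k)⁻¹ * v' * (k * k * k) := by rw [hv']; group
          _ = 1 := by rw [e1]; group
      · exact absurd e1 ((c.side s).conj_ne (c.mem s) (c.ne_one s) (c.fixT s) hvu ((c.side e).coreT hk3))
      · rw [e1] at h1; exact h1.symm
      · rw [e1] at h1
        have h2 : Commute x (u s) := c.fixT s x hxT
        have h3 : Commute x ((u s)⁻¹ * (u s * v)) := h2.inv_right.mul_right h1
        rw [inv_mul_cancel_left] at h3
        exact h3.eq.symm
    · rw [show k * k * v * (k * k)⁻¹ * (k * k * v * (k * k)⁻¹) = k * k * (v * v) * (k * k)⁻¹ by group,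
        (c.side s).W_sq hvW]; group

/-- Both subgroups cannot centralize the fixed point of the other with a pair at distance two. -/
theorem double_false (hu : u false ≠ u true) (hcu : ∀ i, ∀ y ∈ K i ⊔ T, y * u (!i) = u (!i) * y)
    {s : Bool} {p a b : G} (hp : p ∈ K (!s) ⊔ T) (ha : a ∈ wOf (K s)) (hb : b ∈ wOf (K s))
    (hne : a * (p * b * p⁻¹) ≠ p * b * p⁻¹ * a) : False := by
  classical
  have hW := c.comm_of_ne hu
  have hWQ : ∀ i, ∀ w ∈ wOf (K i), w ∈ qOf T (K (!i)) := fun i w hw =>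
    mem_qOf.2 ⟨c.W_T hw, fun y hy => (hW i w hw y hy).symm⟩
  obtain ⟨k, v, hk, hko, hkQ, hv, hv1, hvu, hvQ, hmid⟩ :=
    c.middle (s := s) (by simpa using hcu (!s)) (hW s) hp ha hb hne
  have hkP : k ∈ K (!s) ⊔ T := Subgroup.mem_sup_left hk
  set x := k * v * k⁻¹ with hx
  set x' := k * k * v * (k * k)⁻¹ with hx'
  obtain ⟨hxQ, hxnQ, hxsq, hxq⟩ := hmid k (Or.inl rfl)
  obtain ⟨hx'Q, hx'nQ, hx'sq, hx'q⟩ := hmid (k * k) (Or.inr rfl)
  rw [← hx] at hxQ hxnQ hxsq hxq
  rw [← hx'] at hx'Q hx'nQ hx'sq hx'q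
  have husq : u s * u s = 1 := (c.side s).W_sq (c.mem s)
  have hxT := (mem_qOf.1 hxQ).1
  have hx'T := (mem_qOf.1 hx'Q).1
  -- `[x', x] = u_s`
  have hxx : x' * x * x'⁻¹ * x⁻¹ = u s := by
    have h1 : x * v * x⁻¹ * v⁻¹ = u s :=
      (c.val_ne hxT hv fun e => hxnQ ((c.side s).cent_eq (c.mem s) (c.ne_one s) (c.fixT s) hxT hv hv1 hvu e)).1
    have h2 : x' * x * x'⁻¹ * x⁻¹ = k * (x * v * x⁻¹ * v⁻¹) * k⁻¹ := by rw [hx', hx]; group
    rw [h2, h1, show k * u s * k⁻¹ = u s by rw [(by simpa using hcu (!s) k hkP : k * u s = u s * k), mul_inv_cancel_right]]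
  set D := qOf T (K (!s)) ⊓ qOf T (K s) with hD
  by_cases hall : ∀ l ∈ K s ⊔ T, ∀ y ∈ wOf (K (!s)), ∀ z ∈ wOf (K (!s)), z * (l * y * l⁻¹) = l * y * l⁻¹ * z
  · -- `⟨K_s, T⟩` normalizes `D`
    obtain ⟨l, hl, hlo, hlQ⟩ := exists_odd_notMem (c.side s).comp
    have hlP : l ∈ K s ⊔ T := Subgroup.mem_sup_left hl
    have hlR := (c.side s).normalizes_sup (c.mem s) (c.ne_one s) (c.fixT s) (V := wOf (K (!s))) hl hlo hlQ
      hxT hxnQ (fun t ht w hw => c.conjWT ht hw) (fun y hy => by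
        have hyQ : l * y * l⁻¹ ∈ qOf T (K (!s)) := mem_qOf.2
          ⟨(mem_qOf.1 ((c.side s).conjQ hlP (by simpa using hWQ (!s) y hy))).1, fun z hz => hall l hlP y hy z hz⟩
        have e : x * (l * y * l⁻¹) * x⁻¹ * (l * y * l⁻¹)⁻¹ =
            (l * y * l⁻¹ * x * (l * y * l⁻¹)⁻¹ * x⁻¹)⁻¹ := by group
        rcases hxq _ hyQ with e' | e'
        · left; rw [e, e', inv_one]
        · right; rw [e, e', (c.side s).W_inv (c.mem s)])
    have hRD : ∀ d ∈ D, ∀ r ∈ wOf (K s) ⊔ wOf (K (!s)), r * d = d * r := by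
      intro d hd r hr
      have hle : wOf (K s) ⊔ wOf (K (!s)) ≤ Subgroup.centralizer ({d} : Set G) :=
        sup_le (fun w hw => Subgroup.mem_centralizer_singleton_iff.2 ((mem_qOf.1 hd.2).2 w hw))
          (fun w hw => Subgroup.mem_centralizer_singleton_iff.2 ((mem_qOf.1 hd.1).2 w hw))
      exact Subgroup.mem_centralizer_singleton_iff.1 (hle hr)
    set d := x' * x with hd
    have hdD : d ∈ D := ⟨(qOf T (K (!s))).mul_mem hx'Q hxQ,
      (c.side s).off_mul (c.mem s) (c.ne_one s) (c.fixT s) hx'T hx'nQ hxT hxnQ⟩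
    have hdsq : d * d = u s := by
      rw [← hxx, hd, inv_eq_of_mul_eq_one_left hx'sq, inv_eq_of_mul_eq_one_left hxsq]; group
    set d' := l * d * l⁻¹ with hd'
    have hd'Q : d' ∈ qOf T (K (!s)) := by
      refine mem_qOf.2 ⟨(mem_qOf.1 ((c.side s).conjQ hlP hdD.2)).1, fun z hz => ?_⟩
      have hr : l⁻¹ * z * l ∈ wOf (K s) ⊔ wOf (K (!s)) := by
        have := (Subgroup.mem_normalizer_iff.1 (Subgroup.inv_mem _ hlR) z).1 (Subgroup.mem_sup_right hz)
        rwa [inv_inv] at this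
      have := conj_comm l (hRD d hdD _ hr)
      rwa [show l * (l⁻¹ * z * l) * l⁻¹ = z by group] at this
    -- `x` centralizes a square of `Q`
    have hc : x * (d' * d') = d' * d' * x := by
      have e0 : x * d' * x⁻¹ = d' ∨ x * d' * x⁻¹ = u s * d' := by
        rcases hxq d' hd'Q with e | e
        · left
          rw [mul_inv_eq_one, mul_inv_eq_iff_eq_mul] at e
          rw [← e, mul_inv_cancel_right]
        · right
          refine mul_inv_eq_iff_eq_mul.1 ?_
          rw [show x * d' * x⁻¹ * d'⁻¹ = (d' * x * d'⁻¹ * x⁻¹)⁻¹ by group, e, (c.side s).W_inv (c.mem s)]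
      refine mul_inv_eq_iff_eq_mul.1 ?_
      rw [show x * (d' * d') * x⁻¹ = (x * d' * x⁻¹) * (x * d' * x⁻¹) by group]
      rcases e0 with e | e <;> rw [e]
      rw [show u s * d' * (u s * d') = u s * (d' * u s) * d' by group, c.fixT s d' (mem_qOf.1 hd'Q).1,
        show u s * (u s * d') * d' = (u s * u s) * (d' * d') by group, husq, one_mul]
    rw [show d' * d' = l * (d * d) * l⁻¹ by rw [hd']; group, hdsq] at hc
    obtain ⟨m1, m2, m3⟩ := (c.side s).not_mem_cent (c.mem s) (c.ne_one s) hl hlo hlQ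
    exact hxnQ ((c.side s).cent_eq (c.mem s) (c.ne_one s) (c.fixT s) hxT m1 m2 m3 hc.symm)
  -- a pair in the other middle
  push Not at hall
  obtain ⟨p', hp', b', hb', a', ha', hne'⟩ := hall
  obtain ⟨k', v', hk', -, -, -, -, -, -, hmid'⟩ :=
    c.middle (s := !s) (by simpa using hcu s) (hW (!s)) (by simpa using hp') ha' hb' hne'
  set y := k' * v' * k'⁻¹ with hy
  obtain ⟨hyQ, hynQ, hysq, hyq⟩ := hmid' k' (Or.inl rfl)
  rw [← hy] at hyQ hynQ hysq hyq
  rw [Bool.not_not] at hyQ hyq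
  have hyT := (mem_qOf.1 hyQ).1
  -- `yxy⁻¹` is `x'` up to `u_s`
  obtain ⟨q, hq, hswap⟩ := (c.side (!s)).swap hk hko hkQ hyT hynQ
  have hz : y * x * y⁻¹ = x' ∨ y * x * y⁻¹ = u s * x' := by
    have e : y * x * y⁻¹ = q * x' * q⁻¹ := by
      calc y * x * y⁻¹ = (y * k * y⁻¹) * (y * v * y⁻¹) * (y * k * y⁻¹)⁻¹ := by rw [hx]; group
        _ = q * (k * k) * v * (q * (k * k))⁻¹ := by rw [hswap, ← (mem_qOf.1 hyQ).2 v hv, mul_inv_cancel_right]
        _ = _ := by rw [hx']; group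
    rw [e]
    rcases hx'q q ((c.side (!s)).core_le_Q hq) with e' | e'
    · left; rw [mul_inv_eq_one] at e'; exact e'
    · right; exact mul_inv_eq_iff_eq_mul.1 e'
  have iy : y⁻¹ = y := inv_eq_of_mul_eq_one_left hysq
  have ix : x⁻¹ = x := inv_eq_of_mul_eq_one_left hxsq
  have ix' : x'⁻¹ = x' := inv_eq_of_mul_eq_one_left hx'sq
  rw [iy] at hz
  rw [ix, ix'] at hxx
  -- the square of `xyxy`, computed twice
  have h1 : x * y * x * y * (x * y * x * y) = u s := by
    have hxx' : x * x' * (x * x') = u s := by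
      calc x * x' * (x * x') = x * (x' * x * x' * x) * x⁻¹ := by group
        _ = u s := by rw [hxx, c.cent_u hxT]
    rcases hz with e | e
    · rw [show x * y * x * y * (x * y * x * y) = x * (y * x * y) * (x * (y * x * y)) by group, e]
      exact hxx'
    · have hu1 : u s * x = x * u s := (c.fixT s x hxT).symm
      have hu2 : u s * x' = x' * u s := (c.fixT s x' hx'T).symm
      rw [show x * y * x * y * (x * y * x * y) = x * (y * x * y) * (x * (y * x * y)) by group, e,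
        show x * (u s * x') * (x * (u s * x')) = x * (u s * x') * x * u s * x' by group, hu2,
        show x * (x' * u s) * x * u s * x' = x * x' * (u s * x) * u s * x' by group, hu1,
        show x * x' * (x * u s) * u s * x' = x * x' * x * (u s * u s) * x' by group, husq, mul_one, ← hxx']
      group
  have hwQ : x * y * x ∈ qOf T (K s) := by
    have := (c.side s).conjQ (Subgroup.mem_sup_right hxT) hyQ
    rwa [ix] at this
  have iw : (x * y * x)⁻¹ = x * y * x := inv_eq_of_mul_eq_one_left (by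
    rw [show x * y * x * (x * y * x) = x * y * (x * x) * y * x by group, hxsq, mul_one,
      show x * y * y * x = x * (y * y) * x by group, hysq, mul_one, hxsq])
  have h2 : x * y * x * y * (x * y * x * y) = x * y * x * y * (x * y * x)⁻¹ * y⁻¹ := by rw [iw, iy]; group
  rw [h2] at h1
  rcases hyq _ hwQ with e | e
  · exact c.ne_one s (h1.symm.trans e)
  · have e3 := h1.symm.trans e
    cases s
    · exact hu e3
    · exact hu e3.symm

end Pair2

end CfsgLib.JComp
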