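import Cfsg.Agent.JComp.LocalGroups
import Cfsg.Agent.PReduced.Hom

/-!
Existence of J(T)-components.
-/

set_option autoImplicit false
open scoped commutatorElement
open Cfsg

namespace CfsgLib.JComp

variable {G : Type*} [Group G] [Finite G] {L T : Subgroup G}

/-- All 2-subgroups of `L` above `J(T)` share its Thompson subgroup. -/
theorem thompson_eq_of_le (hT : IsSylowTwoIn T L) {S : Subgroup G} (hS : IsPGroup 2 ↥S) (hSL : S ≤ L)
    (hJ : thompsonSubgroupOf 2 T ≤ S) : thompsonSubgroupOf 2 S = thompsonSubgroupOf 2 T := by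
  obtain ⟨g, hg, hgS⟩ := sylow_conj hT hS hSL
  set T₁ := T.map (MulAut.conj g⁻¹).toMonoidHom with hT₁
  have hST : S ≤ T₁ := fun x hx => ⟨g * x * g⁻¹, hgS x hx, by simp [MulAut.conj_apply, mul_assoc]⟩
  have hT₁L : T₁ ≤ L := by
    rintro _ ⟨x, hx, rfl⟩
    exact L.mul_mem (L.mul_mem (L.inv_mem hg) (hT.1 hx)) (L.inv_mem (L.inv_mem hg))
  have hT₁max : ∀ A, IsMaxEl T₁ A → IsMaxEl L A := by
    intro A hA
    refine ⟨hA.le.trans hT₁L, hA.el, fun B hB hBe => ?_⟩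
    obtain ⟨A₀, hA₀⟩ := exists_maxEl T
    have h1 := hA₀.map (MulAut.conj g⁻¹)
    refine ((maxEl_conj hT hA₀).max B hB hBe).trans ?_
    rw [← show Nat.card ↥(A₀.map (MulAut.conj g⁻¹).toMonoidHom) = Nat.card A₀ from
      Subgroup.card_map_of_injective (MulAut.conj g⁻¹).injective]
    exact hA.max _ h1.le h1.el
  have hle : thompsonSubgroupOf 2 T ≤ thompsonSubgroupOf 2 T₁ := thompson_le fun A hA =>
    IsMaxEl.le_thompson ⟨(hA.le_thompson.trans hJ).trans hST, hA.el, fun B hB hBe =>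
      (maxEl_conj hT hA).max B (hB.trans hT₁L) hBe⟩
  have heq : thompsonSubgroupOf 2 T = thompsonSubgroupOf 2 T₁ := by
    refine Subgroup.eq_of_le_of_card_ge hle ?_
    rw [hT₁, thompson_map, Subgroup.card_map_of_injective (MulAut.conj g⁻¹).injective]
  refine le_antisymm (thompson_le fun B hB => ?_) (thompson_le fun A hA => ?_)
  · rw [heq]
    refine IsMaxEl.le_thompson ⟨hB.le.trans hST, hB.el, fun D hD hDe => ?_⟩
    obtain ⟨A₀, hA₀⟩ := exists_maxEl T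
    exact ((maxEl_conj hT hA₀).max D (hD.trans hT₁L) hDe).trans
      (hB.max A₀ (hA₀.le_thompson.trans hJ) hA₀.el)
  · exact IsMaxEl.le_thompson ⟨hA.le_thompson.trans hJ, hA.el, fun D hD hDe =>
      (maxEl_conj hT hA).max D (hD.trans hSL) hDe⟩

theorem fixed_of_conj {x y : G} (h : x * y * x⁻¹ = y) : x * y = y * x := mul_inv_eq_iff_eq_mul.1 h

theorem subgroup_card_sup (A B : Subgroup G) (h : A ≤ Subgroup.normalizer (B : Set G)) :
    Nat.card A * Nat.card B ≤ Nat.card ↥(A ⊔ B) * Nat.card ↥(A ⊓ B) :=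
  (CfsgLib.ZJ.card_sup_mul_card_inf_of_le_normalizer h).ge

/-- A J(T)-component through an element of order three inverted modulo the 2-core. -/
theorem exists_component (cx : LocalCtx L) (hT : IsSylowTwoIn T L) {k : G} (hkL : k ∈ L) (hk3 : k ^ 3 = 1)
    (hkC : k ∉ cOf L) (hnorm : ∀ b ∈ thompsonSubgroupOf 2 T, b * k * b⁻¹ ∈ Subgroup.zpowers k ⊔ pCoreOf 2 L)
    (hinv : ∃ A, IsMaxEl T A ∧ ∃ a ∈ A, a * k * a⁻¹ * k ∈ pCoreOf 2 L) :
    ∃ K : Subgroup G, IsJComponent T K ∧ k ∈ K ∧ K ≤ L := by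
  haveI : Fact (Nat.Prime 2) := ⟨Nat.prime_two⟩
  haveI : Fact (Nat.Prime 3) := ⟨Nat.prime_three⟩
  set O := pCoreOf 2 L with hO
  set J := thompsonSubgroupOf 2 T with hJdef
  set X := Subgroup.zpowers k ⊔ O with hX
  have hkO : k ∉ O := fun h => hkC (core_le_cOf h)
  have hk1 : k ≠ 1 := fun h => hkO (h ▸ O.one_mem)
  have hko : orderOf k = 3 := orderOf_eq_prime hk3 hk1
  have hXL : X ≤ L := sup_le (Subgroup.zpowers_le.2 hkL) (pCoreOf_le L)
  have hkX : k ∈ X := Subgroup.mem_sup_left (Subgroup.mem_zpowers k)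
  have hOn : Subgroup.zpowers k ≤ Subgroup.normalizer (O : Set G) := by
    refine Subgroup.zpowers_le.2 (Subgroup.mem_normalizer_iff.2 fun x => ⟨conj_mem_core hkL, fun h => ?_⟩)
    have := conj_mem_core (L.inv_mem hkL) h
    rwa [show k⁻¹ * (k * x * k⁻¹) * k⁻¹⁻¹ = x by group] at this
  have hXdec : ∀ x ∈ X, ∃ i : ℤ, ∃ o ∈ O, x = k ^ i * o := by
    intro x hx
    rw [← SetLike.mem_coe, hX, Subgroup.coe_mul_of_left_le_normalizer_right _ _ hOn] at hx
    obtain ⟨_, ⟨i, rfl⟩, o, ho, rfl⟩ := hx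
    exact ⟨i, o, ho, rfl⟩
  -- `k ^ i` is trivial when congruent to a 2-element modulo O
  have hker : ∀ i : ℤ, ∀ n : ℕ, (k ^ i) ^ 2 ^ n ∈ O → k ^ i = 1 := by
    intro i n hn
    obtain ⟨m, hm⟩ := isPGroup_pCoreOf L ⟨_, hn⟩
    have h1 : (k ^ i) ^ (2 ^ n * 2 ^ m) = 1 := by rw [pow_mul]; simpa using congrArg Subtype.val hm
    rw [← pow_add] at h1
    have h3 : (k ^ i) ^ 3 = 1 := by rw [← zpow_natCast, ← zpow_mul, mul_comm, zpow_mul, zpow_natCast, hk3, one_zpow]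
    exact orderOf_eq_one_iff.1 (Nat.eq_one_of_dvd_coprimes ((by norm_num : Nat.Coprime 3 2).pow_right _)
      (orderOf_dvd_of_pow_eq_one h3) (orderOf_dvd_of_pow_eq_one h1))
  set K := Subgroup.closure {g : G | g ∈ X ∧ Odd (orderOf g)} with hKdef
  have hKX : K ≤ X := (Subgroup.closure_le X).2 fun g hg => hg.1
  have hkK : k ∈ K := Subgroup.subset_closure ⟨hkX, by rw [hko]; exact ⟨1, rfl⟩⟩
  have hKdec : ∀ x ∈ K, ∃ i : ℤ, ∃ o ∈ O, o ∈ K ∧ x = k ^ i * o := by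
    intro x hx
    obtain ⟨i, o, ho, rfl⟩ := hXdec x (hKX hx)
    refine ⟨i, o, ho, ?_, rfl⟩
    simpa using K.mul_mem (K.inv_mem (K.zpow_mem hkK i)) hx
  have hgenK : Subgroup.closure {g : G | g ∈ K ∧ Odd (orderOf g)} = K :=
    le_antisymm ((Subgroup.closure_le K).2 fun g hg => hg.1)
      ((Subgroup.closure_le _).2 fun g hg => Subgroup.subset_closure ⟨Subgroup.subset_closure hg, hg.2⟩)
  have hJL : J ≤ L := (thompson_le_self T).trans hT.1
  have hJK : ∀ b ∈ J, ∀ x ∈ K, b * x * b⁻¹ ∈ K := by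
    intro b hb
    have hbX : X ≤ X.comap (MulAut.conj b).toMonoidHom := by
      refine sup_le (Subgroup.zpowers_le.2 (hnorm b hb)) fun o ho => ?_
      exact Subgroup.mem_sup_right (conj_mem_core (hJL hb) ho)
    intro x hx
    have : K ≤ K.comap (MulAut.conj b).toMonoidHom := by
      rw [hKdef, Subgroup.closure_le]
      exact fun g hg => Subgroup.subset_closure ⟨hbX hg.1, by rw [MulEquiv.coe_toMonoidHom, MulEquiv.orderOf_eq]; exact hg.2⟩
    exact this hx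
  have hJKn : J ≤ Subgroup.normalizer (K : Set G) := fun b hb => Subgroup.mem_normalizer_fintype (hJK b hb)
  -- the 2-core of K
  set Q := pCoreOf 2 K with hQdef
  have hQeq : Q = K ⊓ O := by
    refine le_antisymm ?_ ?_
    · intro x hx
      refine ⟨pCoreOf_le K hx, ?_⟩
      obtain ⟨i, o, ho, hoK, rfl⟩ := hKdec x (pCoreOf_le K hx)
      have hoQ : o ∈ Q := by
        have hn : ((K ⊓ O).subgroupOf K).Normal := ⟨fun z hz g =>
          ⟨K.mul_mem (K.mul_mem g.2 hz.1) (K.inv_mem g.2), conj_mem_core (hXL (hKX g.2)) hz.2⟩⟩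
        exact ⟨⟨o, hoK⟩, Components.le_pCore hn ((isPGroup_pCoreOf L).to_le inf_le_right).comap_subtype ⟨hoK, ho⟩, rfl⟩
      have hki : k ^ i ∈ Q := by simpa using Q.mul_mem hx (Q.inv_mem hoQ)
      obtain ⟨n, hn⟩ := isPGroup_pCoreOf K ⟨_, hki⟩
      have h0 : k ^ i = 1 := hker i n (by
        rw [show (k ^ i) ^ 2 ^ n = 1 by simpa using congrArg Subtype.val hn]; exact O.one_mem)
      rw [h0, one_mul]; exact ho
    · intro x hx
      have hn : ((K ⊓ O).subgroupOf K).Normal := ⟨fun z hz g =>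
        ⟨K.mul_mem (K.mul_mem g.2 hz.1) (K.inv_mem g.2), conj_mem_core (hXL (hKX g.2)) hz.2⟩⟩
      exact ⟨⟨x, hx.1⟩, Components.le_pCore hn ((isPGroup_pCoreOf L).to_le inf_le_right).comap_subtype hx, rfl⟩
  have hidx : Q.relIndex K = 3 := by
    haveI hn : (Q.subgroupOf K).Normal := ⟨fun z hz g =>
      conj_mem_pCoreOf (fun h hh => K.mul_mem (K.mul_mem g.2 hh) (K.inv_mem g.2)) hz⟩
    let f : ↥(Subgroup.zpowers k) →* ↥K ⧸ Q.subgroupOf K :=
      (QuotientGroup.mk' _).comp (Subgroup.inclusion (Subgroup.zpowers_le.2 hkK))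
    have hf : Function.Bijective f := by
      constructor
      · rw [injective_iff_map_eq_one]
        rintro ⟨_, i, rfl⟩ h
        have h' : k ^ i ∈ Q := (QuotientGroup.eq_one_iff (N := Q.subgroupOf K) _).1 h
        rw [hQeq] at h'
        exact Subtype.ext (hker i 0 (by simpa using h'.2))
      · intro y
        obtain ⟨⟨x, hx⟩, rfl⟩ := QuotientGroup.mk'_surjective _ y
        obtain ⟨i, o, ho, hoK, rfl⟩ := hKdec x hx
        refine ⟨⟨k ^ i, i, rfl⟩, QuotientGroup.eq.2 ?_⟩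
        show (k ^ i)⁻¹ * (k ^ i * o) ∈ Q
        rw [inv_mul_cancel_left, hQeq]
        exact ⟨hoK, ho⟩
    rw [Subgroup.relIndex, Subgroup.index, ← Nat.card_congr (MulEquiv.ofBijective f hf).toEquiv,
      Nat.card_zpowers, hko]
  obtain ⟨A, hA, a, ha, hak⟩ := hinv
  have haJ : a ∈ J := hA.le_thompson ha
  have ha2 : a * a = 1 := el_sq hA.el ha
  have hai : a⁻¹ = a := inv_eq_of_mul_eq_one_left ha2
  have hcommK : ⁅K, J⁆ = K := by
    refine le_antisymm (Subgroup.commutator_le.2 fun x hx j hj => ?_) ?_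
    · rw [commutatorElement_def, show x * j * x⁻¹ * j⁻¹ = x * (j * x⁻¹ * j⁻¹) by group]
      exact K.mul_mem hx (hJK j hj _ (K.inv_mem hx))
    set Y := ⁅K, J⁆
    have hYK : Y ≤ K := Subgroup.commutator_le.2 fun x hx j hj => by
      rw [commutatorElement_def, show x * j * x⁻¹ * j⁻¹ = x * (j * x⁻¹ * j⁻¹) by group]
      exact K.mul_mem hx (hJK j hj _ (K.inv_mem hx))
    haveI : (Y.subgroupOf K).Normal :=
      Subgroup.normal_subgroupOf_of_le_normalizer CfsgLib.CoprimeAction.self_le_normalizer_commutator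
    set q := QuotientGroup.mk' (Y.subgroupOf K)
    have htwoY : ∀ (o : G) (hoK : o ∈ K), o ∈ O → ∀ m : ℕ, Odd m → q ⟨o, hoK⟩ ^ m = 1 → q ⟨o, hoK⟩ = 1 := by
      intro o hoK ho m hm h1
      obtain ⟨n, hn⟩ := isPGroup_pCoreOf L ⟨o, ho⟩
      have h2 : q ⟨o, hoK⟩ ^ 2 ^ n = 1 := by
        rw [← map_pow, show (⟨o, hoK⟩ : ↥K) ^ 2 ^ n = 1 from Subtype.ext (by simpa using congrArg Subtype.val hn),
          map_one]
      exact orderOf_eq_one_iff.1 (Nat.eq_one_of_dvd_coprimes ((Nat.coprime_two_right.2 hm).pow_right n)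
        (orderOf_dvd_of_pow_eq_one h1) (orderOf_dvd_of_pow_eq_one h2))
    have hqk : q ⟨k, hkK⟩ = 1 := by
      have hz : a * k * a⁻¹ * k ∈ K := K.mul_mem (hJK a haJ k hkK) hkK
      have h1 : q ⟨k, hkK⟩ * q ⟨k, hkK⟩ = q ⟨a * k * a⁻¹ * k, hz⟩ := by
        rw [← map_mul]
        refine QuotientGroup.eq.2 ?_
        show (k * k)⁻¹ * (a * k * a⁻¹ * k) ∈ Y
        rw [show (k * k)⁻¹ * (a * k * a⁻¹ * k) = k⁻¹ * (k⁻¹ * a * k⁻¹⁻¹ * a⁻¹) * k⁻¹⁻¹ by group]
        exact (Subgroup.mem_normalizer_iff.1 (CfsgLib.CoprimeAction.self_le_normalizer_commutator (K.inv_mem hkK)) _).1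
          (Subgroup.commutator_mem_commutator (K.inv_mem hkK) haJ)
      have h3 : q ⟨k, hkK⟩ ^ 3 = 1 := by
        rw [← map_pow, show (⟨k, hkK⟩ : ↥K) ^ 3 = 1 from Subtype.ext hk3, map_one]
      have h4 := htwoY _ hz hak 3 ⟨1, rfl⟩ (by rw [← h1, ← pow_two, ← pow_mul, mul_comm, pow_mul, h3, one_pow])
      rw [h4] at h1
      rwa [pow_succ, pow_two, h1, one_mul] at h3
    conv_lhs => rw [← hgenK]
    rw [Subgroup.closure_le]
    rintro g ⟨hg, hgo⟩
    obtain ⟨i, o, ho, hoK, rfl⟩ := hKdec g hg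
    have h1 : q ⟨_, hg⟩ = q ⟨o, hoK⟩ := by
      rw [show (⟨k ^ i * o, hg⟩ : ↥K) = ⟨k, hkK⟩ ^ i * ⟨o, hoK⟩ from Subtype.ext (by simp), map_mul, map_zpow, hqk,
        one_zpow, one_mul]
    have h2 : q ⟨o, hoK⟩ = 1 := htwoY o hoK ho _ hgo (by
      rw [← h1, ← map_pow, show (⟨k ^ i * o, hg⟩ : ↥K) ^ orderOf (k ^ i * o) = 1 from
        Subtype.ext (by simpa using pow_orderOf_eq_one (k ^ i * o)), map_one])
    rw [h2] at h1
    exact (QuotientGroup.eq_one_iff (N := Y.subgroupOf K) ⟨_, hg⟩).1 h1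
  -- the four-group
  set U := omegaCenterOf Q with hU
  have hUmem : ∀ u ∈ U, u ∈ Q ∧ (∀ y ∈ Q, y * u = u * y) ∧ u * u = 1 := fun u hu => mem_omegaCenterOf.1 hu
  have hUc : ∀ x ∈ U, ∀ y ∈ U, x * y = y * x := fun x hx y hy => ((hUmem y hy).2.1 x (hUmem x hx).1)
  have hUconj : ∀ g : G, (∀ h ∈ K, g * h * g⁻¹ ∈ K) → (∀ h ∈ K, g⁻¹ * h * g⁻¹⁻¹ ∈ K) → ∀ u ∈ U, g * u * g⁻¹ ∈ U := by
    intro g hg hg' u hu
    obtain ⟨h1, h2, h3⟩ := hUmem u hu
    refine mem_omegaCenterOf.2 ⟨conj_mem_pCoreOf hg h1, fun y hy => ?_, ?_⟩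
    · have hy' := conj_mem_pCoreOf hg' hy
      calc y * (g * u * g⁻¹) = g * ((g⁻¹ * y * g⁻¹⁻¹) * u) * g⁻¹ := by group
        _ = g * (u * (g⁻¹ * y * g⁻¹⁻¹)) * g⁻¹ := by rw [h2 _ hy']
        _ = g * u * g⁻¹ * y := by group
    · rw [show g * u * g⁻¹ * (g * u * g⁻¹) = g * (u * u) * g⁻¹ by group, h3]; group
  have hUk : ∀ g ∈ K, ∀ u ∈ U, g * u * g⁻¹ ∈ U := fun g hg => hUconj g
    (fun h hh => K.mul_mem (K.mul_mem hg hh) (K.inv_mem hg))
    (fun h hh => K.mul_mem (K.mul_mem (K.inv_mem hg) hh) (K.inv_mem (K.inv_mem hg)))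
  have hUJ : ∀ b ∈ J, ∀ u ∈ U, b * u * b⁻¹ ∈ U := fun b hb => hUconj b (hJK b hb) (hJK _ (J.inv_mem hb))
  let Y : Subgroup G :=
    { carrier := {e | ∃ u ∈ U, e = u * (k * u⁻¹ * k⁻¹)}
      one_mem' := ⟨1, U.one_mem, by group⟩
      mul_mem' := by
        rintro _ _ ⟨u, hu, rfl⟩ ⟨v, hv, rfl⟩
        refine ⟨u * v, U.mul_mem hu hv, ?_⟩
        have e1 : (k * u⁻¹ * k⁻¹) * v = v * (k * u⁻¹ * k⁻¹) := hUc _ (hUk k hkK _ (U.inv_mem hu)) v hv
        rw [show u * (k * u⁻¹ * k⁻¹) * (v * (k * v⁻¹ * k⁻¹)) = u * ((k * u⁻¹ * k⁻¹) * v) * (k * v⁻¹ * k⁻¹) by group,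
          e1, show (u * v)⁻¹ = u⁻¹ * v⁻¹ by rw [mul_inv_rev]; exact hUc _ (U.inv_mem hv) _ (U.inv_mem hu)]
        group
      inv_mem' := by
        rintro _ ⟨u, hu, rfl⟩
        refine ⟨u⁻¹, U.inv_mem hu, ?_⟩
        rw [mul_inv_rev, show (k * u⁻¹ * k⁻¹)⁻¹ = k * u⁻¹⁻¹ * k⁻¹ by group]
        exact hUc _ (hUk k hkK _ (U.inv_mem (U.inv_mem hu))) _ (U.inv_mem hu) }
  have hYU : Y ≤ U := by rintro _ ⟨u, hu, rfl⟩; exact U.mul_mem hu (hUk k hkK _ (U.inv_mem hu))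
  have hYsq : ∀ y ∈ Y, y * y = 1 := fun y hy => (hUmem y (hYU hy)).2.2
  have hYi : ∀ y ∈ Y, y⁻¹ = y := fun y hy => inv_eq_of_mul_eq_one_left (hYsq y hy)
  have hYc : ∀ x ∈ Y, ∀ y ∈ Y, x * y = y * x := fun x hx y hy => hUc x (hYU hx) y (hYU hy)
  have hQfix : ∀ o ∈ K, o ∈ O → ∀ u ∈ U, o * u * o⁻¹ = u := fun o hoK ho u hu => by
    rw [(hUmem u hu).2.1 o (hQeq.ge ⟨hoK, ho⟩), mul_inv_cancel_right]
  have hYk : ∀ y ∈ Y, k * y * k⁻¹ ∈ Y := by
    rintro _ ⟨u, hu, rfl⟩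
    exact ⟨k * u * k⁻¹, hUk k hkK u hu, by group⟩
  have hW : wOf K = Y := by
    refine le_antisymm ?_ ?_
    · rw [wOf, Subgroup.commutator_le]
      intro u hu x hx
      obtain ⟨i, o, ho, hoK, rfl⟩ := hKdec x hx
      rw [commutatorElement_def, show u * (k ^ i * o) * u⁻¹ * (k ^ i * o)⁻¹ =
        u * (k ^ i * (o * u⁻¹ * o⁻¹) * (k ^ i)⁻¹) by group, hQfix o hoK ho _ (U.inv_mem hu)]
      have hnat : ∀ n : ℕ, u * (k ^ n * u⁻¹ * (k ^ n)⁻¹) ∈ Y := by
        intro n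
        induction n with
        | zero => simp
        | succ n ih =>
          have e : u * (k ^ (n + 1) * u⁻¹ * (k ^ (n + 1))⁻¹) =
              (u * (k * u⁻¹ * k⁻¹)) * (k * (u * (k ^ n * u⁻¹ * (k ^ n)⁻¹)) * k⁻¹) := by
            rw [pow_succ' k]; group
          rw [e]
          exact Y.mul_mem ⟨u, hu, rfl⟩ (hYk _ ih)
      obtain ⟨n, hn⟩ := (isOfFinOrder_of_finite k).mem_powers_iff_mem_zpowers.2 (show k ^ i ∈ Subgroup.zpowers k from ⟨i, rfl⟩)
      rw [← show k ^ n = k ^ i from hn]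
      exact hnat n
    · rintro _ ⟨u, hu, rfl⟩
      have := Subgroup.commutator_mem_commutator hu hkK
      rw [commutatorElement_def] at this
      rwa [← mul_assoc, ← mul_assoc]
  have hfp : ∀ y ∈ Y, k * y * k⁻¹ = y → y = 1 := by
    rintro _ ⟨u, hu, rfl⟩ hy
    set e := u * (k * u⁻¹ * k⁻¹) with he
    have heY : e ∈ Y := ⟨u, hu, rfl⟩
    have hku : k * u * k⁻¹ = e * u := by
      have h1 : e⁻¹ = e := hYi e heY
      calc k * u * k⁻¹ = e⁻¹ * u := by rw [he]; group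
        _ = e * u := by rw [h1]
    have h := commute_pow_two_fixed (u := u) (e := e) 3 hku hy
    rw [hk3, one_mul, inv_one, mul_one, eq_comm, mul_eq_right, pow_succ, pow_two, hYsq e heY, one_mul] at h
    exact h
  have hYT : Y ≤ T := fun y hy => core_le_sylow hT ((hQeq.le (hUmem y (hYU hy)).1).2)
  -- action of A
  have hAJ : A ≤ J := hA.le_thompson
  have hdich : ∀ b ∈ A, (∀ u ∈ U, b * (k * u * k⁻¹) * b⁻¹ = k * (b * u * b⁻¹) * k⁻¹) ∨
      (∀ u ∈ U, b * (k * u * k⁻¹) * b⁻¹ = k⁻¹ * (b * u * b⁻¹) * k) := by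
    intro b hb
    obtain ⟨i, o, ho, hoK, he⟩ := hKdec _ (hJK b (hAJ hb) k hkK)
    have key : ∀ u ∈ U, b * (k * u * k⁻¹) * b⁻¹ = k ^ i * (b * u * b⁻¹) * (k ^ i)⁻¹ := fun u hu => by
      calc b * (k * u * k⁻¹) * b⁻¹ = (b * k * b⁻¹) * (b * u * b⁻¹) * (b * k * b⁻¹)⁻¹ := by group
        _ = k ^ i * (o * (b * u * b⁻¹) * o⁻¹) * (k ^ i)⁻¹ := by rw [he]; group
        _ = _ := by rw [hQfix o hoK ho _ (hUJ b (hAJ hb) u hu)]
    have hi3 : k ^ i = k ^ (i % 3) := by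
      rw [show (3 : ℤ) = ((orderOf k : ℕ) : ℤ) by rw [hko]; rfl, zpow_mod_orderOf]
    have h3 : i % 3 = 0 ∨ i % 3 = 1 ∨ i % 3 = 2 := by omega
    rcases h3 with h | h | h <;> rw [h] at hi3
    · exfalso
      rw [zpow_zero] at hi3
      rw [hi3, one_mul] at he
      have := conj_mem_core (L.inv_mem (hT.1 (hA.le hb))) (he ▸ ho)
      rw [show b⁻¹ * (b * k * b⁻¹) * b⁻¹⁻¹ = k by group] at this
      exact hkO this
    · left
      intro u hu
      rw [key u hu, hi3, zpow_one]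
    · right
      intro u hu
      have h2 : k ^ (2 : ℤ) = k⁻¹ := by
        rw [eq_inv_iff_mul_eq_one, zpow_two, ← pow_two, ← pow_succ]; exact hk3
      rw [key u hu, hi3, h2, inv_inv]
  have hak' : ∀ u ∈ U, a * (k * u * k⁻¹) * a⁻¹ = k⁻¹ * (a * u * a⁻¹) * k := by
    intro u hu
    have hz : a * k * a⁻¹ * k ∈ K := K.mul_mem (hJK a haJ k hkK) hkK
    calc a * (k * u * k⁻¹) * a⁻¹
        = (a * k * a⁻¹ * k) * (k⁻¹ * (a * u * a⁻¹) * k⁻¹⁻¹) * (a * k * a⁻¹ * k)⁻¹ := by group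
      _ = k⁻¹ * (a * u * a⁻¹) * k := by
        rw [hQfix _ hz hak _ (hUk _ (K.inv_mem hkK) _ (hUJ a haJ u hu)), inv_inv]
  have hYA : ∀ b ∈ A, ∀ y ∈ Y, b * y * b⁻¹ ∈ Y := by
    rintro b hb _ ⟨u, hu, rfl⟩
    have hu' := hUJ b (hAJ hb) u hu
    have e0 : b * (u * (k * u⁻¹ * k⁻¹)) * b⁻¹ = (b * u * b⁻¹) * (b * (k * u⁻¹ * k⁻¹) * b⁻¹) := by group
    rcases hdich b hb with h | h
    · refine ⟨b * u * b⁻¹, hu', ?_⟩
      rw [e0, h _ (U.inv_mem hu)]; group
    · rw [e0, h _ (U.inv_mem hu)]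
      set u' := b * u * b⁻¹ with hu''
      have hv : k⁻¹ * u' * k⁻¹⁻¹ ∈ U := hUk _ (K.inv_mem hkK) _ hu'
      refine ⟨(k⁻¹ * u' * k⁻¹⁻¹)⁻¹, U.inv_mem hv, ?_⟩
      have e1 : (k⁻¹ * u' * k⁻¹⁻¹)⁻¹ * (k * (k⁻¹ * u' * k⁻¹⁻¹)⁻¹⁻¹ * k⁻¹) = (k⁻¹ * u' * k⁻¹⁻¹)⁻¹ * u' := by group
      rw [e1, hUc _ (U.inv_mem hv) u' hu', hu'']
      group
  set Y₀ := Y ⊓ Subgroup.centralizer ({a} : Set G) with hY₀
  have hY₀mem : ∀ {y : G}, y ∈ Y₀ ↔ y ∈ Y ∧ a * y * a⁻¹ = y := fun {y} => by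
    rw [hY₀, Subgroup.mem_inf, Subgroup.mem_centralizer_singleton_iff, mul_inv_eq_iff_eq_mul]
    exact and_congr_right fun _ => eq_comm
  set B : Subgroup G :=
    { carrier := {b | b ∈ A ∧ ∀ u ∈ U, b * (k * u * k⁻¹) * b⁻¹ = k * (b * u * b⁻¹) * k⁻¹}
      one_mem' := ⟨A.one_mem, fun u _ => by group⟩
      mul_mem' := by
        rintro p q ⟨hp, hp'⟩ ⟨hq, hq'⟩
        refine ⟨A.mul_mem hp hq, fun u hu => ?_⟩
        calc p * q * (k * u * k⁻¹) * (p * q)⁻¹ = p * (q * (k * u * k⁻¹) * q⁻¹) * p⁻¹ := by group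
          _ = k * (p * (q * u * q⁻¹) * p⁻¹) * k⁻¹ := by rw [hq' u hu, hp' _ (hUJ q (hAJ hq) u hu)]
          _ = _ := by group
      inv_mem' := by
        rintro p ⟨hp, hp'⟩
        refine ⟨A.inv_mem hp, fun u hu => ?_⟩
        rw [inv_eq_of_mul_eq_one_left (el_sq hA.el hp)]
        exact hp' u hu } with hB
  have hBA : B ≤ A := fun b hb => hb.1
  have hAB : ∀ b ∈ A, b ∈ B ∨ b * a ∈ B := by
    intro b hb
    rcases hdich b hb with h | h
    · exact Or.inl ⟨hb, h⟩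
    · refine Or.inr ⟨A.mul_mem hb ha, fun u hu => ?_⟩
      have hau := hUJ a haJ u hu
      have hv : k⁻¹ * (a * u * a⁻¹) * k⁻¹⁻¹ ∈ U := hUk _ (K.inv_mem hkK) _ hau
      have h1 := h _ hv
      calc b * a * (k * u * k⁻¹) * (b * a)⁻¹ = b * (a * (k * u * k⁻¹) * a⁻¹) * b⁻¹ := by group
        _ = b * (k⁻¹ * (a * u * a⁻¹) * k⁻¹⁻¹) * b⁻¹ := by rw [hak' u hu, inv_inv]
        _ = k * (k⁻¹ * (b * (k⁻¹ * (a * u * a⁻¹) * k⁻¹⁻¹) * b⁻¹) * k) * k⁻¹ := by group
        _ = k * (b * (k * (k⁻¹ * (a * u * a⁻¹) * k⁻¹⁻¹) * k⁻¹) * b⁻¹) * k⁻¹ := by rw [h1]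
        _ = _ := by group
  have hcardA : Nat.card A ≤ 2 * Nat.card B := by
    classical
    have hf : ∀ x : ↥A, (if (x : G) ∈ B then (x : G) else (x : G) * a) ∈ B := fun x => by
      split_ifs with h
      exacts [h, (hAB x x.2).resolve_left h]
    let g : ↥A → ↥B × Bool := fun x => (⟨_, hf x⟩, decide ((x : G) ∈ B))
    have hg : Function.Injective g := by
      intro x y e
      obtain ⟨e1, e2⟩ := Prod.ext_iff.1 e
      have e1' := congrArg Subtype.val e1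
      simp only [g] at e1' e2
      by_cases hx : (x : G) ∈ B
      · have hy : (y : G) ∈ B := by simpa [hx] using e2
        exact Subtype.ext (by simpa [hx, hy] using e1')
      · have hy : (y : G) ∉ B := by simpa [hx] using e2
        exact Subtype.ext (by simpa [hx, hy] using e1')
    calc Nat.card A ≤ Nat.card (↥B × Bool) := Nat.card_le_card_of_injective g hg
      _ = 2 * Nat.card B := by rw [Nat.card_prod]; simp [mul_comm]
  -- Y splits into two copies of the fixed points of a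
  have hsplit : ∀ y ∈ Y₀, ∀ y' ∈ Y₀, y = k * y' * k⁻¹ → y = 1 := by
    intro y hy y' hy' e
    obtain ⟨hyY, hya⟩ := hY₀mem.1 hy
    obtain ⟨hy'Y, hy'a⟩ := hY₀mem.1 hy'
    have h1 : y = k⁻¹ * y' * k := by
      calc y = a * y * a⁻¹ := hya.symm
        _ = a * (k * y' * k⁻¹) * a⁻¹ := by rw [e]
        _ = k⁻¹ * (a * y' * a⁻¹) * k := hak' y' (hYU hy'Y)
        _ = k⁻¹ * y' * k := by rw [hy'a]
    have h2 : k * k * y' * (k * k)⁻¹ = y' := by
      calc k * k * y' * (k * k)⁻¹ = k * (k * y' * k⁻¹) * k⁻¹ := by group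
        _ = k * (k⁻¹ * y' * k) * k⁻¹ := by rw [← e, h1]
        _ = y' := by group
    have h3 : k * y' * k⁻¹ = y' := by
      have h4 : k = (k * k) * (k * k) := by
        rw [show (k * k) * (k * k) = k ^ 3 * k by rw [pow_succ, pow_two]; simp [mul_assoc], hk3, one_mul]
      calc k * y' * k⁻¹ = ((k * k) * (k * k)) * y' * ((k * k) * (k * k))⁻¹ := by rw [← h4]
        _ = (k * k) * ((k * k) * y' * (k * k)⁻¹) * (k * k)⁻¹ := by group
        _ = y' := by rw [h2, h2]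
    rw [e, h3]; exact hfp y' hy'Y h3
  have hpair : ∀ D : Subgroup G, D ≤ Y₀ → ∀ D' : Subgroup G, D' ≤ Y → (∀ d ∈ D, d ∈ D' ∧ k * d * k⁻¹ ∈ D') →
      Nat.card D * Nat.card D ≤ Nat.card D' := by
    intro D hD D' hD'Y hmem
    rw [← Nat.card_prod]
    refine Nat.card_le_card_of_injective (fun p : ↥D × ↥D => (⟨(p.1 : G) * (k * p.2 * k⁻¹),
      D'.mul_mem (hmem p.1 p.1.2).1 (hmem p.2 p.2.2).2⟩ : ↥D')) fun p q e => ?_
    have e' : (p.1 : G) * (k * p.2 * k⁻¹) = (q.1 : G) * (k * q.2 * k⁻¹) := congrArg Subtype.val e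
    have h1 : (q.1 : G)⁻¹ * p.1 = k * ((q.2 : G) * (p.2 : G)⁻¹) * k⁻¹ := by
      calc (q.1 : G)⁻¹ * p.1 = (q.1 : G)⁻¹ * ((p.1 : G) * (k * p.2 * k⁻¹)) * (k * p.2 * k⁻¹)⁻¹ := by group
        _ = _ := by rw [e']; group
    have h2 : (q.1 : G)⁻¹ * p.1 = 1 := hsplit _ (hD (D.mul_mem (D.inv_mem q.1.2) p.1.2))
      _ (hD (D.mul_mem q.2.2 (D.inv_mem p.2.2))) h1
    rw [h2, eq_comm, conj_eq_one_iff, mul_inv_eq_one] at h1
    exact Prod.ext (Subtype.ext (inv_mul_eq_one.1 h2).symm) (Subtype.ext h1.symm)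
  have hYcard : Nat.card Y ≤ Nat.card Y₀ * Nat.card Y₀ := by
    let ψ : ↥Y →* ↥Y₀ :=
      { toFun := fun y => ⟨(y : G) * (a * y * a⁻¹), by
          refine hY₀mem.2 ⟨Y.mul_mem y.2 (hYA a ha y y.2), ?_⟩
          calc a * ((y : G) * (a * y * a⁻¹)) * a⁻¹ = (a * y * a⁻¹) * ((a * a) * y * (a⁻¹ * a⁻¹)) := by group
            _ = (a * y * a⁻¹) * y := by rw [ha2, hai, ha2]; group
            _ = _ := hYc _ (hYA a ha y y.2) _ y.2⟩
        map_one' := Subtype.ext (by simp)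
        map_mul' := fun p q => Subtype.ext (by
          show (p : G) * q * (a * ((p : G) * q) * a⁻¹) = (p : G) * (a * p * a⁻¹) * ((q : G) * (a * q * a⁻¹))
          calc (p : G) * q * (a * ((p : G) * q) * a⁻¹)
              = (p : G) * ((q : G) * (a * p * a⁻¹)) * (a * q * a⁻¹) := by group
            _ = (p : G) * ((a * p * a⁻¹) * q) * (a * q * a⁻¹) := by rw [hYc _ q.2 _ (hYA a ha p p.2)]
            _ = _ := by group) }
    have h1 : Nat.card Y = Nat.card ψ.ker * Nat.card ψ.range := by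
      rw [← Subgroup.card_mul_index ψ.ker, Subgroup.index_ker]
    have h2 : Nat.card ψ.range ≤ Nat.card Y₀ := Subgroup.card_le_card_group _
    have h3 : Nat.card ψ.ker ≤ Nat.card Y₀ := by
      have hm : ∀ y : ↥ψ.ker, ((y : ↥Y) : G) ∈ Y₀ := by
        rintro ⟨y, hy⟩
        refine hY₀mem.2 ⟨y.2, ?_⟩
        have h : (y : G) * (a * y * a⁻¹) = 1 := congrArg Subtype.val (MonoidHom.mem_ker.1 hy)
        rw [eq_inv_of_mul_eq_one_right h, hYi _ y.2]
      exact Nat.card_le_card_of_injective (fun y => (⟨_, hm y⟩ : ↥Y₀))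
        fun p q e => Subtype.ext (Subtype.ext (congrArg Subtype.val e :))
    rw [h1]
    exact Nat.mul_le_mul h3 h2
  -- Z = C_{Y₀}(B)
  set Z := Y₀ ⊓ Subgroup.centralizer (B : Set G) with hZ
  have hBk : ∀ b ∈ B, ∀ y ∈ Y, b * y * b⁻¹ = y → b * (k * y * k⁻¹) * b⁻¹ = k * y * k⁻¹ := fun b hb y hy h => by
    rw [hb.2 y (hYU hy), h]
  have hYel : IsElementaryAbelian 2 Y :=
    ⟨⟨⟨fun p q => Subtype.ext (hYc p p.2 q q.2)⟩⟩, fun y hy => by rw [pow_two]; exact hYsq y hy⟩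
  -- the offender inequality
  have hineq : ∀ D : Subgroup G, D ≤ B → ∀ E : Subgroup G, E ≤ Y₀ → (∀ d ∈ D, ∀ e ∈ E, d * e * d⁻¹ = e) →
      Nat.card D * (Nat.card E * Nat.card E) ≤ Nat.card A * Nat.card Z := by
    intro D hD E hE hfix
    set E' := Y ⊓ Subgroup.centralizer (D : Set G) with hE'
    have h1 : Nat.card E * Nat.card E ≤ Nat.card E' := hpair E hE E' inf_le_left fun e he => by
      refine ⟨⟨(hY₀mem.1 (hE he)).1, Subgroup.mem_centralizer_iff.2 fun d hd => fixed_of_conj (hfix d hd e he)⟩,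
        ⟨hYk e (hY₀mem.1 (hE he)).1, Subgroup.mem_centralizer_iff.2 fun d hd => fixed_of_conj
          (hBk d (hD hd) e (hY₀mem.1 (hE he)).1 (hfix d hd e he))⟩⟩
    have hel := CfsgLib.Offender.isElementaryAbelian_sup
      (CfsgLib.Offender.isElementaryAbelian_mono hA.el (hD.trans hBA))
      (CfsgLib.Offender.isElementaryAbelian_mono hYel (inf_le_left : E' ≤ Y))
      (Subgroup.le_centralizer_iff.1 (inf_le_right : E' ≤ Subgroup.centralizer (D : Set G)))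
    have h2 := hA.max _ (sup_le ((hD.trans hBA).trans hA.le) (inf_le_left.trans hYT)) hel
    have h3 := subgroup_card_sup D E' ((Subgroup.le_centralizer_iff.1
      (inf_le_right : E' ≤ Subgroup.centralizer (D : Set G))).trans (Subgroup.centralizer_le_normalizer _))
    have h4 : Nat.card ↥(D ⊓ E') ≤ Nat.card Z := Subgroup.card_le_of_le fun x hx => by
      refine ⟨hY₀mem.2 ⟨hx.2.1, ?_⟩, Subgroup.mem_centralizer_iff.2 fun b hb => ?_⟩
      · rw [(el_comm hA.el ha (hBA (hD hx.1))).eq, mul_inv_cancel_right]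
      · exact (el_comm hA.el (hBA hb) (hBA (hD hx.1))).eq
    calc Nat.card D * (Nat.card E * Nat.card E) ≤ Nat.card D * Nat.card E' := Nat.mul_le_mul_left _ h1
      _ ≤ Nat.card ↥(D ⊔ E') * Nat.card ↥(D ⊓ E') := h3
      _ ≤ _ := Nat.mul_le_mul h2 h4
  have hBpos : 0 < Nat.card B := Nat.card_pos
  have hZle : Nat.card Z ≤ 2 := by
    have h := hineq B le_rfl Z inf_le_left fun d hd e he => by
      rw [Subgroup.mem_centralizer_iff.1 he.2 d hd, mul_inv_cancel_right]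
    have h2 : Nat.card B * (Nat.card Z * Nat.card Z) ≤ 2 * Nat.card B * Nat.card Z :=
      h.trans (Nat.mul_le_mul_right _ hcardA)
    have hz : 0 < Nat.card Z := Nat.card_pos
    refine Nat.le_of_mul_le_mul_left (?_ : Nat.card B * Nat.card Z * Nat.card Z ≤ Nat.card B * Nat.card Z * 2)
      (Nat.mul_pos hBpos hz)
    calc Nat.card B * Nat.card Z * Nat.card Z = Nat.card B * (Nat.card Z * Nat.card Z) := Nat.mul_assoc _ _ _
      _ ≤ 2 * Nat.card B * Nat.card Z := h2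
      _ = Nat.card B * Nat.card Z * 2 := by ring
  have hY1 : Y ≠ ⊥ := by
    intro h
    refine hkC ?_
    -- otherwise k centralizes V
    have hUfix : ∀ u ∈ U, k * u = u * k := fun u hu => by
      have h1 : u * (k * u⁻¹ * k⁻¹) = 1 := Subgroup.mem_bot.1 (h.le ⟨u, hu, rfl⟩)
      calc k * u = u * (k * u⁻¹ * k⁻¹) * (k * u) := by rw [h1, one_mul]
        _ = u * k := by group
    refine mem_cOf.2 ⟨hkL, fun v hv => ?_⟩
    set e := k * v * k⁻¹ * v⁻¹ with he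
    have heV : e ∈ vOf L := (vOf L).mul_mem (conj_mem_vOf hkL hv) ((vOf L).inv_mem hv)
    have heK : e ∈ K := by
      rw [he, show k * v * k⁻¹ * v⁻¹ = k * (v * k⁻¹ * v⁻¹) by group]
      refine K.mul_mem hkK (Subgroup.subset_closure ⟨?_, ?_⟩)
      · have hvX : v ∈ X := Subgroup.mem_sup_right (vOf_le_core hv)
        exact X.mul_mem (X.mul_mem hvX (X.inv_mem hkX)) (X.inv_mem hvX)
      · rw [← MulAut.conj_apply, MulEquiv.orderOf_eq, orderOf_inv, hko]; exact ⟨1, rfl⟩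
    have heU : e ∈ U := mem_omegaCenterOf.2 ⟨hQeq.ge ⟨heK, vOf_le_core heV⟩, fun y hy =>
      (mem_omegaCenterOf.1 heV).2.1 y (hQeq.le hy).2, el_sq vOf_el heV⟩
    have h3 := commute_pow_two_fixed (k := k) (u := v) (e := e) 3 (by rw [he]; group)
      (by rw [hUfix e heU, mul_inv_cancel_right])
    rw [hk3, one_mul, inv_one, mul_one, eq_comm, mul_eq_right, pow_succ, pow_two, el_sq vOf_el heV, one_mul] at h3
    rw [he, mul_inv_eq_one, mul_inv_eq_iff_eq_mul] at h3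
    exact h3.symm
  have hY₀1 : Y₀ ≠ ⊥ := by
    intro h
    rw [h, Subgroup.card_bot, one_mul] at hYcard
    exact hY1 (Subgroup.eq_bot_of_card_le Y hYcard)
  have hAYn : A ≤ Subgroup.normalizer (Y : Set G) := fun b hb => Subgroup.mem_normalizer_fintype (hYA b hb)
  have hY₀A : ∀ b ∈ A, ∀ y ∈ Y₀, b * y * b⁻¹ ∈ Y₀ := by
    intro b hb y hy
    obtain ⟨hyY, hya⟩ := hY₀mem.1 hy
    refine hY₀mem.2 ⟨hYA b hb y hyY, ?_⟩
    calc a * (b * y * b⁻¹) * a⁻¹ = (a * b) * y * (a * b)⁻¹ := by group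
      _ = (b * a) * y * (b * a)⁻¹ := by rw [(el_comm hA.el ha hb).eq]
      _ = b * (a * y * a⁻¹) * b⁻¹ := by group
      _ = _ := by rw [hya]
  set P := A ⊔ Y with hP
  have hPp : IsPGroup 2 ↥P := hT.2.1.to_le (sup_le hA.le hYT)
  have hPn : ∀ g ∈ P, ∀ y ∈ Y₀, g * y * g⁻¹ ∈ Y₀ := by
    intro g hg y hy
    rw [← SetLike.mem_coe, hP, Subgroup.coe_mul_of_left_le_normalizer_right _ _ hAYn] at hg
    obtain ⟨b, hb, v, hv, rfl⟩ := hg
    simp only []
    rw [show b * v * y * (b * v)⁻¹ = b * (v * y * v⁻¹) * b⁻¹ by group, hYc v hv y (hY₀mem.1 hy).1,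
      mul_inv_cancel_right]
    exact hY₀A b hb y hy
  set N := Y₀.subgroupOf P with hN
  haveI hNn : N.Normal := ⟨fun n hn g => hPn g g.2 n hn⟩
  have hY₀P : Y₀ ≤ P := inf_le_left.trans le_sup_right
  have hNb : N ≠ ⊥ := by
    obtain ⟨y, hy, hy1⟩ := Y₀.bot_or_exists_ne_one.resolve_left hY₀1
    intro e
    have : (⟨y, hY₀P hy⟩ : ↥P) ∈ N := hy
    rw [e, Subgroup.mem_bot] at this
    exact hy1 (congrArg Subtype.val this)
  have hZ2 : Nat.card Z = 2 := by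
    refine le_antisymm hZle ?_
    obtain ⟨z, hz, hz1⟩ := (Subgroup.bot_or_exists_ne_one _).resolve_left (CfsgLib.PReduced.inf_center_ne_bot hPp hNb)
    refine (Subgroup.one_lt_card_iff_ne_bot Z).2 fun e => hz1 (Subtype.ext (Subgroup.mem_bot.1 (e.le ⟨hz.1, ?_⟩)))
    exact Subgroup.mem_centralizer_iff.2 fun b hb =>
      congrArg Subtype.val (Subgroup.mem_center_iff.1 hz.2 ⟨b, Subgroup.mem_sup_left (hBA hb)⟩)
  have hm : Nat.card Y₀ ≤ 2 := by
    by_contra hgt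
    -- an element of the second layer
    have hZP : ∀ g ∈ P, ∀ z ∈ Z, g * z * g⁻¹ = z := by
      intro g hg z hz
      have hzY := (hY₀mem.1 hz.1).1
      rw [← SetLike.mem_coe, hP, Subgroup.coe_mul_of_left_le_normalizer_right _ _ hAYn] at hg
      obtain ⟨b, hb, v, hv, rfl⟩ := hg
      simp only []
      rw [show b * v * z * (b * v)⁻¹ = b * (v * z * v⁻¹) * b⁻¹ by group, hYc v hv z hzY, mul_inv_cancel_right]
      rcases hAB b hb with h | h
      · rw [Subgroup.mem_centralizer_iff.1 hz.2 b h, mul_inv_cancel_right]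
      · have h1 := Subgroup.mem_centralizer_iff.1 hz.2 _ h
        calc b * z * b⁻¹ = b * (a * z * a⁻¹) * b⁻¹ := by rw [(hY₀mem.1 hz.1).2]
          _ = (b * a) * z * (b * a)⁻¹ := by group
          _ = z := by rw [h1, mul_inv_cancel_right]
    set Z' := Z.subgroupOf P with hZ'
    haveI : Z'.Normal := ⟨fun n hn g => by
      show (g : G) * n * (g : G)⁻¹ ∈ Z
      rw [hZP g g.2 n hn]; exact hn⟩
    set q := QuotientGroup.mk' Z' with hq
    haveI : (N.map q).Normal := Subgroup.Normal.map hNn q (QuotientGroup.mk'_surjective Z')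
    have hne : N.map q ≠ ⊥ := by
      intro e
      have hle : Y₀ ≤ Z := fun y hy => (QuotientGroup.eq_one_iff (N := Z') ⟨y, hY₀P hy⟩).1
        (Subgroup.mem_bot.1 (e.le (Subgroup.mem_map_of_mem q (show (⟨y, hY₀P hy⟩ : ↥P) ∈ N from hy))))
      have := Subgroup.card_le_of_le hle
      omega
    obtain ⟨_, ⟨⟨y, hy, rfl⟩, hcent⟩, hy1⟩ := (Subgroup.bot_or_exists_ne_one _).resolve_left
      (CfsgLib.PReduced.inf_center_ne_bot (hPp.to_quotient Z') hne)
    have hyZ : (y : G) ∉ Z := fun h => hy1 ((QuotientGroup.eq_one_iff y).2 h)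
    have hyY₀ : (y : G) ∈ Y₀ := hy
    have hby : ∀ b ∈ B, (y : G) * b * (y : G)⁻¹ * b⁻¹ ∈ Z := fun b hb => by
      have := Subgroup.mem_center_iff.1 hcent (q ⟨b, Subgroup.mem_sup_left (hBA hb)⟩)
      rw [eq_comm, ← commutatorElement_eq_one_iff_mul_comm, ← map_commutatorElement] at this
      exact (QuotientGroup.eq_one_iff (N := Z') _).1 this
    let φ : ↥B →* ↥Z :=
      { toFun := fun b => ⟨(y : G) * b * (y : G)⁻¹ * (b : G)⁻¹, hby b b.2⟩
        map_one' := Subtype.ext (by simp)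
        map_mul' := fun p r => Subtype.ext (by
          show (y : G) * (p * r) * (y : G)⁻¹ * ((p : G) * r)⁻¹ =
            (y : G) * p * (y : G)⁻¹ * (p : G)⁻¹ * ((y : G) * r * (y : G)⁻¹ * (r : G)⁻¹)
          have h := Subgroup.mem_centralizer_iff.1 (hby r r.2).2 p p.2
          calc (y : G) * (p * r) * (y : G)⁻¹ * ((p : G) * r)⁻¹
              = ((y : G) * p * (y : G)⁻¹) * ((y : G) * r * (y : G)⁻¹ * (r : G)⁻¹) * (p : G)⁻¹ := by group
            _ = (y : G) * p * (y : G)⁻¹ * (p : G)⁻¹ *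
                ((p : G) * ((y : G) * r * (y : G)⁻¹ * (r : G)⁻¹)) * (p : G)⁻¹ := by group
            _ = _ := by rw [h]; group) }
    set D := φ.ker.map B.subtype with hD
    have hDc : Nat.card B ≤ 2 * Nat.card D := by
      rw [hD, Subgroup.card_map_of_injective B.subtype_injective, ← Subgroup.card_mul_index φ.ker,
        Subgroup.index_ker, mul_comm 2]
      exact Nat.mul_le_mul_left _ ((Subgroup.card_le_card_group _).trans hZle)
    set E := Z ⊔ Subgroup.zpowers (y : G) with hE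
    have hEY₀ : E ≤ Y₀ := sup_le inf_le_left (Subgroup.zpowers_le.2 hyY₀)
    have hE4 : 4 ≤ Nat.card E := by
      obtain ⟨m, hm⟩ := Subgroup.card_dvd_of_le (le_sup_left : Z ≤ E)
      have hpos : 0 < Nat.card E := Nat.card_pos
      have hne' : Nat.card E ≠ Nat.card Z := fun e => hyZ
        ((Subgroup.eq_of_le_of_card_ge le_sup_left e.le).ge (Subgroup.mem_sup_right (Subgroup.mem_zpowers _)))
      rw [hZ2] at hm hne'
      rw [hm] at hpos hne' ⊢
      rcases m with _ | _ | m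
      · exact absurd hpos (by norm_num)
      · exact absurd rfl hne'
      · calc 4 = 2 * 2 := rfl
          _ ≤ 2 * (m + 1 + 1) := Nat.mul_le_mul_left 2 (Nat.le_add_left 2 m)
    have hfixD : ∀ d ∈ D, ∀ e ∈ E, d * e * d⁻¹ = e := by
      rintro _ ⟨d, hd, rfl⟩
      have h1 : (y : G) * d * (y : G)⁻¹ * (d : G)⁻¹ = 1 := congrArg Subtype.val (MonoidHom.mem_ker.1 hd)
      rw [mul_inv_eq_one, mul_inv_eq_iff_eq_mul] at h1
      have hle : E ≤ Subgroup.centralizer ({(d : G)} : Set G) := sup_le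
        (fun z hz => Subgroup.mem_centralizer_singleton_iff.2 (Subgroup.mem_centralizer_iff.1 hz.2 d d.2).symm)
        (Subgroup.zpowers_le.2 (Subgroup.mem_centralizer_singleton_iff.2 h1))
      intro e he
      show (d : G) * e * (d : G)⁻¹ = e
      rw [← Subgroup.mem_centralizer_singleton_iff.1 (hle he), mul_inv_cancel_right]
    have hh := hineq D (Subgroup.map_subtype_le _) E hEY₀ hfixD
    rw [hZ2] at hh
    have : Nat.card A ≤ 4 * Nat.card D := by omega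
    have hDpos : 0 < Nat.card D := Nat.card_pos
    nlinarith [Nat.mul_le_mul hE4 hE4]
  have hWcard : Nat.card (wOf K) = 4 := by
    rw [hW]
    have h1 : 2 ≤ Nat.card Y₀ := (Subgroup.one_lt_card_iff_ne_bot Y₀).2 hY₀1
    have h2 := hpair Y₀ le_rfl Y le_rfl fun d hd => ⟨(hY₀mem.1 hd).1, hYk d (hY₀mem.1 hd).1⟩
    have h3 : Nat.card Y₀ = 2 := le_antisymm hm h1
    rw [h3] at h2 hYcard
    omega
  refine ⟨K, ⟨hgenK, hcommK, hidx, fun S hS hJS => ?_, hWcard, fun w hw => hYsq w (hW.le hw)⟩, hkK, hKX.trans hXL⟩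
  exact thompson_eq_of_le hT hS.2.1 (hS.1.trans (sup_le (hKX.trans hXL) hJL)) hJS

/-- If no component leaves `N`, then neither does `J(L)`. -/
theorem thompson_le_of_components (cx : LocalCtx L) (hT : IsSylowTwoIn T L) {N : Subgroup G}
    (hJN : thompsonSubgroupOf 2 T ≤ N) (hCN : cOf L ⊓ thompsonSubgroupOf 2 L ≤ N)
    (hKN : ∀ K : Subgroup G, IsJComponent T K → K ≤ L → K ≤ N) : thompsonSubgroupOf 2 L ≤ N := by
  refine (ff_structure cx).2.2.2 T hT N hJN hCN fun k hkJ hk3 hkC hnorm hinv => ?_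
  obtain ⟨K, hK, hkK, hKL⟩ := exists_component cx hT (thompson_le_self L hkJ) hk3 hkC hnorm hinv
  exact hKN K hK hKL hkK

/-- Frattini: `N_L(J(T))` and `J(L)` generate `L`. -/
theorem frattini_thompson (hT : IsSylowTwoIn T L) {N : Subgroup G} (hJN : thompsonSubgroupOf 2 L ≤ N)
    (hNN : L ⊓ Subgroup.normalizer (thompsonSubgroupOf 2 T : Set G) ≤ N) : L ≤ N := by
  haveI : Fact (Nat.Prime 2) := ⟨Nat.prime_two⟩
  intro g hg
  set JL := thompsonSubgroupOf 2 L with hJL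
  set J := thompsonSubgroupOf 2 T with hJ
  have hJJ : J ≤ JL := thompson_sylow_le hT
  have hJLn : ∀ h ∈ L, ∀ x ∈ JL, h * x * h⁻¹ ∈ JL := fun h hh x hx =>
    conj_mem_thompson (fun s hs => L.mul_mem (L.mul_mem hh hs) (L.inv_mem hh)) hx
  obtain ⟨T₀, hT₀le, hT₀⟩ := exists_sylowTwoIn (H := JL) (X := J) (hT.2.1.to_le (thompson_le_self T)) hJJ
  have hJL' : JL ≤ L := thompson_le_self L
  have hT₀J : thompsonSubgroupOf 2 T₀ = J := thompson_eq_of_le hT hT₀.2.1 (hT₀.1.trans hJL') hT₀le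
  have hgn : JL.map (MulAut.conj g).toMonoidHom ≤ JL := by rintro _ ⟨x, hx, rfl⟩; exact hJLn g hg x hx
  obtain ⟨h, hh, hhx⟩ := sylow_conj hT₀ (hT₀.2.1.map (MulAut.conj g).toMonoidHom)
    ((Subgroup.map_mono hT₀.1).trans hgn)
  have hle : (T₀.map (MulAut.conj (h * g)).toMonoidHom) = T₀ := by
    refine Subgroup.eq_of_le_of_card_ge ?_ (Subgroup.card_map_of_injective (MulAut.conj (h * g)).injective).ge
    rintro _ ⟨x, hx, rfl⟩
    have := hhx _ ⟨x, hx, rfl⟩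
    simpa [mul_assoc] using this
  have hnorm : h * g ∈ Subgroup.normalizer (J : Set G) := by
    refine Subgroup.mem_normalizer_iff_map_conj_eq.2 (?_ : J.map (MulAut.conj (h * g)).toMonoidHom = J)
    rw [← hT₀J, ← thompson_map, hle]
  have := N.mul_mem (N.inv_mem (hJN hh)) (hNN ⟨L.mul_mem (hJL' hh) hg, hnorm⟩)
  simpa using this

end CfsgLib.JComp
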