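import Cfsg.Agent.PLocalBasics.FactorStructure

/-!
The elements of odd order of a group with failure of factorization over the field with two elements.
-/

set_option autoImplicit false
open scoped commutatorElement

namespace CfsgLib.JComp

open CfsgLib.PLocalBasics

variable {L : Type*} [Group L] [Finite L] {V H : Subgroup L}

/-- The elements of order dividing three in the factor of a minimal offender. -/
def three (V H : Subgroup L) : Set L :=
  {r | ∃ A, MinOff 2 V H A ∧ r ∈ factE 2 H A ∧ r ^ 3 = 1}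

local instance : DecidableEq (Matrix.SpecialLinearGroup (Fin 2) (ZMod 2)) :=
  inferInstanceAs (DecidableEq {A : Matrix (Fin 2) (Fin 2) (ZMod 2) // A.det = 1})

local instance : Fintype (Matrix.SpecialLinearGroup (Fin 2) (ZMod 2)) :=
  inferInstanceAs (Fintype {A : Matrix (Fin 2) (Fin 2) (ZMod 2) // A.det = 1})

theorem sl2_facts : ∀ g h : Matrix.SpecialLinearGroup (Fin 2) (ZMod 2),
    (g * g * g * g * g * g = 1) ∧ ((g * h * g⁻¹ * h⁻¹) ^ 3 = 1) ∧
    (g ^ 2 = 1 → g ≠ 1 → h ^ 3 = 1 → g * h * g⁻¹ = h⁻¹) ∧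
    (g ^ 3 = 1 → g ≠ 1 → h ^ 3 = 1 → h = 1 ∨ h = g ∨ h = g⁻¹) := by
  decide

theorem factE_facts (c : FaithCtx 2 V H) {A : Subgroup L} (hA : MinOff 2 V H A) :
    ∀ g ∈ factE 2 H A, ∀ h ∈ factE 2 H A, g ^ 6 = 1 ∧ ⁅g, h⁆ ^ 3 = 1 ∧
      (g ^ 2 = 1 → g ≠ 1 → h ^ 3 = 1 → g * h * g⁻¹ = h⁻¹) ∧
      (g ^ 3 = 1 → g ≠ 1 → h ^ 3 = 1 → h = 1 ∨ h = g ∨ h = g⁻¹) := by
  haveI : Fact (Nat.Prime 2) := ⟨Nat.prime_two⟩
  obtain ⟨e⟩ := (hA.factData c).data.iso
  intro g hg h hh
  obtain ⟨f1, f2, f3, f4⟩ := sl2_facts (e ⟨g, hg⟩) (e ⟨h, hh⟩)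
  refine ⟨?_, ?_, fun a b d => ?_, fun a b d => ?_⟩
  · have : (⟨g, hg⟩ : factE 2 H A) ^ 6 = 1 := e.injective (by
      rw [map_pow, map_one, ← f1]; simp [pow_succ])
    simpa using congrArg Subtype.val this
  · have : ⁅(⟨g, hg⟩ : factE 2 H A), (⟨h, hh⟩ : factE 2 H A)⁆ ^ 3 = 1 := e.injective (by
      rw [map_pow, map_one, map_commutatorElement, commutatorElement_def]; exact f2)
    simpa [commutatorElement_def] using congrArg Subtype.val this
  · have h1 : e ⟨g, hg⟩ ^ 2 = 1 := by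
      rw [← map_pow, show (⟨g, hg⟩ : factE 2 H A) ^ 2 = 1 from Subtype.ext a, map_one]
    have h2 : e ⟨g, hg⟩ ≠ 1 := fun q => b (congrArg Subtype.val (e.injective (q.trans (map_one e).symm)))
    have h3 : e ⟨h, hh⟩ ^ 3 = 1 := by
      rw [← map_pow, show (⟨h, hh⟩ : factE 2 H A) ^ 3 = 1 from Subtype.ext d, map_one]
    have := f3 h1 h2 h3
    rw [← map_inv e, ← map_inv e, ← map_mul e, ← map_mul e] at this
    simpa using congrArg Subtype.val (e.injective this)
  · have h1 : e ⟨g, hg⟩ ^ 3 = 1 := by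
      rw [← map_pow, show (⟨g, hg⟩ : factE 2 H A) ^ 3 = 1 from Subtype.ext a, map_one]
    have h2 : e ⟨g, hg⟩ ≠ 1 := fun q => b (congrArg Subtype.val (e.injective (q.trans (map_one e).symm)))
    have h3 : e ⟨h, hh⟩ ^ 3 = 1 := by
      rw [← map_pow, show (⟨h, hh⟩ : factE 2 H A) ^ 3 = 1 from Subtype.ext d, map_one]
    rcases f4 h1 h2 h3 with q | q | q
    · exact Or.inl (congrArg Subtype.val (e.injective (q.trans (map_one e).symm)))
    · exact Or.inr (Or.inl (congrArg Subtype.val (e.injective q)))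
    · rw [← map_inv e] at q
      exact Or.inr (Or.inr (congrArg Subtype.val (e.injective q)))

theorem factE_commute (c : FaithCtx 2 V H) {A B : Subgroup L} (hA : MinOff 2 V H A) (hB : MinOff 2 V H B)
    (hne : factE 2 H B ≠ factE 2 H A) : ∀ g ∈ factE 2 H A, ∀ h ∈ factE 2 H B, g * h = h * g := by
  haveI : Fact (Nat.Prime 2) := ⟨Nat.prime_two⟩
  intro g hg h hh
  exact Subgroup.mem_centralizer_iff.1
    (orth_le_centralizer c (hA.factData c) (factE_le_orth c hA hB hne hh)) g hg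

theorem three_comm (c : FaithCtx 2 V H) : ∀ r ∈ three V H, ∀ s ∈ three V H, r * s = s * r := by
  rintro r ⟨A, hA, hrA, hr⟩ s ⟨B, hB, hsB, hs⟩
  by_cases he : factE 2 H B = factE 2 H A
  · by_cases hr1 : r = 1
    · rw [hr1, one_mul, mul_one]
    rcases (factE_facts c hA r hrA s (he ▸ hsB)).2.2.2 hr hr1 hs with h | h | h <;> rw [h]
    · rw [mul_one, one_mul]
    · rw [mul_inv_cancel, inv_mul_cancel]
  · exact factE_commute c hA hB he r hrA s hsB

/-- For each element of `three` an involution of its factor inverts it. -/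
theorem exists_transv (c : FaithCtx 2 V H) {A : Subgroup L} (hA : MinOff 2 V H A) :
    ∃ a ∈ factE 2 H A, a * a = 1 ∧ (∀ r ∈ factE 2 H A, r ^ 3 = 1 → a * r * a⁻¹ = r⁻¹) := by
  haveI : Fact (Nat.Prime 2) := ⟨Nat.prime_two⟩
  obtain ⟨a, u, rfl, -, ht⟩ := hA.transv c
  refine ⟨a, Subgroup.mem_sup_right (Subgroup.mem_zpowers a), by rw [← pow_two]; exact ht.powA, fun r hr hr3 => ?_⟩
  exact (factE_facts c hA a (Subgroup.mem_sup_right (Subgroup.mem_zpowers a)) r hr).2.2.1 ht.powA ht.neA hr3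

theorem closure_three_comm (c : FaithCtx 2 V H) :
    ∀ x ∈ Subgroup.closure (three V H), ∀ y ∈ Subgroup.closure (three V H), x * y = y * x := by
  haveI := Subgroup.isMulCommutative_closure (three_comm c)
  intro x hx y hy
  exact setLike_mul_comm hx hy

theorem closure_three_le (c : FaithCtx 2 V H) : Subgroup.closure (three V H) ≤ H := by
  haveI : Fact (Nat.Prime 2) := ⟨Nat.prime_two⟩
  rw [Subgroup.closure_le]
  rintro r ⟨A, hA, hr, -⟩
  exact (hA.factData c).leH hr

theorem closure_three_conj (c : FaithCtx 2 V H) (hgen : OffGen 2 V H) :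
    ∀ h ∈ H, ∀ x ∈ Subgroup.closure (three V H), h * x * h⁻¹ ∈ Subgroup.closure (three V H) := by
  haveI : Fact (Nat.Prime 2) := ⟨Nat.prime_two⟩
  intro h hh x hx
  induction hx using Subgroup.closure_induction with
  | mem r hr =>
    obtain ⟨A, hA, hrA, hr3⟩ := hr
    refine Subgroup.subset_closure ⟨A, hA, (Subgroup.mem_normalizer_iff.1 (le_normalizer_factE c hgen hA hh) r).1 hrA, ?_⟩
    rw [conj_pow, hr3]; group
  | one => simp
  | mul a b _ _ h1 h2 =>
    rw [show h * (a * b) * h⁻¹ = (h * a * h⁻¹) * (h * b * h⁻¹) by group]; exact mul_mem h1 h2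
  | inv a _ h1 => rw [show h * a⁻¹ * h⁻¹ = (h * a * h⁻¹)⁻¹ by group]; exact inv_mem h1

theorem sq_and_comm_mem (c : FaithCtx 2 V H) (hgen : OffGen 2 V H) :
    (∀ h ∈ H, h * h ∈ Subgroup.closure (three V H)) ∧
    (∀ g ∈ H, ∀ h ∈ H, ⁅g, h⁆ ∈ Subgroup.closure (three V H)) := by
  haveI : Fact (Nat.Prime 2) := ⟨Nat.prime_two⟩
  set D := (Subgroup.closure (three V H)).subgroupOf H with hD
  haveI : D.Normal := ⟨fun x hx h => closure_three_conj c hgen h h.2 x hx⟩
  set q := QuotientGroup.mk' D with hq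
  have hone : ∀ x : ↥H, q x = 1 ↔ (x : L) ∈ Subgroup.closure (three V H) := fun x =>
    QuotientGroup.eq_one_iff x
  set Gen : Set ↥H := {x | ∃ A, MinOff 2 V H A ∧ (x : L) ∈ factE 2 H A} with hGen
  have htop : Subgroup.closure Gen = ⊤ := by
    rw [eq_top_iff]
    intro x _
    have : H ≤ (Subgroup.closure Gen).map H.subtype := (le_iSup_factE c hgen).trans (iSup_le fun B e he =>
      ⟨⟨e, (B.2.factData c).leH he⟩, Subgroup.subset_closure ⟨B, B.2, he⟩, rfl⟩)
    obtain ⟨y, hy, e⟩ := this x.2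
    rwa [← Subtype.ext e]
  have hgc : ∀ x ∈ Gen, ∀ y ∈ Gen, q x * q y = q y * q x := by
    rintro x ⟨A, hA, hx⟩ y ⟨B, hB, hy⟩
    rw [← commutatorElement_eq_one_iff_mul_comm, ← map_commutatorElement, hone]
    show ⁅(x : L), (y : L)⁆ ∈ _
    by_cases he : factE 2 H B = factE 2 H A
    · refine Subgroup.subset_closure ⟨A, hA, ?_, (factE_facts c hA _ hx _ (he ▸ hy)).2.1⟩
      rw [commutatorElement_def]
      have hy' : (y : L) ∈ factE 2 H A := he ▸ hy
      exact mul_mem (mul_mem (mul_mem hx hy') (inv_mem hx)) (inv_mem hy')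
    · rw [commutatorElement_eq_one_iff_mul_comm.2 (factE_commute c hA hB he _ hx _ hy)]
      exact one_mem _
  have hcomm : ∀ a b : ↥H ⧸ D, a * b = b * a := by
    haveI := Subgroup.isMulCommutative_closure (G := ↥H ⧸ D) (k := q '' Gen) (by
      rintro _ ⟨x, hx, rfl⟩ _ ⟨y, hy, rfl⟩; exact hgc x hx y hy)
    intro a b
    have htop' : Subgroup.closure (q '' Gen) = ⊤ := by
      rw [← MonoidHom.map_closure, htop, Subgroup.map_top_of_surjective _ (QuotientGroup.mk'_surjective D)]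
    exact setLike_mul_comm (htop'.ge (Subgroup.mem_top a)) (htop'.ge (Subgroup.mem_top b))
  have hsq : ∀ x : ↥H, q (x * x) = 1 := by
    intro x
    have hx : x ∈ Subgroup.closure Gen := htop.ge (Subgroup.mem_top x)
    induction hx using Subgroup.closure_induction with
    | mem y hy =>
      obtain ⟨A, hA, hy⟩ := hy
      rw [hone]
      refine Subgroup.subset_closure ⟨A, hA, mul_mem hy hy, ?_⟩
      have := (factE_facts c hA _ hy _ hy).1
      calc ((y : L) * (y : L)) ^ 3 = (y : L) ^ 6 := by rw [← pow_two, ← pow_mul]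
        _ = 1 := this
    | one => simp
    | mul a b _ _ ha hb =>
      rw [map_mul] at ha hb
      rw [map_mul, map_mul, show q a * q b * (q a * q b) = q a * (q b * q a) * q b by group,
        hcomm (q b) (q a), show q a * (q a * q b) * q b = (q a * q a) * (q b * q b) by group, ha, hb, one_mul]
    | inv a _ ha =>
      rw [map_mul] at ha
      rw [map_mul, map_inv, ← mul_inv_rev, ha, inv_one]
  refine ⟨fun h hh => (hone _).1 (hsq ⟨h, hh⟩), fun g hg h hh => ?_⟩
  have := (hone ⁅(⟨g, hg⟩ : ↥H), ⟨h, hh⟩⁆).1 (by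
    rw [map_commutatorElement, commutatorElement_eq_one_iff_mul_comm]; exact hcomm _ _)
  exact this

theorem odd_mem_closure_three (c : FaithCtx 2 V H) (hgen : OffGen 2 V H) {h : L} (hh : h ∈ H)
    (ho : Odd (orderOf h)) : h ∈ Subgroup.closure (three V H) := by
  obtain ⟨m, hm⟩ := ho
  have : (h * h) ^ (m + 1) = h := by
    rw [← pow_two, ← pow_mul, show 2 * (m + 1) = orderOf h + 1 by omega, pow_succ, pow_orderOf_eq_one, one_mul]
  rw [← this]
  exact pow_mem ((sq_and_comm_mem c hgen).1 h hh) _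

end CfsgLib.JComp
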