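import Cfsg.Agent.JComp.Second

/-!
The subgroup `⟨K, T⟩` for a component outside `M`.
-/

set_option autoImplicit false
open Cfsg
open scoped commutatorElement

namespace CfsgLib.JComp

variable {G : Type*} [Group G] [Finite G]

theorem two_of_card_le {A : Subgroup G} (hA : Nat.card ↥A ≤ 2) {a b : G} (ha : a ∈ A) (hb : b ∈ A) (ha1 : a ≠ 1)
    (hb1 : b ≠ 1) : a = b := by
  classical
  by_contra hab
  have hsub : ({1, a, b} : Set G) ⊆ (A : Set G) := by
    intro y hy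
    simp only [Set.mem_insert_iff, Set.mem_singleton_iff] at hy
    rcases hy with rfl | rfl | rfl
    exacts [A.one_mem, ha, hb]
  have h1 := Set.ncard_le_ncard hsub (Set.toFinite _)
  rw [Set.ncard_insert_of_notMem (by
    simp only [Set.mem_insert_iff, Set.mem_singleton_iff, not_or]
    exact ⟨Ne.symm ha1, Ne.symm hb1⟩), Set.ncard_pair hab] at h1
  have h2 : (A : Set G).ncard ≤ 2 := hA
  omega

/-- The structure of `⟨K, T⟩` when `T` normalizes `K` and is a Sylow 2-subgroup of an overgroup. -/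
theorem join_structure {T K L : Subgroup G} (cx : LocalCtx L) (hT1 : T ≠ ⊥) (hK : IsJComponent T K)
    (hTL : IsSylowTwoIn T L) (hKL : K ≤ L) (hTK : T ≤ Subgroup.normalizer (K : Set G)) :
    Subgroup.centralizer (pCoreOf 2 (K ⊔ T) : Set G) ≤ pCoreOf 2 (K ⊔ T) ∧ IsSylowTwoIn T (K ⊔ T) ∧
      pCoreOf 2 (K ⊔ T) = qOf T K ∧
      (pCoreOf 2 (K ⊔ T)).relIndex (K ⊔ T) = 6 ∧ ¬ ⁅K ⊔ T, K ⊔ T⁆ ≤ pCoreOf 2 (K ⊔ T) ∧
      ∃ u ∈ wOf K, u ≠ 1 ∧ u ∈ omegaCenterOf T ∧ ⁅omegaCenterOf T, K ⊔ T⁆ ≠ ⊥ := by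
  classical
  haveI : Fact (Nat.Prime 2) := ⟨Nat.prime_two⟩
  set P := K ⊔ T with hP
  have hPL : P ≤ L := sup_le hKL hTL.1
  have hPK : P ≤ Subgroup.normalizer (K : Set G) := sup_le Subgroup.le_normalizer hTK
  have hPW : ∀ p ∈ P, ∀ w ∈ wOf K, p * w * p⁻¹ ∈ wOf K := fun p hp w hw =>
    conj_mem_wOf (fun y hy => (Subgroup.mem_normalizer_iff.1 (hPK hp) y).1 hy) hw
  have hPW' : ∀ p ∈ P, ∀ w ∈ wOf K, p⁻¹ * w * p ∈ wOf K := fun p hp w hw => by
    have := hPW p⁻¹ (P.inv_mem hp) w hw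
    rwa [inv_inv] at this
  have hWsq : ∀ w ∈ wOf K, w * w = 1 := hK.2.2.2.2.2
  have hsylT : ∀ R : Subgroup G, IsPGroup 2 ↥R → T ≤ R → R ≤ L → R ≤ T := by
    intro R hR hTR hRL
    obtain ⟨l, hl, hmem⟩ := sylow_conj hTL hR hRL
    refine (Subgroup.eq_of_le_of_card_ge hTR ?_).ge
    rw [← Subgroup.card_map_of_injective (K := R) (f := (MulAut.conj l).toMonoidHom) (MulAut.conj l).injective]
    refine Subgroup.card_le_of_le ?_
    rintro _ ⟨y, hy, rfl⟩
    exact hmem y hy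
  have hcoreT : pCoreOf 2 K ≤ T := by
    have hn : T ≤ Subgroup.normalizer (pCoreOf 2 K : Set G) := fun t ht =>
      Subgroup.mem_normalizer_fintype fun y hy =>
        conj_mem_pCoreOf (fun k hk => (Subgroup.mem_normalizer_iff.1 (hTK ht) k).1 hk) hy
    exact le_sup_right.trans (hsylT _ (hTL.2.1.to_sup_of_normal_right' (isPGroup_pCoreOf K) hn) le_sup_left
      (sup_le hTL.1 ((pCoreOf_le K).trans hKL)))
  obtain ⟨k, hk, hko, hkQ⟩ := exists_odd_notMem hK
  have hkP : k ∈ P := Subgroup.mem_sup_left hk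
  have hcore : ∀ {y w : G}, y ∈ pCoreOf 2 K → w ∈ wOf K → w * y = y * w := fun hy hw =>
    ((mem_omegaCenterOf.1 (wOf_le_omega K hw)).2.1 _ hy).symm
  -- an element of `K` centralizing `W` is in the 2-core
  have hcentK : ∀ y ∈ K, (∀ w ∈ wOf K, w * y = y * w) → y ∈ pCoreOf 2 K := by
    intro y hy hc
    by_contra hne
    obtain ⟨w, hw, hw1⟩ := (Subgroup.bot_or_exists_ne_one _).resolve_left (wOf_ne_bot hK)
    refine hw1 (fpf_wOf hK hk hko hkQ hw (mul_inv_eq_iff_eq_mul.2 ?_))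
    rcases (K_cases hK hk hkQ).2 y hy with h | h | h
    · exact absurd h hne
    · have h1 : Commute w ((y * k⁻¹)⁻¹ * y) := (Commute.inv_right (hcore h hw)).mul_right (hc w hw)
      rw [mul_inv_rev, inv_inv, inv_mul_cancel_right] at h1
      exact h1.eq.symm
    · have h2 : Commute w ((y * (k * k)⁻¹)⁻¹ * y) := (Commute.inv_right (hcore h hw)).mul_right (hc w hw)
      rw [mul_inv_rev, inv_inv, inv_mul_cancel_right] at h2
      have h3 : Commute w ((k * k)⁻¹ * (k * k * k)) := h2.inv_right.mul_right (hcore (K_cases hK hk hkQ).1 hw)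
      rw [show (k * k)⁻¹ * (k * k * k) = k by group] at h3
      exact h3.eq.symm
  set Q := qOf T K with hQ
  have hcoreQ : pCoreOf 2 K ≤ Q := fun y hy => mem_qOf.2 ⟨hcoreT hy, fun w hw => hcore hy hw⟩
  have hQn : ∀ p ∈ P, ∀ q ∈ Q, p * q * p⁻¹ ∈ Q := by
    have hcw : ∀ {g q : G}, g ∈ P → q ∈ Q → ∀ w ∈ wOf K, w * (g * q * g⁻¹) = g * q * g⁻¹ * w := by
      intro g q hg hq w hw
      have := conj_comm g ((mem_qOf.1 hq).2 _ (hPW' g hg w hw))
      rwa [show g * (g⁻¹ * w * g) * g⁻¹ = w by group] at this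
    have hle : P ≤ Subgroup.normalizer (Q : Set G) := by
      refine sup_le (fun y hy => Subgroup.mem_normalizer_fintype fun q hq => ?_) fun t ht =>
        Subgroup.mem_normalizer_fintype fun q hq => mem_qOf.2
          ⟨T.mul_mem (T.mul_mem ht (mem_qOf.1 hq).1) (T.inv_mem ht), hcw (Subgroup.mem_sup_right ht) hq⟩
      refine mem_qOf.2 ⟨?_, hcw (Subgroup.mem_sup_left hy) hq⟩
      have hz : y * q * y⁻¹ * q⁻¹ ∈ K := by
        rw [show y * q * y⁻¹ * q⁻¹ = y * (q * y⁻¹ * q⁻¹) by group]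
        exact K.mul_mem hy ((Subgroup.mem_normalizer_iff.1 (hTK (mem_qOf.1 hq).1) _).1 (K.inv_mem hy))
      have hzc : ∀ w ∈ wOf K, w * (y * q * y⁻¹ * q⁻¹) = y * q * y⁻¹ * q⁻¹ * w := fun w hw =>
        ((show Commute w (y * q * y⁻¹) from hcw (Subgroup.mem_sup_left hy) hq w hw).mul_right
          (Commute.inv_right (show Commute w q from (mem_qOf.1 hq).2 w hw))).eq
      have := T.mul_mem (hcoreT (hcentK _ hz hzc)) (mem_qOf.1 hq).1
      rwa [inv_mul_cancel_right] at this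
    exact fun p hp q hq => (Subgroup.mem_normalizer_iff.1 (hle hp) q).1 hq
  -- a fixed point of `T` on `W` and an element moving `W`
  obtain ⟨u, hu, hu1, huT⟩ : ∃ u ∈ wOf K, u ≠ 1 ∧ ∀ t ∈ T, t * u = u * t := by
    have hWT : wOf K ≤ T := (wOf_le_pCoreOf K).trans hcoreT
    haveI : ((wOf K).subgroupOf T).Normal := ⟨fun w hw t => hPW t (Subgroup.mem_sup_right t.2) w hw⟩
    have hne : (wOf K).subgroupOf T ≠ ⊥ := fun h => wOf_ne_bot hK (eq_bot_iff.2 fun w hw => by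
      have h1 : (⟨w, hWT hw⟩ : ↥T) ∈ (⊥ : Subgroup ↥T) := h ▸ hw
      exact Subgroup.mem_bot.2 (congrArg Subtype.val (Subgroup.mem_bot.1 h1)))
    obtain ⟨⟨u, hu⟩, ⟨hu1, hu2⟩, hu3⟩ :=
      (Subgroup.bot_or_exists_ne_one _).resolve_left (CfsgLib.PReduced.inf_center_ne_bot hTL.2.1 hne)
    exact ⟨u, hu1, fun e => hu3 (Subtype.ext e),
      fun t ht => congrArg Subtype.val (Subgroup.mem_center_iff.1 hu2 ⟨t, ht⟩)⟩
  obtain ⟨a, haT, haQ⟩ : ∃ a ∈ T, a ∉ Q := by
    by_contra h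
    push Not at h
    obtain ⟨w, hw, hw1⟩ := (Subgroup.bot_or_exists_ne_one _).resolve_left (wOf_ne_bot hK)
    have hKc : ⁅K, thompsonSubgroupOf 2 T⁆ ≤ Subgroup.centralizer (wOf K : Set G) := by
      refine Subgroup.commutator_le.2 fun y hy j hj => Subgroup.mem_centralizer_iff.2 fun v hv => ?_
      rw [commutatorElement_def]
      have hj' := thompson_le_self T hj
      have hq := hQn y (Subgroup.mem_sup_left hy) j (h j hj')
      exact ((show Commute v (y * j * y⁻¹) from (mem_qOf.1 hq).2 v hv).mul_right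
        (Commute.inv_right (show Commute v j from (mem_qOf.1 (h j hj')).2 v hv))).eq
    rw [hK.2.1] at hKc
    exact hw1 (fpf_wOf hK hk hko hkQ hw (by
      rw [← Subgroup.mem_centralizer_iff.1 (hKc hk) w hw, mul_inv_cancel_right]))
  have hkW : k * u * k⁻¹ ∈ wOf K := hPW k hkP u hu
  have hku : k * u * k⁻¹ ≠ u := fun e => hu1 (fpf_wOf hK hk hko hkQ hu e)
  have hku1 : k * u * k⁻¹ ≠ 1 := fun e => hu1 (by simpa using e)
  set v := k * u * k⁻¹ with hv
  have hfix : ∀ t ∈ T, t * v * t⁻¹ = v → t ∈ Q := by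
    intro t ht e
    refine mem_qOf.2 ⟨ht, fun y hy => ?_⟩
    rcases four_cases hK.2.2.2.2.1 hWsq hu hkW hu1 hku1 (Ne.symm hku) hy with rfl | rfl | rfl | rfl
    · simp
    · exact (huT t ht).symm
    · exact (mul_inv_eq_iff_eq_mul.1 e).symm
    · exact ((show Commute u t from (huT t ht).symm).mul_left
        (show Commute v t from (mul_inv_eq_iff_eq_mul.1 e).symm)).eq
  have hmove : ∀ t ∈ T, t ∉ Q → t * v * t⁻¹ = u * v := by
    intro t ht htQ
    rcases four_cases hK.2.2.2.2.1 hWsq hu hkW hu1 hku1 (Ne.symm hku)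
      (hPW t (Subgroup.mem_sup_right ht) v hkW) with e | e | e | e
    · exact absurd (by simpa using e) hku1
    · refine absurd ?_ hku
      calc v = t⁻¹ * (t * v * t⁻¹) * t := by group
        _ = t⁻¹ * (u * t) := by rw [e, mul_assoc]
        _ = t⁻¹ * (t * u) := by rw [huT t ht]
        _ = u := by group
    · exact absurd (hfix t ht e) htQ
    · exact e
  have hQT : Q ≤ T := inf_le_left
  have hidxQ : (Q.subgroupOf T).index = 2 := by
    rw [Subgroup.index_eq_two_iff]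
    refine ⟨⟨a, haT⟩, fun t => ?_⟩
    show Xor' ((t : G) * a ∈ Q) ((t : G) ∈ Q)
    by_cases h : (t : G) ∈ Q
    · refine Or.inr ⟨h, fun h1 => haQ ?_⟩
      have := Q.mul_mem (Q.inv_mem h) h1
      rwa [inv_mul_cancel_left] at this
    · refine Or.inl ⟨hfix _ (T.mul_mem t.2 haT) ?_, h⟩
      calc (t : G) * a * v * ((t : G) * a)⁻¹ = (t : G) * (a * v * a⁻¹) * (t : G)⁻¹ := by group
        _ = ((t : G) * u * (t : G)⁻¹) * ((t : G) * v * (t : G)⁻¹) := by rw [hmove a haT haQ]; group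
        _ = u * (u * v) := by rw [huT t t.2, mul_inv_cancel_right, hmove t t.2 h]
        _ = v := by rw [← mul_assoc, hWsq u hu, one_mul]
  -- `T` is a Sylow 2-subgroup of `P`, of index 3
  have hTP : T ≤ P := le_sup_right
  have hTsyl : IsSylowTwoIn T P := by
    refine ⟨hTP, hTL.2.1, ?_⟩
    have h1 : T.relIndex P ∣ T.relIndex L := ⟨P.relIndex L, (Subgroup.relIndex_mul_relIndex _ _ _ hTP hPL).symm⟩
    exact Odd.of_dvd_nat hTL.2.2 h1
  have hinf : K ⊓ T = pCoreOf 2 K := by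
    refine le_antisymm (fun y hy => ?_) (le_inf (pCoreOf_le K) hcoreT)
    by_contra hyQ
    have hkT : k ∈ T := by
      have hy2 : y * y ∈ T := T.mul_mem hy.2 hy.2
      rcases (K_cases hK hk hkQ).2 y hy.1 with h | h | h
      · exact absurd h hyQ
      · have := T.mul_mem (T.inv_mem (hcoreT h)) hy.2
        rwa [mul_inv_rev, inv_inv, inv_mul_cancel_right] at this
      · have h2 := T.mul_mem (T.inv_mem (hcoreT h)) hy.2
        rw [mul_inv_rev, inv_inv, inv_mul_cancel_right] at h2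
        have h3 := T.mul_mem (T.inv_mem h2) (hcoreT (K_cases hK hk hkQ).1)
        rwa [show (k * k)⁻¹ * (k * k * k) = k by group] at h3
    obtain ⟨n, hn⟩ := hTL.2.1 ⟨k, hkT⟩
    have h1 : k = 1 := orderOf_eq_one_iff.1 (Nat.eq_one_of_dvd_coprimes
      ((Nat.coprime_two_right.2 hko).pow_right n) dvd_rfl
      (orderOf_dvd_of_pow_eq_one (by simpa using congrArg Subtype.val hn)))
    exact hkQ (h1 ▸ (pCoreOf 2 K).one_mem)
  have hcardP : Nat.card ↥P = 3 * Nat.card ↥T := by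
    have e := CfsgLib.ZJ.card_sup_mul_card_inf_of_le_normalizer hTK
    rw [sup_comm, inf_comm, hinf, ← hP] at e
    have e2 : Nat.card ↥K = 3 * Nat.card ↥(pCoreOf 2 K) := by
      have h := Subgroup.card_mul_index ((pCoreOf 2 K).subgroupOf K)
      rw [Nat.card_congr (Subgroup.subgroupOfEquivOfLe (pCoreOf_le K)).toEquiv,
        show ((pCoreOf 2 K).subgroupOf K).index = 3 from hK.2.2.1] at h
      omega
    rw [e2] at e
    refine Nat.eq_of_mul_eq_mul_right (Nat.card_pos (α := ↥(pCoreOf 2 K))) ?_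
    rw [e]; ring
  -- the 2-core
  have hOQ : pCoreOf 2 P = Q := by
    refine le_antisymm (fun r hr => ?_) ?_
    · have hrT : r ∈ T := core_le_sylow hTsyl hr
      by_contra hrQ
      have hz : r * k * r⁻¹ * k⁻¹ ∈ pCoreOf 2 P ⊓ K := by
        refine ⟨?_, K.mul_mem ((Subgroup.mem_normalizer_iff.1 (hTK hrT) k).1 hk) (K.inv_mem hk)⟩
        rw [show r * k * r⁻¹ * k⁻¹ = r * (k * r⁻¹ * k⁻¹) by group]
        exact (pCoreOf 2 P).mul_mem hr (conj_mem_pCoreOf (fun h hh => P.mul_mem (P.mul_mem hkP hh) (P.inv_mem hkP))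
          ((pCoreOf 2 P).inv_mem hr))
      have hzT : r * k * r⁻¹ * k⁻¹ ∈ K ⊓ T := ⟨hz.2, core_le_sylow hTsyl hz.1⟩
      rw [hinf] at hzT
      -- `r` commutes with the action of `k` on `W`
      refine hrQ (hfix r hrT ?_)
      calc r * v * r⁻¹ = (r * k * r⁻¹ * k⁻¹) * (k * (r * u * r⁻¹) * k⁻¹) * (r * k * r⁻¹ * k⁻¹)⁻¹ := by
            rw [hv]; group
        _ = (r * k * r⁻¹ * k⁻¹) * v * (r * k * r⁻¹ * k⁻¹)⁻¹ := by rw [huT r hrT, mul_inv_cancel_right]
        _ = v := by rw [← hcore hzT hkW, mul_inv_cancel_right]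
    · intro q hq
      have hn : (Q.subgroupOf P).Normal := ⟨fun y hy p => hQn p p.2 y hy⟩
      have h1 := Components.le_pCore hn (p := 2) (hTL.2.1.to_le hQT).comap_subtype
      exact ⟨⟨q, hTP (hQT hq)⟩, h1 hq, rfl⟩
  have hOL : pCoreOf 2 L ≤ Q := fun y hy => mem_qOf.2 ⟨core_le_sylow hTL hy, fun w hw =>
    (mem_cOf.1 (core_le_cOf hy)).2 w (wOf_le_vOf cx hTL hT1 hK hKL hw)⟩
  refine ⟨?_, hTsyl, hOQ, ?_, ?_, u, hu, hu1, ?_, ?_⟩
  · rw [hOQ]
    exact ((Subgroup.centralizer_le hOL).trans cx.cent).trans hOL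
  · rw [hOQ]
    have h1 := Subgroup.card_mul_index (Q.subgroupOf T)
    rw [Nat.card_congr (Subgroup.subgroupOfEquivOfLe hQT).toEquiv, hidxQ] at h1
    have h2 := Subgroup.card_mul_index (Q.subgroupOf P)
    rw [Nat.card_congr (Subgroup.subgroupOfEquivOfLe (hQT.trans hTP)).toEquiv, hcardP, ← h1] at h2
    refine Nat.eq_of_mul_eq_mul_left (Nat.card_pos (α := ↥Q)) ?_
    rw [Subgroup.relIndex, h2]; ring
  · intro hle
    have h := hle (Subgroup.commutator_mem_commutator (Subgroup.mem_sup_right haT) hkP)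
    rw [hOQ, commutatorElement_def] at h
    refine haQ (hfix a haT ?_)
    calc a * v * a⁻¹ = (a * k * a⁻¹ * k⁻¹) * (k * (a * u * a⁻¹) * k⁻¹) * (a * k * a⁻¹ * k⁻¹)⁻¹ := by
          rw [hv]; group
      _ = (a * k * a⁻¹ * k⁻¹) * v * (a * k * a⁻¹ * k⁻¹)⁻¹ := by rw [huT a haT, mul_inv_cancel_right]
      _ = v := by rw [← (mem_qOf.1 h).2 v hkW, mul_inv_cancel_right]
  · exact mem_omegaCenterOf.2 ⟨hcoreT (wOf_le_pCoreOf K hu), huT, hWsq u hu⟩
  · intro hbot
    have h := Subgroup.commutator_mem_commutator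
      (mem_omegaCenterOf.2 ⟨hcoreT (wOf_le_pCoreOf K hu), huT, hWsq u hu⟩ : u ∈ omegaCenterOf T) hkP
    rw [hbot, Subgroup.mem_bot, commutatorElement_eq_one_iff_mul_comm] at h
    exact hku (by rw [hv, ← h, mul_inv_cancel_right])

namespace StraddleCtx

variable {S : Sylow 2 G} {M T K : Subgroup G} (c : StraddleCtx S M T)
include c

/-- `T` centralizes `Ω₁(Z(J(T)))`. -/
theorem z0_central (hO : pCore 2 G = ⊥) (hK : IsJComponent T K) (hKM : ¬ K ≤ M) {L : Subgroup G}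
    (hL : IsMaximalTwoLocal L) (hTL : IsSylowTwoIn T L) (hKL : K ≤ L)
    (hTK : T ≤ Subgroup.normalizer (K : Set G)) : z0Of T ≤ omegaCenterOf T := by
  have hH2 := (c.bound hO hK hKM hL hTL hKL).1
  obtain ⟨w, ⟨hwZ, hwW⟩, hw1⟩ := c.exists_w hK
  obtain ⟨hw2, hsup⟩ := Cfsg.Agent.S2946.result c.char2 c.sol2 c.zn T c.two c.T_ne_bot K hK (z0Of T) rfl
  have hTJ : T ≤ Subgroup.normalizer (thompsonSubgroupOf 2 T : Set G) :=
    Subgroup.le_normalizer.trans (normalizer_le_thompson T)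
  intro z hz
  refine mem_omegaCenterOf.2 ⟨thompson_le_self T (mem_omegaCenterOf.1 hz).1, fun t ht => ?_,
    (mem_omegaCenterOf.1 hz).2.2⟩
  have hconj1 : ∀ {a : G}, a ≠ 1 → t * a * t⁻¹ ≠ 1 := fun ha e => ha (by simpa using e)
  rw [← hsup] at hz
  have hle : (z0Of T ⊓ ((K ⊔ thompsonSubgroupOf 2 T) ⊓
      Subgroup.centralizer ((K : Set G) ⊔ (thompsonSubgroupOf 2 T : Set G)))) ⊔ (z0Of T ⊓ wOf K) ≤
      Subgroup.centralizer ({t} : Set G) := by
    refine sup_le (fun a ha => ?_) fun a ha => ?_ <;> refine Subgroup.mem_centralizer_singleton_iff.2 ?_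
    · by_cases ha1 : a = 1
      · subst ha1; simp
      have haH : a ∈ hOf T K := ⟨ha.1, Subgroup.mem_centralizer_iff.2 fun y hy =>
        Subgroup.mem_centralizer_iff.1 ha.2.2 y (Or.inl hy)⟩
      have hta : t * a * t⁻¹ ∈ hOf T K := ⟨conj_mem_omegaCenterOf (hTJ ht) ha.1,
        Subgroup.mem_centralizer_iff.2 fun y hy => by
          have := conj_comm t (Subgroup.mem_centralizer_iff.1 haH.2 (t⁻¹ * y * t) (by
            have h := (Subgroup.mem_normalizer_iff.1 (Subgroup.inv_mem _ (hTK ht)) y).1 hy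
            rwa [inv_inv] at h))
          rwa [show t * (t⁻¹ * y * t) * t⁻¹ = y by group] at this⟩
      exact (mul_inv_eq_iff_eq_mul.1 (two_of_card_le hH2 hta haH (hconj1 ha1) ha1)).symm
    · by_cases ha1 : a = 1
      · subst ha1; simp
      exact (mul_inv_eq_iff_eq_mul.1 (two_of_card_le hw2.le (⟨conj_mem_omegaCenterOf (hTJ ht) ha.1,
        conj_mem_wOf (fun y hy => (Subgroup.mem_normalizer_iff.1 (hTK ht) y).1 hy) ha.2⟩ :
          t * a * t⁻¹ ∈ z0Of T ⊓ wOf K) ha (hconj1 ha1) ha1)).symm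
  exact (Subgroup.mem_centralizer_singleton_iff.1 (hle hz)).symm

end StraddleCtx

end CfsgLib.JComp
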