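import Cfsg.Agent.JComp.Solvable

/-!
The two kinds of local subgroups to which the theory of J(T)-components is applied.
-/

set_option autoImplicit false
open Cfsg

namespace CfsgLib.JComp

variable {G : Type*} [Group G] [Finite G]

omit [Finite G] in
theorem solvable_of_le {A B : Subgroup G} (hAB : A ≤ B) (h : Group.IsSolvable ↥B) : Group.IsSolvable ↥A := by
  haveI := h
  exact solvable_of_solvable_injective (Subgroup.inclusion_injective hAB)

theorem ctx_of_jOvergroup (hL : IsCharacteristicTwoType G) (hN : ∀ N : Subgroup G, IsTwoLocal N → Group.IsSolvable ↥N)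
    (hZ : ∀ S : Sylow 2 G, Subgroup.centralizer (omegaCenterOf (S : Subgroup G) : Set G) ≤
      Subgroup.normalizer ((S : Subgroup G) : Set G))
    {T L : Subgroup G} (hT1 : T ≠ ⊥) (hLT : L ∈ jOvergroups T) : LocalCtx L := by
  refine ⟨hL, hN, hZ, ?_, hLT.2.2⟩
  have hO : pCoreOf 2 L ≠ ⊥ := fun h => by
    obtain ⟨t, ht, ht1⟩ := T.bot_or_exists_ne_one.resolve_left hT1
    have h2 := hLT.2.2
    rw [h] at h2
    exact ht1 (Subgroup.mem_bot.1 (h2 (Subgroup.mem_centralizer_iff.2 fun y hy => by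
      rw [Subgroup.mem_bot.1 hy, one_mul, mul_one])))
  refine solvable_of_le (fun g hg => ?_) (hN _ ⟨_, isPGroup_pCoreOf L, hO, rfl⟩)
  rw [Subgroup.mem_normalizer_iff]
  refine fun x => ⟨conj_mem_core hg, fun h => ?_⟩
  have := conj_mem_core (L.inv_mem hg) h
  rwa [show g⁻¹ * (g * x * g⁻¹) * g⁻¹⁻¹ = x by group] at this

theorem two_le_pCoreOf {P : Subgroup G} (hP : IsPGroup 2 ↥P) :
    P ≤ pCoreOf 2 (Subgroup.normalizer (P : Set G)) := by
  have hn : (P.subgroupOf (Subgroup.normalizer (P : Set G))).Normal := Subgroup.normal_in_normalizer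
  have h := Components.le_pCore hn (p := 2) hP.comap_subtype
  exact fun x hx => ⟨⟨x, Subgroup.le_normalizer hx⟩, h hx, rfl⟩

theorem ctx_of_normalizer (hL : IsCharacteristicTwoType G) (hN : ∀ N : Subgroup G, IsTwoLocal N → Group.IsSolvable ↥N)
    (hZ : ∀ S : Sylow 2 G, Subgroup.centralizer (omegaCenterOf (S : Subgroup G) : Set G) ≤
      Subgroup.normalizer ((S : Subgroup G) : Set G))
    {P : Subgroup G} (hP : IsPGroup 2 ↥P) (hP1 : P ≠ ⊥) : LocalCtx (Subgroup.normalizer (P : Set G)) := by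
  refine ⟨hL, hN, hZ, hN _ ⟨P, hP, hP1, rfl⟩, fun x hx => ?_⟩
  have hxN : x ∈ Subgroup.normalizer (P : Set G) := Subgroup.centralizer_le_normalizer _
    (Subgroup.mem_centralizer_iff.2 fun y hy => Subgroup.mem_centralizer_iff.1 hx y (two_le_pCoreOf hP hy))
  refine ⟨⟨x, hxN⟩, hL.2 P hP hP1 (Subgroup.mem_centralizer_iff.2 fun y hy => ?_), rfl⟩
  exact Subtype.ext (Subgroup.mem_centralizer_iff.1 hx (y : G) ⟨y, hy, rfl⟩)

theorem thompson_ne_bot {T : Subgroup G} {K : Subgroup G} (hK : IsJComponent T K) :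
    thompsonSubgroupOf 2 T ≠ ⊥ := by
  intro h
  have h2 := hK.2.1
  rw [h, Subgroup.commutator_bot_right] at h2
  have := hK.2.2.2.2.1
  rw [wOf, ← h2, Subgroup.commutator_bot_right, Subgroup.card_bot] at this
  omega

theorem card_thompson_conj {T S : Subgroup G} {g h : G}
    (hJS : thompsonSubgroupOf 2 S = (thompsonSubgroupOf 2 T).map (MulAut.conj h).toMonoidHom)
    (hle : thompsonSubgroupOf 2 (T.map (MulAut.conj g).toMonoidHom) ≤ S) :
    thompsonSubgroupOf 2 (T.map (MulAut.conj g).toMonoidHom) = thompsonSubgroupOf 2 S := by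
  rw [← thompson_map] at hJS
  refine Subgroup.eq_of_le_of_card_ge (thompson_le fun A hA => ?_) ?_
  · refine IsMaxEl.le_thompson ⟨hA.le_thompson.trans hle, hA.el, fun B hB hBe => ?_⟩
    obtain ⟨A₀, hA₀⟩ := exists_maxEl T
    have e1 := hA₀.map (MulAut.conj h)
    have e2 := hA₀.map (MulAut.conj g)
    have e3 : IsMaxEl S (A₀.map (MulAut.conj h).toMonoidHom) := e1.of_thompson_eq hJS
    refine (e3.max B hB hBe).trans ?_
    have := hA.max _ e2.le e2.el
    rw [Subgroup.card_map_of_injective (MulAut.conj g).injective] at this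
    rwa [Subgroup.card_map_of_injective (MulAut.conj h).injective]
  · rw [hJS, thompson_map, thompson_map, Subgroup.card_map_of_injective (MulAut.conj h).injective,
      Subgroup.card_map_of_injective (MulAut.conj g).injective]

end CfsgLib.JComp
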