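import Cfsg.Agent.JComp.Pair

/-!
One component normalised by a 2-group.
-/

set_option autoImplicit false
open Cfsg
open scoped commutatorElement

namespace CfsgLib.JComp

variable {G : Type*} [Group G] [Finite G]

/-- A component `K` normalised by the 2-group `T`. -/
structure SideCtx (T K : Subgroup G) : Prop where
  two : IsPGroup 2 ↥T
  comp : IsJComponent T K
  tK : T ≤ Subgroup.normalizer (K : Set G)
  coreT : pCoreOf 2 K ≤ T

namespace SideCtx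

variable {T K : Subgroup G} (c : SideCtx T K)
include c

theorem conjK {p y : G} (hp : p ∈ K ⊔ T) (hy : y ∈ K) : p * y * p⁻¹ ∈ K :=
  (Subgroup.mem_normalizer_iff.1 ((sup_le Subgroup.le_normalizer c.tK : K ⊔ T ≤ _) hp) y).1 hy

theorem conjW {p w : G} (hp : p ∈ K ⊔ T) (hw : w ∈ wOf K) : p * w * p⁻¹ ∈ wOf K :=
  conj_mem_wOf (fun _ hy => c.conjK hp hy) hw

theorem conjW' {p w : G} (hp : p ∈ K ⊔ T) (hw : w ∈ wOf K) : p⁻¹ * w * p ∈ wOf K := by
  have := c.conjW ((K ⊔ T).inv_mem hp) hw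
  rwa [inv_inv] at this

theorem conjCore {p y : G} (hp : p ∈ K ⊔ T) (hy : y ∈ pCoreOf 2 K) : p * y * p⁻¹ ∈ pCoreOf 2 K :=
  conj_mem_pCoreOf (fun _ hh => c.conjK hp hh) hy

theorem W_sq {w : G} (hw : w ∈ wOf K) : w * w = 1 := c.comp.2.2.2.2.2 w hw

theorem W_inv {w : G} (hw : w ∈ wOf K) : w⁻¹ = w := inv_eq_of_mul_eq_one_left (c.W_sq hw)

theorem W_comm_core {y w : G} (hy : y ∈ pCoreOf 2 K) (hw : w ∈ wOf K) : w * y = y * w :=
  ((mem_omegaCenterOf.1 (wOf_le_omega K hw)).2.1 y hy).symm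

theorem W_comm {a b : G} (ha : a ∈ wOf K) (hb : b ∈ wOf K) : a * b = b * a :=
  c.W_comm_core (wOf_le_pCoreOf K hb) ha

theorem core_le_Q : pCoreOf 2 K ≤ qOf T K := fun _ hy =>
  mem_qOf.2 ⟨c.coreT hy, fun _ hw => c.W_comm_core hy hw⟩

theorem W_le_Q : wOf K ≤ qOf T K := (wOf_le_pCoreOf K).trans c.core_le_Q

theorem W_ne_bot : wOf K ≠ ⊥ := fun h => by
  have := c.comp.2.2.2.2.1
  rw [h, Subgroup.card_bot] at this
  omega

theorem cent_K {y : G} (hy : y ∈ K) (hc : ∀ w ∈ wOf K, w * y = y * w) : y ∈ pCoreOf 2 K := by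
  by_contra hne
  obtain ⟨k, hk, hko, hkQ⟩ := exists_odd_notMem c.comp
  obtain ⟨w, hw, hw1⟩ := (Subgroup.bot_or_exists_ne_one _).resolve_left c.W_ne_bot
  refine hw1 (fpf_wOf c.comp hk hko hkQ hw (mul_inv_eq_iff_eq_mul.2 ?_))
  rcases (K_cases c.comp hk hkQ).2 y hy with h | h | h
  · exact absurd h hne
  · have e := c.W_comm_core h hw
    have e' := hc w hw
    calc k * w = (y * k⁻¹)⁻¹ * (y * w) := by group
      _ = (y * k⁻¹)⁻¹ * w * y := by rw [← e', mul_assoc]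
      _ = w * (y * k⁻¹)⁻¹ * y := by
          rw [show (y * k⁻¹)⁻¹ * w = w * (y * k⁻¹)⁻¹ from (Commute.inv_right (show Commute w (y * k⁻¹) from e)).symm.eq]
      _ = w * k := by group
  · have e := c.W_comm_core h hw
    have e' := hc w hw
    have h2 : Commute w (k * k) := by
      have : Commute w ((y * (k * k)⁻¹)⁻¹ * y) := (Commute.inv_right (show Commute w (y * (k * k)⁻¹) from e)).mul_right e'
      rwa [mul_inv_rev, inv_inv, inv_mul_cancel_right] at this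
    have h3 : Commute w (k * k * k) := c.W_comm_core (K_cases c.comp hk hkQ).1 hw
    have h4 : Commute w ((k * k)⁻¹ * (k * k * k)) := h2.inv_right.mul_right h3
    rw [show (k * k)⁻¹ * (k * k * k) = k by group] at h4
    exact h4.eq.symm

theorem conjQ {p q : G} (hp : p ∈ K ⊔ T) (hq : q ∈ qOf T K) : p * q * p⁻¹ ∈ qOf T K := by
  have hle : K ⊔ T ≤ Subgroup.normalizer (qOf T K : Set G) := by
    have hcw : ∀ {g y : G}, g ∈ K ⊔ T → y ∈ qOf T K → ∀ w ∈ wOf K, w * (g * y * g⁻¹) = g * y * g⁻¹ * w := by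
      intro g y hg hy w hw
      have := conj_comm g ((mem_qOf.1 hy).2 _ (c.conjW' hg hw))
      rwa [show g * (g⁻¹ * w * g) * g⁻¹ = w by group] at this
    refine sup_le ?_ ?_
    · intro y hy
      refine Subgroup.mem_normalizer_fintype fun q hq => ?_
      show y * q * y⁻¹ ∈ qOf T K
      have hyP : y ∈ K ⊔ T := Subgroup.mem_sup_left hy
      have hqP : q ∈ K ⊔ T := Subgroup.mem_sup_right (mem_qOf.1 hq).1
      have hz : y * q * y⁻¹ * q⁻¹ ∈ K := by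
        rw [show y * q * y⁻¹ * q⁻¹ = y * (q * y⁻¹ * q⁻¹) by group]
        exact K.mul_mem hy (c.conjK hqP (K.inv_mem hy))
      have hzc : ∀ w ∈ wOf K, w * (y * q * y⁻¹ * q⁻¹) = y * q * y⁻¹ * q⁻¹ * w := fun w hw =>
        ((show Commute w (y * q * y⁻¹) from hcw hyP hq w hw).mul_right
          (Commute.inv_right (show Commute w q from (mem_qOf.1 hq).2 w hw))).eq
      refine mem_qOf.2 ⟨?_, hcw hyP hq⟩
      have := T.mul_mem (c.coreT (c.cent_K hz hzc)) (mem_qOf.1 hq).1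
      rwa [inv_mul_cancel_right] at this
    · intro t ht
      refine Subgroup.mem_normalizer_fintype fun q hq => mem_qOf.2 ⟨?_, hcw (Subgroup.mem_sup_right ht) hq⟩
      exact T.mul_mem (T.mul_mem ht (mem_qOf.1 hq).1) (T.inv_mem ht)
  exact (Subgroup.mem_normalizer_iff.1 (hle hp) q).1 hq

theorem exists_fixed : ∃ u ∈ wOf K, u ≠ 1 ∧ ∀ t ∈ T, t * u = u * t := by
  haveI : Fact (Nat.Prime 2) := ⟨Nat.prime_two⟩
  have hWT : wOf K ≤ T := c.W_le_Q.trans inf_le_left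
  haveI : ((wOf K).subgroupOf T).Normal := ⟨fun w hw t => c.conjW (Subgroup.mem_sup_right t.2) hw⟩
  have hne : (wOf K).subgroupOf T ≠ ⊥ := fun h => c.W_ne_bot (eq_bot_iff.2 fun w hw => by
    have h1 : (⟨w, hWT hw⟩ : ↥T) ∈ (⊥ : Subgroup ↥T) := h ▸ hw
    exact Subgroup.mem_bot.2 (congrArg Subtype.val (Subgroup.mem_bot.1 h1)))
  obtain ⟨⟨u, hu⟩, ⟨hu1, hu2⟩, hu3⟩ :=
    (Subgroup.bot_or_exists_ne_one _).resolve_left (CfsgLib.PReduced.inf_center_ne_bot c.two hne)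
  exact ⟨u, hu1, fun e => hu3 (Subtype.ext e),
    fun t ht => congrArg Subtype.val (Subgroup.mem_center_iff.1 hu2 ⟨t, ht⟩)⟩

variable {u : G} (hu : u ∈ wOf K) (hu1 : u ≠ 1) (huT : ∀ t ∈ T, t * u = u * t)
include hu hu1 huT

theorem cent_eq {t w : G} (ht : t ∈ T) (hw : w ∈ wOf K) (hw1 : w ≠ 1) (hwu : w ≠ u) (hc : w * t = t * w) :
    t ∈ qOf T K := by
  refine mem_qOf.2 ⟨ht, fun y hy => ?_⟩
  rcases four_cases c.comp.2.2.2.2.1 (fun _ h => c.W_sq h) hu hw hu1 hw1 (Ne.symm hwu) hy with rfl | rfl | rfl | rfl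
  · simp
  · exact (huT t ht).symm
  · exact hc
  · exact ((show Commute u t from (huT t ht).symm).mul_left (show Commute w t from hc)).eq

theorem conj_ne {p w : G} (hw : w ≠ u) (hp : p ∈ T) : p * w * p⁻¹ ≠ u := fun e => hw (by
  calc w = p⁻¹ * (p * w * p⁻¹) * p := by group
    _ = p⁻¹ * (u * p) := by rw [e, mul_assoc]
    _ = p⁻¹ * (p * u) := by rw [huT p hp]
    _ = u := by group)

theorem comm_val {t w : G} (ht : t ∈ T) (hw : w ∈ wOf K) :
    t * w * t⁻¹ * w⁻¹ = 1 ∨ t * w * t⁻¹ * w⁻¹ = u := by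
  by_cases hw1 : w = 1
  · subst hw1; left; group
  by_cases hwu : w = u
  · subst hwu; left; rw [huT t ht]; group
  rcases four_cases c.comp.2.2.2.2.1 (fun _ h => c.W_sq h) hu hw hu1 hw1 (Ne.symm hwu)
    (c.conjW (Subgroup.mem_sup_right ht) hw) with h | h | h | h
  · exact absurd (by simpa using h) hw1
  · exact absurd h (c.conj_ne hu hu1 huT hwu ht)
  · left; rw [h, mul_inv_cancel]
  · right; rw [h, mul_inv_cancel_right]

omit hu hu1 huT

/-- The action of an element outside `Q` on an odd element of `K`. -/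
theorem swap {k : G} (hk : k ∈ K) (hko : Odd (orderOf k)) (hkQ : k ∉ pCoreOf 2 K) {a : G} (ha : a ∈ T)
    (haQ : a ∉ qOf T K) : ∃ q ∈ pCoreOf 2 K, a * k * a⁻¹ = q * (k * k) := by
  obtain ⟨u, hu, hu1, huT⟩ := c.exists_fixed
  have haP : a ∈ K ⊔ T := Subgroup.mem_sup_right ha
  rcases (K_cases c.comp hk hkQ).2 _ (c.conjK haP hk) with h | h | h
  · have := c.conjCore ((K ⊔ T).inv_mem haP) h
    rw [show a⁻¹ * (a * k * a⁻¹) * a⁻¹⁻¹ = k by group] at this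
    exact absurd this hkQ
  · set q := a * k * a⁻¹ * k⁻¹ with hq
    have hkW : k * u * k⁻¹ ∈ wOf K := c.conjW (Subgroup.mem_sup_left hk) hu
    have hne : k * u * k⁻¹ ≠ u := fun e => hu1 (fpf_wOf c.comp hk hko hkQ hu e)
    have hne1 : k * u * k⁻¹ ≠ 1 := fun e => hu1 (by simpa using e)
    refine absurd (c.cent_eq hu hu1 huT ha hkW hne1 hne ?_) haQ
    have h1 : a * (k * u * k⁻¹) * a⁻¹ = q * (k * u * k⁻¹) * q⁻¹ := by
      calc a * (k * u * k⁻¹) * a⁻¹ = (a * k * a⁻¹) * (a * u * a⁻¹) * (a * k * a⁻¹)⁻¹ := by group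
        _ = (a * k * a⁻¹) * u * (a * k * a⁻¹)⁻¹ := by rw [huT a ha, mul_inv_cancel_right]
        _ = q * (k * u * k⁻¹) * q⁻¹ := by rw [hq]; group
    rw [← c.W_comm_core h hkW, mul_inv_cancel_right, mul_inv_eq_iff_eq_mul] at h1
    exact h1.symm
  · exact ⟨a * k * a⁻¹ * (k * k)⁻¹, h, by group⟩

/-- Generation of `K` by an odd element and the 2-core. -/
theorem K_mem_of {N : Subgroup G} {k : G} (hk : k ∈ K) (hkQ : k ∉ pCoreOf 2 K) (hkN : k ∈ N)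
    (hQN : pCoreOf 2 K ≤ N) : K ≤ N := by
  intro y hy
  rcases (K_cases c.comp hk hkQ).2 y hy with h | h | h
  · exact hQN h
  · rw [show y = y * k⁻¹ * k by group]; exact N.mul_mem (hQN h) hkN
  · rw [show y = y * (k * k)⁻¹ * (k * k) by group]; exact N.mul_mem (hQN h) (N.mul_mem hkN hkN)

include hu hu1 huT

omit hu hu1 huT in
theorem exists_notMem : ∃ a ∈ T, a ∉ qOf T K := by
  by_contra h
  push Not at h
  obtain ⟨k, hk, hko, hkQ⟩ := exists_odd_notMem c.comp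
  obtain ⟨w, hw, hw1⟩ := (Subgroup.bot_or_exists_ne_one _).resolve_left c.W_ne_bot
  have hKc : ⁅K, thompsonSubgroupOf 2 T⁆ ≤ Subgroup.centralizer (wOf K : Set G) := by
    refine Subgroup.commutator_le.2 fun y hy j hj => Subgroup.mem_centralizer_iff.2 fun v hv => ?_
    rw [commutatorElement_def]
    have hj' := thompson_le_self T hj
    have hq := c.conjQ (Subgroup.mem_sup_left hy) (h j hj')
    exact ((show Commute v (y * j * y⁻¹) from (mem_qOf.1 hq).2 v hv).mul_right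
      (Commute.inv_right (show Commute v j from (mem_qOf.1 (h j hj')).2 v hv))).eq
  rw [c.comp.2.1] at hKc
  exact hw1 (fpf_wOf c.comp hk hko hkQ hw (by
    rw [← Subgroup.mem_centralizer_iff.1 (hKc hk) w hw, mul_inv_cancel_right]))

omit huT in
theorem not_mem_cent {k : G} (hk : k ∈ K) (hko : Odd (orderOf k)) (hkQ : k ∉ pCoreOf 2 K) :
    k * u * k⁻¹ ∈ wOf K ∧ k * u * k⁻¹ ≠ 1 ∧ k * u * k⁻¹ ≠ u :=
  ⟨c.conjW (Subgroup.mem_sup_left hk) hu, fun e => hu1 (by simpa using e),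
    fun e => hu1 (fpf_wOf c.comp hk hko hkQ hu e)⟩

theorem exists_moved : ∃ v ∈ wOf K, v ≠ 1 ∧ v ≠ u := by
  obtain ⟨k, hk, hko, hkQ⟩ := exists_odd_notMem c.comp
  exact ⟨_, c.not_mem_cent hu hu1 hk hko hkQ⟩

theorem off_move {t v : G} (ht : t ∈ T) (htQ : t ∉ qOf T K) (hv : v ∈ wOf K) (hv1 : v ≠ 1) (hvu : v ≠ u) :
    t * v * t⁻¹ = u * v := by
  rcases c.comm_val hu hu1 huT ht hv with e | e
  · rw [mul_inv_eq_one, mul_inv_eq_iff_eq_mul] at e
    exact absurd (c.cent_eq hu hu1 huT ht hv hv1 hvu e.symm) htQ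
  · exact mul_inv_eq_iff_eq_mul.1 e

theorem off_mul {s t : G} (hs : s ∈ T) (hsQ : s ∉ qOf T K) (ht : t ∈ T) (htQ : t ∉ qOf T K) :
    s * t ∈ qOf T K := by
  obtain ⟨v, hv, hv1, hvu⟩ := c.exists_moved hu hu1 huT
  refine c.cent_eq hu hu1 huT (T.mul_mem hs ht) hv hv1 hvu ?_
  refine (mul_inv_eq_iff_eq_mul.1 ?_).symm
  calc s * t * v * (s * t)⁻¹ = s * (t * v * t⁻¹) * s⁻¹ := by group
    _ = (s * u * s⁻¹) * (s * v * s⁻¹) := by rw [c.off_move hu hu1 huT ht htQ hv hv1 hvu]; group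
    _ = u * (u * v) := by rw [huT s hs, mul_inv_cancel_right, c.off_move hu hu1 huT hs hsQ hv hv1 hvu]
    _ = v := by rw [← mul_assoc, c.W_sq hu, one_mul]

omit hu hu1 huT in
theorem card_T : Nat.card ↥T = 2 * Nat.card ↥(qOf T K) := by
  obtain ⟨u, hu, hu1, huT⟩ := c.exists_fixed
  obtain ⟨b, hbT, hbQ⟩ := c.exists_notMem
  have hQT : qOf T K ≤ T := inf_le_left
  have hidx : ((qOf T K).subgroupOf T).index = 2 := by
    rw [Subgroup.index_eq_two_iff]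
    refine ⟨⟨b, hbT⟩, fun t => ?_⟩
    show Xor' ((t : G) * b ∈ qOf T K) ((t : G) ∈ qOf T K)
    by_cases h : (t : G) ∈ qOf T K
    · refine Or.inr ⟨h, fun h1 => hbQ ?_⟩
      have := (qOf T K).mul_mem ((qOf T K).inv_mem h) h1
      rwa [inv_mul_cancel_left] at this
    · exact Or.inl ⟨c.off_mul hu hu1 huT t.2 h hbT hbQ, h⟩
  have h1 := Subgroup.card_mul_index ((qOf T K).subgroupOf T)
  rw [hidx, Nat.card_congr (Subgroup.subgroupOfEquivOfLe hQT).toEquiv] at h1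
  omega

omit hu hu1 huT in
theorem decomp {p : G} (hp : p ∈ K ⊔ T) : ∃ y ∈ K, ∃ t ∈ T, p = y * t := by
  rw [← SetLike.mem_coe, Subgroup.coe_mul_of_right_le_normalizer_left K T c.tK] at hp
  obtain ⟨y, hy, t, ht, rfl⟩ := hp
  exact ⟨y, hy, t, ht, rfl⟩

/-- If `r₀ ∉ Q` acts on the translate of `V` up to `u`, then `k` maps `V` into `W V`. -/
theorem move_into {V : Subgroup G} {k r₀ : G} (hk : k ∈ K) (hko : Odd (orderOf k)) (hkQ : k ∉ pCoreOf 2 K)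
    (hr₀ : r₀ ∈ T) (hr₀Q : r₀ ∉ qOf T K) (hV : ∀ t ∈ T, ∀ w ∈ V, t * w * t⁻¹ ∈ V)
    (hval : ∀ y ∈ V, r₀ * (k * y * k⁻¹) * r₀⁻¹ * (k * y * k⁻¹)⁻¹ = 1 ∨
      r₀ * (k * y * k⁻¹) * r₀⁻¹ * (k * y * k⁻¹)⁻¹ = u) {r : G} (hr : r ∈ V) :
    k * r * k⁻¹ ∈ wOf K ⊔ V := by
  have hkP : k ∈ K ⊔ T := Subgroup.mem_sup_left hk
  obtain ⟨q, hq, hswap⟩ := c.swap hk hko hkQ hr₀ hr₀Q
  have hq' : (k * k)⁻¹ * q * (k * k) ∈ pCoreOf 2 K := by
    have := c.conjCore ((K ⊔ T).inv_mem ((K ⊔ T).mul_mem hkP hkP)) hq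
    rwa [inv_inv] at this
  set t₁ := (k * k)⁻¹ * q * (k * k) * r₀ with ht₁
  have ht₁T : t₁ ∈ T := T.mul_mem (c.coreT hq') hr₀
  obtain ⟨y, hy, hy'⟩ : ∃ y ∈ V, t₁ * y * t₁⁻¹ = r :=
    ⟨t₁⁻¹ * r * t₁, by simpa using hV _ (T.inv_mem ht₁T) r hr, by group⟩
  set s := k * y * k⁻¹ with hs
  have hts : r₀ * s * r₀⁻¹ = k * k * r * (k * k)⁻¹ := by
    calc r₀ * s * r₀⁻¹ = (r₀ * k * r₀⁻¹) * (r₀ * y * r₀⁻¹) * (r₀ * k * r₀⁻¹)⁻¹ := by rw [hs]; group
      _ = k * k * (t₁ * y * t₁⁻¹) * (k * k)⁻¹ := by rw [hswap, ht₁]; group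
      _ = _ := by rw [hy']
  rcases hval y hy with e | e
  · rw [mul_inv_eq_one] at e
    have e3 : k * r * k⁻¹ = y := by
      calc k * r * k⁻¹ = k⁻¹ * (k * k * r * (k * k)⁻¹) * k := by group
        _ = k⁻¹ * s * k := by rw [← hts, e]
        _ = y := by rw [hs]; group
    rw [e3]; exact Subgroup.mem_sup_right hy
  · rw [mul_inv_eq_iff_eq_mul] at e
    have e3 : k * r * k⁻¹ = (k⁻¹ * u * k) * y := by
      calc k * r * k⁻¹ = k⁻¹ * (k * k * r * (k * k)⁻¹) * k := by group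
        _ = k⁻¹ * (u * s) * k := by rw [← hts, e]
        _ = (k⁻¹ * u * k) * y := by rw [hs]; group
    rw [e3]
    exact Subgroup.mul_mem _ (Subgroup.mem_sup_left (c.conjW' hkP hu)) (Subgroup.mem_sup_right hy)

theorem normalizes_sup {V : Subgroup G} {k r₀ : G} (hk : k ∈ K) (hko : Odd (orderOf k)) (hkQ : k ∉ pCoreOf 2 K)
    (hr₀ : r₀ ∈ T) (hr₀Q : r₀ ∉ qOf T K) (hV : ∀ t ∈ T, ∀ w ∈ V, t * w * t⁻¹ ∈ V)
    (hval : ∀ y ∈ V, r₀ * (k * y * k⁻¹) * r₀⁻¹ * (k * y * k⁻¹)⁻¹ = 1 ∨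
      r₀ * (k * y * k⁻¹) * r₀⁻¹ * (k * y * k⁻¹)⁻¹ = u) :
    k ∈ Subgroup.normalizer ((wOf K ⊔ V : Subgroup G) : Set G) := by
  refine Subgroup.mem_normalizer_fintype fun y hy => ?_
  have hle : wOf K ⊔ V ≤ (wOf K ⊔ V).comap (MulAut.conj k).toMonoidHom :=
    sup_le (fun w hw => Subgroup.mem_sup_left (c.conjW (Subgroup.mem_sup_left hk) hw))
      fun r hr => c.move_into hu hu1 huT hk hko hkQ hr₀ hr₀Q hV hval hr
  exact hle hy

end SideCtx

end CfsgLib.JComp
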