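import Cfsg.Agent.JComp.Final
import Cfsg.Agent.JComp.Side

/-!
A maximal 2-local subgroup with a tiny Sylow 2-subgroup is `S₄` or `S₄ × 2`.
-/

set_option autoImplicit false
open Cfsg

namespace CfsgLib.JComp

variable {G : Type*} [Group G] [Finite G]

/-- A group of order 24 with a core-free subgroup of index 4. -/
theorem sym4_of_index_four {X : Type*} [Group X] [Finite X] (hX : Nat.card X = 24) (H : Subgroup X)
    (hH : H.index = 4) (hcore : H.normalCore = ⊥) : Nonempty (X ≃* Equiv.Perm (Fin 4)) := by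
  have h4 : Nat.card (X ⧸ H) = 4 := hH
  set e : X ⧸ H ≃ Fin 4 := Finite.equivFinOfCardEq h4
  set φ : X →* Equiv.Perm (Fin 4) := e.permCongrHom.toMonoidHom.comp (MulAction.toPermHom X (X ⧸ H)) with hφ
  have hinj : Function.Injective φ := by
    have h1 : Function.Injective (MulAction.toPermHom X (X ⧸ H)) := by
      rw [← MonoidHom.ker_eq_bot_iff, ← Subgroup.normalCore_eq_ker]
      exact hcore
    exact e.permCongrHom.injective.comp h1
  refine ⟨MulEquiv.ofBijective φ ((Nat.bijective_iff_injective_and_card φ).2 ⟨hinj, ?_⟩)⟩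
  rw [hX, Nat.card_perm, Nat.card_fin]
  rfl

/-- A component in a maximal 2-local subgroup with elementary abelian `Q` of order at most 8. -/
theorem local_sym4 {T K L : Subgroup G} (cx : LocalCtx L) (cs : SideCtx T K) (hT1 : T ≠ ⊥)
    (hTL : IsSylowTwoIn T L) (hKL : K ≤ L) (hzero : ∀ q ∈ qOf T K, q * q = 1)
    (hinv : ∃ t₁ ∈ T, t₁ ∉ qOf T K ∧ t₁ * t₁ = 1) (hcardT : Nat.card ↥T = 2 * Nat.card ↥(qOf T K))
    (hC : ∃ C : Subgroup G, C ≤ qOf T K ∧ (∀ y ∈ K ⊔ T, ∀ d ∈ C, y * d = d * y) ∧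
        C ⊓ wOf K = ⊥ ∧ C ⊔ wOf K = qOf T K ∧ Nat.card ↥(qOf T K) = 4 * Nat.card ↥C ∧ Nat.card ↥C ≤ 2) :
    (Nat.card ↥T = 8 ∧ Nonempty (↥L ≃* Equiv.Perm (Fin 4))) ∨
      (Nat.card ↥T = 16 ∧ Nonempty (↥L ≃* Equiv.Perm (Fin 4) × Multiplicative (ZMod 2))) := by
  classical
  haveI : Fact (Nat.Prime 2) := ⟨Nat.prime_two⟩
  have hK := cs.comp
  have hTK := cs.tK
  obtain ⟨b, hbT, hbQ, hbsq⟩ := hinv
  obtain ⟨C, hCQ, hCP, hdisj, hsup, hcardQ, hC2⟩ := hC
  obtain ⟨-, -, hOP, hidx, -⟩ := join_structure cx hT1 hK hTL hKL hTK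
  obtain ⟨u, hu, hu1, huT⟩ := cs.exists_fixed
  set Q := qOf T K with hQ
  have hQT : Q ≤ T := inf_le_left
  have hWQ : wOf K ≤ Q := cs.W_le_Q
  have hQc : ∀ p ∈ Q, ∀ q ∈ Q, p * q = q * p := fun p hp q hq => by
    have i1 : p⁻¹ = p := inv_eq_of_mul_eq_one_left (hzero p hp)
    have i2 : q⁻¹ = q := inv_eq_of_mul_eq_one_left (hzero q hq)
    calc p * q = (p * q)⁻¹ := (inv_eq_of_mul_eq_one_left (hzero _ (Q.mul_mem hp hq))).symm
      _ = q * p := by rw [mul_inv_rev, i1, i2]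
  have hOQ : pCoreOf 2 L = Q := by
    have hle : pCoreOf 2 L ≤ Q := fun y hy => mem_qOf.2 ⟨core_le_sylow hTL hy, fun w hw =>
      (mem_cOf.1 (core_le_cOf hy)).2 w (wOf_le_vOf cx hTL hT1 hK hKL hw)⟩
    exact le_antisymm hle fun q hq =>
      cx.cent (Subgroup.mem_centralizer_iff.2 fun o ho => hQc o (hle ho) q hq)
  have hQn : ∀ g ∈ L, ∀ q ∈ Q, g * q * g⁻¹ ∈ Q := fun g hg q hq => by
    rw [← hOQ] at hq ⊢; exact conj_mem_core hg hq
  have hdec : ∀ q ∈ Q, ∃ d ∈ C, ∃ w ∈ wOf K, q = d * w := by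
    intro q hq
    rw [← hsup, ← SetLike.mem_coe, Subgroup.coe_mul_of_left_le_normalizer_right C (wOf K) (fun d hd =>
      Subgroup.mem_normalizer_fintype fun w hw => by
        show d * w * d⁻¹ ∈ wOf K
        rw [← (mem_qOf.1 (hCQ hd)).2 w hw, mul_inv_cancel_right]; exact hw)] at hq
    obtain ⟨d, hd, w, hw, rfl⟩ := hq
    exact ⟨d, hd, w, hw, rfl⟩
  -- `L` normalizes `K`
  have hLK : ∀ g ∈ L, ∀ y ∈ K, g * y * g⁻¹ ∈ K := by
    intro g hg y hy
    set φ := (MulAut.conj g).toMonoidHom with hφ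
    have hLg : L.map φ = L := Subgroup.mem_normalizer_iff_map_conj_eq.1 (Subgroup.le_normalizer hg)
    have hTg : IsSylowTwoIn (T.map φ) L := by
      have h := isSylowTwoIn_map (MulAut.conj g) hTL
      rwa [hLg] at h
    have hT1g : T.map φ ≠ ⊥ := fun e =>
      hT1 ((Subgroup.map_eq_bot_iff_of_injective _ (MulAut.conj g).injective).1 e)
    have hKg : IsJComponent (T.map φ) (K.map φ) := IsJComponent.map (MulAut.conj g) hK
    have hint : wOf K ⊓ wOf (K.map φ) ≠ ⊥ := by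
      intro h0
      rw [hφ, wOf_map] at h0
      have h1 : ∀ w' ∈ (wOf K).map φ, w' ∈ Q := by
        rintro _ ⟨w, hw, rfl⟩; exact hQn g hg w (hWQ hw)
      have hinj : Function.Injective (fun p : ↥(wOf K) × ↥((wOf K).map φ) =>
          (⟨(p.1 : G) * (p.2 : G), Q.mul_mem (hWQ p.1.2) (h1 _ p.2.2)⟩ : ↥Q)) := by
        rintro ⟨⟨c1, hc1⟩, ⟨w1, hw1⟩⟩ ⟨⟨c2, hc2⟩, ⟨w2, hw2⟩⟩ e
        have e' : c1 * w1 = c2 * w2 := congrArg Subtype.val e
        have e2 : c2⁻¹ * c1 = w2 * w1⁻¹ := by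
          calc c2⁻¹ * c1 = c2⁻¹ * (c1 * w1) * w1⁻¹ := by group
            _ = w2 * w1⁻¹ := by rw [e']; group
        have h2 : c2⁻¹ * c1 ∈ wOf K ⊓ (wOf K).map φ :=
          ⟨(wOf K).mul_mem ((wOf K).inv_mem hc2) hc1, e2 ▸ Subgroup.mul_mem _ hw2 (Subgroup.inv_mem _ hw1)⟩
        rw [h0, Subgroup.mem_bot] at h2
        rw [h2] at e2
        exact Prod.ext (Subtype.ext (inv_mul_eq_one.1 h2).symm) (Subtype.ext (mul_inv_eq_one.1 e2.symm).symm)
      have h3 := Nat.card_le_card_of_injective _ hinj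
      rw [Nat.card_prod, hφ,
        Subgroup.card_map_of_injective (f := (MulAut.conj g).toMonoidHom) (MulAut.conj g).injective,
        hK.2.2.2.2.1] at h3
      omega
    have hKgL : K.map φ ≤ L := hLg ▸ Subgroup.map_mono hKL
    have e := component_unique cx hTL hT1 hK hKL hTg hT1g hKg hKgL hint
    exact e ▸ ⟨y, hy, rfl⟩
  have hLW : ∀ g ∈ L, ∀ w ∈ wOf K, g * w * g⁻¹ ∈ wOf K := fun g hg w hw =>
    conj_mem_wOf (fun y hy => hLK g hg y hy) hw
  -- an element of order three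
  obtain ⟨k, hk, hko, hkQ⟩ := exists_odd_notMem hK
  have hkP : k ∈ K ⊔ T := Subgroup.mem_sup_left hk
  have hcoreQ := cs.core_le_Q
  have hodd : ∀ y : G, Odd (orderOf y) → y * y = 1 → y = 1 := fun y ho h2 => by
    refine orderOf_eq_one_iff.1 (Nat.eq_one_of_dvd_coprimes (Nat.coprime_two_right.2 ho) dvd_rfl ?_)
    exact orderOf_dvd_of_pow_eq_one (by rw [pow_two, h2])
  have hk3 : k * k * k = 1 := by
    refine hodd _ ?_ (hzero _ (hcoreQ (K_cases hK hk hkQ).1))
    obtain ⟨d, hd⟩ := orderOf_pow_dvd (x := k) (n := 3)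
    rw [show k * k * k = k ^ 3 by rw [pow_succ, pow_two]]
    exact Odd.of_dvd_nat hko ⟨d, hd⟩
  have hfix : ∀ w ∈ wOf K, k * w * k⁻¹ = w → w = 1 := fun w hw => fpf_wOf hK hk hko hkQ hw
  have horb : ∀ w ∈ wOf K, k * (k * w * k⁻¹) * k⁻¹ = w * (k * w * k⁻¹) := by
    intro w hw
    by_cases hw1 : w = 1
    · subst hw1; simp
    have hkw : k * w * k⁻¹ ∈ wOf K := cs.conjW hkP hw
    have hkw1 : k * w * k⁻¹ ≠ 1 := fun e => hw1 (by simpa using e)
    rcases four_cases hK.2.2.2.2.1 (fun _ h => cs.W_sq h) hw hkw hw1 hkw1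
      (fun e => hw1 (hfix w hw e.symm)) (cs.conjW hkP hkw) with e | e | e | e
    · exact absurd (by simpa using e) hw1
    · refine absurd (hfix w hw ?_) hw1
      calc k * w * k⁻¹ = k * (k * (k * w * k⁻¹) * k⁻¹) * k⁻¹ := by rw [e]
        _ = (k * k * k) * w * (k * k * k)⁻¹ := by group
        _ = w := by rw [hk3]; group
    · exact absurd (hfix _ hkw e) hkw1
    · exact e
  set W := wOf K with hW
  set N := W ⊔ Subgroup.zpowers k with hN
  have hkN : Subgroup.zpowers k ≤ Subgroup.normalizer (W : Set G) := Subgroup.zpowers_le.2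
    (Subgroup.mem_normalizer_fintype fun w hw => cs.conjW hkP hw)
  have hK3 : ∀ z ∈ Subgroup.zpowers k, z * z * z = 1 := by
    intro z hz
    obtain ⟨n, rfl⟩ := hz
    simp only []
    calc k ^ n * k ^ n * k ^ n = k ^ ((3 : ℤ) * n) := by
          rw [← zpow_add, ← zpow_add]; congr 1; ring
      _ = 1 := by rw [zpow_mul, show k ^ (3 : ℤ) = 1 by rw [zpow_ofNat, pow_succ, pow_two, hk3], one_zpow]
  have hNdec : ∀ y ∈ N, ∃ w ∈ W, ∃ z ∈ Subgroup.zpowers k, y = w * z := by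
    intro y hy
    rw [hN, ← SetLike.mem_coe, Subgroup.coe_mul_of_right_le_normalizer_left _ _ hkN] at hy
    obtain ⟨w, hw, z, hz, rfl⟩ := hy
    exact ⟨w, hw, z, hz, rfl⟩
  have hcube : ∀ w ∈ W, (w * k) * (w * k) * (w * k) = 1 ∧ (w * (k * k)) * (w * (k * k)) * (w * (k * k)) = 1 := by
    intro w hw
    have hkw : k * w * k⁻¹ ∈ W := cs.conjW hkP hw
    constructor
    · rw [show (w * k) * (w * k) * (w * k) = w * (k * w * k⁻¹) * (k * (k * w * k⁻¹) * k⁻¹) * (k * k * k) by group,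
        horb w hw, hk3, mul_one, cs.W_sq ((W.mul_mem hw hkw))]
    · set w' := k * (k * w * k⁻¹) * k⁻¹ with hw'
      rw [show (w * (k * k)) * (w * (k * k)) * (w * (k * k)) =
        w * w' * ((k * k * k) * (k * w * k⁻¹) * (k * k * k)⁻¹) * ((k * k * k) * (k * k * k)) by rw [hw']; simp [mul_assoc], hk3,
        one_mul, inv_one, mul_one, mul_one, mul_one, hw', horb w hw,
        show w * (w * (k * w * k⁻¹)) * (k * w * k⁻¹) = (w * w) * ((k * w * k⁻¹) * (k * w * k⁻¹)) by group,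
        cs.W_sq hw, cs.W_sq hkw, mul_one]
  have hKN : K ≤ N := by
    conv_lhs => rw [← hK.1]
    rw [Subgroup.closure_le]
    rintro y ⟨hy, hyo⟩
    have hcase : ∀ q ∈ pCoreOf 2 K, ∀ i, i = k ∨ i = k * k → y = q * i → y ∈ N := by
      intro q hq i hi e
      obtain ⟨d, hd, w, hw, rfl⟩ := hdec q (hcoreQ hq)
      have hiK : i ∈ K := by rcases hi with rfl | rfl; exacts [hk, K.mul_mem hk hk]
      have hiN : w * i ∈ N := Subgroup.mul_mem _ (Subgroup.mem_sup_left hw) (Subgroup.mem_sup_right (by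
        rcases hi with rfl | rfl
        exacts [Subgroup.mem_zpowers i, Subgroup.mul_mem _ (Subgroup.mem_zpowers k) (Subgroup.mem_zpowers k)]))
      have h3 : (w * i) * (w * i) * (w * i) = 1 := by
        rcases hi with rfl | rfl
        exacts [(hcube w hw).1, (hcube w hw).2]
      have hc : Commute d (w * i) :=
        (show Commute d w from hQc d (hCQ hd) w (hWQ hw)).mul_right
          (show Commute d i from (hCP i (Subgroup.mem_sup_left hiK) d hd).symm)
      have hy3 : y ^ 3 = d := by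
        rw [e, mul_assoc, hc.mul_pow, pow_succ, pow_two, hzero d (hCQ hd), one_mul, pow_succ, pow_two, h3, mul_one]
      have hd1 : d = 1 := by
        obtain ⟨m, hm⟩ := orderOf_pow_dvd (x := y) (n := 3)
        exact hodd d (hy3 ▸ Odd.of_dvd_nat hyo ⟨m, hm⟩) (hzero d (hCQ hd))
      rw [e, hd1, one_mul]
      exact hiN
    rcases (K_cases hK hk hkQ).2 y hy with h | h | h
    · rw [hodd y hyo (hzero _ (hcoreQ h))]; exact N.one_mem
    · exact hcase _ h k (Or.inl rfl) (by group)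
    · exact hcase _ h _ (Or.inr rfl) (by group)
  have hT3 : ∀ z ∈ T, z * z * z = 1 → z = 1 := by
    intro z hz h3
    obtain ⟨n, hn⟩ := cs.two ⟨z, hz⟩
    refine orderOf_eq_one_iff.1 (Nat.eq_one_of_dvd_coprimes ((Nat.Coprime.pow_right n
      (show Nat.Coprime 3 2 by norm_num))) (orderOf_dvd_of_pow_eq_one (by rw [pow_succ, pow_two, h3]))
      (orderOf_dvd_of_pow_eq_one (by simpa using congrArg Subtype.val hn)))
  have hWT : W ≤ T := hWQ.trans hQT
  have hKT : ∀ y ∈ K, y ∈ T → y ∈ W := by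
    intro y hy hyT
    obtain ⟨w, hw, z, hz, rfl⟩ := hNdec y (hKN hy)
    have hzT : z ∈ T := by
      have := T.mul_mem (T.inv_mem (hWT hw)) hyT
      rwa [inv_mul_cancel_left] at this
    rw [hT3 z hzT (hK3 z hz), mul_one]; exact hw
  have hcore : pCoreOf 2 K = W :=
    le_antisymm (fun y hy => hKT y (pCoreOf_le K hy) (cs.coreT hy)) (wOf_le_pCoreOf K)
  have hK12 : Nat.card ↥K = 12 := by
    have h := Subgroup.card_mul_index ((pCoreOf 2 K).subgroupOf K)
    rw [Nat.card_congr (Subgroup.subgroupOfEquivOfLe (pCoreOf_le K)).toEquiv,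
      show ((pCoreOf 2 K).subgroupOf K).index = 3 from hK.2.2.1, hcore, hK.2.2.2.2.1] at h
    omega
  -- the complement to `C`
  set L₀ := K ⊔ Subgroup.zpowers b with hL₀
  have hbK : Subgroup.zpowers b ≤ Subgroup.normalizer (K : Set G) := Subgroup.zpowers_le.2 (hTK hbT)
  have hb2 : ∀ z ∈ Subgroup.zpowers b, z = 1 ∨ z = b := by
    intro z hz
    obtain ⟨n, rfl⟩ := hz
    simp only []
    have hb2' : b ^ (2 : ℤ) = 1 := by rw [zpow_ofNat, pow_two, hbsq]
    rcases Int.even_or_odd n with ⟨m, hm⟩ | ⟨m, hm⟩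
    · left; rw [hm, show m + m = 2 * m by ring, zpow_mul, hb2', one_zpow]
    · right; rw [hm, zpow_add, zpow_mul, hb2', one_zpow, one_mul, zpow_one]
  have hL₀dec : ∀ y ∈ L₀, ∃ h ∈ K, y = h ∨ y = h * b := by
    intro y hy
    rw [hL₀, ← SetLike.mem_coe, Subgroup.coe_mul_of_right_le_normalizer_left _ _ hbK] at hy
    obtain ⟨h, hh, z, hz, rfl⟩ := hy
    simp only []
    rcases hb2 z hz with rfl | rfl
    exacts [⟨h, hh, Or.inl (mul_one h)⟩, ⟨h, hh, Or.inr rfl⟩]
  have hb1 : b ≠ 1 := fun e => hbQ (e ▸ Q.one_mem)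
  have hL₀24 : Nat.card ↥L₀ = 24 := by
    have e := CfsgLib.ZJ.card_sup_mul_card_inf_of_le_normalizer hbK
    have hinf : Subgroup.zpowers b ⊓ K = ⊥ := eq_bot_iff.2 fun z hz => by
      rcases hb2 z hz.1 with rfl | rfl
      · exact Subgroup.one_mem _
      · exact absurd (hWQ (hKT z hz.2 hbT)) hbQ
    rw [sup_comm, hinf, Subgroup.card_bot, mul_one, hK12, Nat.card_zpowers,
      orderOf_eq_prime (p := 2) (by rw [pow_two, hbsq]) hb1, ← hL₀] at e
    omega
  have hL₀L : L₀ ≤ L := sup_le hKL (Subgroup.zpowers_le.2 (hTL.1 hbT))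
  have hCL₀ : ∀ d ∈ C, d ∈ L₀ → d = 1 := by
    intro d hd hdL
    have hdW : d ∈ W := by
      obtain ⟨h, hh, rfl | rfl⟩ := hL₀dec d hdL
      · exact hKT d hh (hQT (hCQ hd))
      · refine absurd ?_ hbQ
        have hhT : h ∈ T := by
          have := T.mul_mem (hQT (hCQ hd)) (T.inv_mem hbT)
          rwa [mul_inv_cancel_right] at this
        have := Q.mul_mem (Q.inv_mem (hWQ (hKT h hh hhT))) (hCQ hd)
        rwa [inv_mul_cancel_left] at this
    exact Subgroup.mem_bot.1 (hdisj ▸ (⟨hd, hdW⟩ : d ∈ C ⊓ W))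
  -- the centralizer of `W` in `L`
  have hCL : ∀ g ∈ L, ∀ d ∈ C, g * d = d * g := by
    intro g hg d hd
    have hmem : g * d * g⁻¹ ∈ C := by
      obtain ⟨d', hd', w, hw, e⟩ := hdec _ (hQn g hg d (hCQ hd))
      have hcd : k * (g * d * g⁻¹) * k⁻¹ = g * d * g⁻¹ := by
        have h0 := hCP (g⁻¹ * k * g) (Subgroup.mem_sup_left (by
          simpa using hLK g⁻¹ (L.inv_mem hg) k hk)) d hd
        have := conj_comm g h0
        rw [show g * (g⁻¹ * k * g) * g⁻¹ = k by group] at this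
        rw [this, mul_inv_cancel_right]
      rw [e] at hcd
      have hw1 : w = 1 := hfix w hw (by
        calc k * w * k⁻¹ = d'⁻¹ * (d' * k * w * k⁻¹) := by group
          _ = d'⁻¹ * (k * (d' * w) * k⁻¹) := by rw [← hCP k hkP d' hd']; group
          _ = w := by rw [hcd, inv_mul_cancel_left])
      rw [e, hw1, mul_one]; exact hd'
    by_cases hd1 : d = 1
    · subst hd1; simp
    exact mul_inv_eq_iff_eq_mul.1 (two_of_card_le hC2 hmem hd (fun e => hd1 (by simpa using e)) hd1)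
  have hker : ∀ g ∈ L, (∀ w ∈ W, g * w = w * g) → g ∈ Q := by
    intro g hg h
    rw [← hOQ]
    refine cx.cent (Subgroup.mem_centralizer_iff.2 fun o ho => ?_)
    rw [hOQ] at ho
    obtain ⟨d, hd, w, hw, rfl⟩ := hdec o ho
    exact ((show Commute d g from (hCL g hg d hd).symm).mul_left (show Commute w g from (h w hw).symm)).eq
  -- `L = ⟨K, T⟩`
  have hLP : L = K ⊔ T := by
    refine le_antisymm (fun g hg => ?_) (sup_le hKL hTL.1)
    obtain ⟨hv, hv1, hvu⟩ := cs.not_mem_cent hu hu1 hk hko hkQ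
    set v := k * u * k⁻¹ with hvdef
    -- fix `u`
    obtain ⟨j, hj, hju⟩ : ∃ j ∈ K, j * u * j⁻¹ = g * u * g⁻¹ := by
      rcases four_cases hK.2.2.2.2.1 (fun _ h => cs.W_sq h) hu hv hu1 hv1 (Ne.symm hvu) (hLW g hg u hu) with
        e | e | e | e
      · exact absurd (by simpa using e) hu1
      · exact ⟨1, K.one_mem, by rw [e]; simp⟩
      · exact ⟨k, hk, e.symm⟩
      · exact ⟨k * k, K.mul_mem hk hk, by rw [e, hvdef, ← horb u hu]; group⟩
    set g₁ := j⁻¹ * g with hg₁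
    have hg₁L : g₁ ∈ L := L.mul_mem (L.inv_mem (hKL hj)) hg
    have hg₁u : g₁ * u * g₁⁻¹ = u := by
      rw [show g₁ * u * g₁⁻¹ = j⁻¹ * (g * u * g⁻¹) * j by rw [hg₁]; group, ← hju]; group
    have hgen : ∀ r ∈ L, r * u * r⁻¹ = u → r * v * r⁻¹ = v → r ∈ K ⊔ T := by
      intro r hr e1 e2
      refine Subgroup.mem_sup_right (hQT (hker r hr fun w hw => ?_))
      rcases four_cases hK.2.2.2.2.1 (fun _ h => cs.W_sq h) hu hv hu1 hv1 (Ne.symm hvu) hw with
        rfl | rfl | rfl | rfl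
      · simp
      · exact mul_inv_eq_iff_eq_mul.1 e1
      · exact mul_inv_eq_iff_eq_mul.1 e2
      · exact ((show Commute r u from mul_inv_eq_iff_eq_mul.1 e1).mul_right
          (show Commute r v from mul_inv_eq_iff_eq_mul.1 e2)).eq
    have hfin : g₁ ∈ K ⊔ T := by
      rcases four_cases hK.2.2.2.2.1 (fun _ h => cs.W_sq h) hu hv hu1 hv1 (Ne.symm hvu) (hLW g₁ hg₁L v hv) with
        e | e | e | e
      · exact absurd (by simpa using e) hv1
      · refine absurd ?_ hvu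
        exact (mul_left_cancel (mul_right_cancel (e.trans hg₁u.symm)))
      · exact hgen g₁ hg₁L hg₁u e
      · have hb' := hgen (b * g₁) (L.mul_mem (hTL.1 hbT) hg₁L)
          (by rw [show b * g₁ * u * (b * g₁)⁻¹ = b * (g₁ * u * g₁⁻¹) * b⁻¹ by group, hg₁u, huT b hbT,
            mul_inv_cancel_right])
          (by rw [show b * g₁ * v * (b * g₁)⁻¹ = b * (g₁ * v * g₁⁻¹) * b⁻¹ by group, e,
            show b * (u * v) * b⁻¹ = (b * u * b⁻¹) * (b * v * b⁻¹) by group, huT b hbT, mul_inv_cancel_right,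
            cs.off_move hu hu1 huT hbT hbQ hv hv1 hvu, ← mul_assoc, cs.W_sq hu, one_mul])
        have := Subgroup.mul_mem _ (Subgroup.mem_sup_right (T.inv_mem hbT)) hb'
        rwa [inv_mul_cancel_left] at this
    have := Subgroup.mul_mem _ (Subgroup.mem_sup_left hj : j ∈ K ⊔ T) hfin
    rwa [hg₁, mul_inv_cancel_left] at this
  have hLcard : Nat.card ↥L = 24 * Nat.card ↥C := by
    rw [hOP] at hidx
    have h2 := Subgroup.card_mul_index (Q.subgroupOf (K ⊔ T))
    rw [Nat.card_congr (Subgroup.subgroupOfEquivOfLe (hQT.trans le_sup_right)).toEquiv, ← Subgroup.relIndex, hidx,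
      hcardQ, ← hLP] at h2
    omega
  -- `L₀` is `S₄`
  have hsym : Nonempty (↥L₀ ≃* Equiv.Perm (Fin 4)) := by
    set H : Subgroup ↥L₀ := (Subgroup.normalizer (Subgroup.zpowers k : Set G)).subgroupOf L₀ with hH
    have hWL₀ : ∀ w ∈ W, w ∈ L₀ := fun w hw => Subgroup.mem_sup_left (pCoreOf_le K (hcore ▸ hw))
    have hWH : ∀ w ∈ W, w ∈ Subgroup.normalizer (Subgroup.zpowers k : Set G) → w = 1 := by
      intro w hw hn
      have h1 : w * k * w⁻¹ ∈ Subgroup.zpowers k :=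
        (Subgroup.mem_normalizer_iff.1 hn k).1 (Subgroup.mem_zpowers k)
      set z := w * k * w⁻¹ * k⁻¹ with hz
      have hzW : z ∈ W := by
        rw [hz, show w * k * w⁻¹ * k⁻¹ = w * (k * w⁻¹ * k⁻¹) by group]
        exact W.mul_mem hw (cs.conjW hkP (W.inv_mem hw))
      have hz1 : z = 1 := hT3 z (hWT hzW) (hK3 z (Subgroup.mul_mem _ h1 (Subgroup.inv_mem _ (Subgroup.mem_zpowers k))))
      refine hfix w hw ?_
      rw [hz, mul_inv_eq_one, mul_inv_eq_iff_eq_mul] at hz1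
      rw [← hz1, mul_inv_cancel_right]
    have hbij : Function.Bijective (fun w : ↥W => (QuotientGroup.mk (⟨(w : G), hWL₀ w w.2⟩ : ↥L₀) : ↥L₀ ⧸ H)) := by
      constructor
      · intro p r e
        have h1 := QuotientGroup.eq.1 e
        have h2 : (p : G)⁻¹ * (r : G) ∈ Subgroup.normalizer (Subgroup.zpowers k : Set G) := h1
        exact Subtype.ext (inv_mul_eq_one.1 (hWH _ (W.mul_mem (W.inv_mem p.2) r.2) h2))
      · intro x
        induction x using QuotientGroup.induction_on with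
        | _ y =>
          have hyK : (y : G) * k * (y : G)⁻¹ ∈ K := hLK y (hL₀L y.2) k hk
          obtain ⟨w₀, hw₀, z, hz, e⟩ := hNdec _ (hKN hyK)
          have hz1 : z ≠ 1 := by
            rintro rfl
            rw [mul_one] at e
            have h3 : w₀ * w₀ * w₀ = 1 := by
              rw [← e, show (y : G) * k * (y : G)⁻¹ * ((y : G) * k * (y : G)⁻¹) * ((y : G) * k * (y : G)⁻¹) =
                (y : G) * (k * k * k) * (y : G)⁻¹ by group, hk3]
              group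
            rw [hT3 w₀ (hWT hw₀) h3] at e
            exact hkQ (by rw [show k = 1 by simpa using e]; exact Subgroup.one_mem _)
          have hzP : z ∈ K ⊔ T := (Subgroup.zpowers_le.2 hkP) hz
          let f : ↥W → ↥W := fun w => ⟨(w : G) * (z * (w : G)⁻¹ * z⁻¹),
            W.mul_mem w.2 (cs.conjW hzP (W.inv_mem w.2))⟩
          have hzK : z ∈ K := (Subgroup.zpowers_le.2 hk) hz
          have hzQ : z ∉ pCoreOf 2 K := fun h => hz1 (hT3 z (cs.coreT h) (hK3 z hz))
          have hzo : Odd (orderOf z) := Odd.of_dvd_nat (show Odd 3 by decide)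
            (orderOf_dvd_of_pow_eq_one (by rw [pow_succ, pow_two, hK3 z hz]))
          have hf : Function.Injective f := by
            intro p r e
            have e' : (p : G) * (z * (p : G)⁻¹ * z⁻¹) = (r : G) * (z * (r : G)⁻¹ * z⁻¹) := congrArg Subtype.val e
            have h2 : z * ((r : G)⁻¹ * p) * z⁻¹ = (r : G)⁻¹ * p := by
              calc z * ((r : G)⁻¹ * p) * z⁻¹ = (r : G)⁻¹ * ((r : G) * (z * (r : G)⁻¹ * z⁻¹)) * (z * p * z⁻¹) := by group
                _ = (r : G)⁻¹ * p := by rw [← e']; group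
            exact Subtype.ext (inv_mul_eq_one.1 (fpf_wOf hK hzK hzo hzQ (W.mul_mem (W.inv_mem r.2) p.2) h2)).symm
          obtain ⟨w, hw⟩ := Finite.surjective_of_injective hf ⟨w₀, hw₀⟩
          have hw' : (w : G) * (z * (w : G)⁻¹ * z⁻¹) = w₀ := congrArg Subtype.val hw
          refine ⟨w, QuotientGroup.eq.2 ?_⟩
          show (w : G)⁻¹ * (y : G) ∈ Subgroup.normalizer (Subgroup.zpowers k : Set G)
          have hwz : (w : G)⁻¹ * y * k * ((w : G)⁻¹ * y)⁻¹ = z := by
            calc (w : G)⁻¹ * y * k * ((w : G)⁻¹ * y)⁻¹ = (w : G)⁻¹ * ((y : G) * k * (y : G)⁻¹) * w := by group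
              _ = (w : G)⁻¹ * (w₀ * z) * w := by rw [e]
              _ = z := by rw [← hw']; group
          refine Subgroup.mem_normalizer_fintype fun r hr => ?_
          obtain ⟨n, rfl⟩ := hr
          show (w : G)⁻¹ * y * k ^ n * ((w : G)⁻¹ * y)⁻¹ ∈ Subgroup.zpowers k
          rw [← conj_zpow, hwz]
          exact Subgroup.zpow_mem _ hz n
    have hHidx : H.index = 4 := by
      have h1 := Nat.card_eq_of_bijective _ hbij
      rw [hK.2.2.2.2.1] at h1
      exact h1.symm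
    refine sym4_of_index_four hL₀24 H hHidx (eq_bot_iff.2 fun g hg => ?_)
    have hgN : (g : G) ∈ Subgroup.normalizer (Subgroup.zpowers k : Set G) := Subgroup.normalCore_le H hg
    have hgW : ∀ w ∈ W, (g : G) * w = w * (g : G) := by
      intro w hw
      have h1 : g * ⟨w, hWL₀ w hw⟩ * g⁻¹ * (⟨w, hWL₀ w hw⟩ : ↥L₀)⁻¹ ∈ H.normalCore := by
        rw [show g * ⟨w, hWL₀ w hw⟩ * g⁻¹ * (⟨w, hWL₀ w hw⟩ : ↥L₀)⁻¹ =
          g * (⟨w, hWL₀ w hw⟩ * g⁻¹ * (⟨w, hWL₀ w hw⟩ : ↥L₀)⁻¹) by group]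
        exact Subgroup.mul_mem _ hg ((inferInstance : H.normalCore.Normal).conj_mem _ (Subgroup.inv_mem _ hg) _)
      have h2 : (g : G) * w * (g : G)⁻¹ * w⁻¹ ∈ Subgroup.normalizer (Subgroup.zpowers k : Set G) :=
        Subgroup.normalCore_le H h1
      exact mul_inv_eq_iff_eq_mul.1 (mul_inv_eq_one.1
        (hWH _ (W.mul_mem (hLW g (hL₀L g.2) w hw) (W.inv_mem hw)) h2))
    obtain ⟨d, hd, w, hw, e⟩ := hdec _ (hker g (hL₀L g.2) hgW)
    have hdN : d ∈ Subgroup.normalizer (Subgroup.zpowers k : Set G) := Subgroup.centralizer_le_normalizer _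
      (Subgroup.mem_centralizer_iff.2 fun z hz => hCP z ((Subgroup.zpowers_le.2 hkP) hz) d hd)
    have hw1 : w = 1 := hWH w hw (by
      have := Subgroup.mul_mem _ (Subgroup.inv_mem _ hdN) hgN
      rwa [e, inv_mul_cancel_left] at this)
    rw [hw1, mul_one] at e
    exact Subgroup.mem_bot.2 (Subtype.ext (e.trans (hCL₀ d hd (e ▸ g.2))))
  obtain ⟨e₄⟩ := hsym
  have hpos : 0 < Nat.card ↥C := Nat.card_pos
  rcases (show Nat.card ↥C = 1 ∨ Nat.card ↥C = 2 by omega) with h1 | h2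
  · have hLeq : L₀ = L := Subgroup.eq_of_le_of_card_ge hL₀L (by rw [hLcard, h1, hL₀24])
    exact Or.inl ⟨by rw [hcardT, hcardQ, h1], ⟨(MulEquiv.subgroupCongr hLeq.symm).trans e₄⟩⟩
  · refine Or.inr ⟨by rw [hcardT, hcardQ, h2], ?_⟩
    haveI : IsCyclic ↥C := isCyclic_of_prime_card h2
    have e0 := zmodCyclicMulEquiv (inferInstance : IsCyclic ↥C)
    rw [h2] at e0
    have eC : Multiplicative (ZMod 2) ≃* ↥C := e0
    have hCLle : C ≤ L := (hCQ.trans hQT).trans hTL.1
    let f : ↥L₀ × ↥C →* ↥L :=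
      { toFun := fun p => ⟨(p.1 : G) * (p.2 : G), L.mul_mem (hL₀L p.1.2) (hCLle p.2.2)⟩
        map_one' := Subtype.ext (by simp)
        map_mul' := fun p r => Subtype.ext (by
          show (p.1 : G) * (r.1 : G) * ((p.2 : G) * (r.2 : G)) = (p.1 : G) * (p.2 : G) * ((r.1 : G) * (r.2 : G))
          calc (p.1 : G) * (r.1 : G) * ((p.2 : G) * (r.2 : G)) = (p.1 : G) * ((r.1 : G) * (p.2 : G)) * (r.2 : G) := by group
            _ = (p.1 : G) * ((p.2 : G) * (r.1 : G)) * (r.2 : G) := by rw [hCL r.1 (hL₀L r.1.2) p.2 p.2.2]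
            _ = _ := by group) }
    have hf : Function.Injective f := by
      rw [← MonoidHom.ker_eq_bot_iff, eq_bot_iff]
      rintro ⟨⟨y, hy⟩, ⟨d, hd⟩⟩ e
      have e' : y * d = 1 := congrArg Subtype.val e
      have hd1 : d = 1 := hCL₀ d hd (by rw [show d = y⁻¹ from (inv_eq_of_mul_eq_one_right e').symm]; exact L₀.inv_mem hy)
      subst hd1
      rw [mul_one] at e'
      subst e'
      exact Subgroup.mem_bot.2 rfl
    have hbij : Function.Bijective f :=
      (Nat.bijective_iff_injective_and_card f).2 ⟨hf, by rw [Nat.card_prod, hL₀24, hLcard]⟩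
    exact ⟨(MulEquiv.ofBijective f hbij).symm.trans (MulEquiv.prodCongr e₄ eC.symm)⟩

end CfsgLib.JComp
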