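import Cfsg.Agent.JComp.Basic
import Cfsg.Agent.PReduced.Hom

/-!
A component `K` normalised by a 2-group `T`, and an element `x` normalising `T` but no nontrivial
2-group normalised by `⟨K, T⟩`: the subgroups `W` and `xWx⁻¹` do not commute, and `T` is then tiny.
-/

set_option autoImplicit false
open Cfsg

namespace CfsgLib.JComp

variable {G : Type*} [Group G] [Finite G]

/-- A four-group is covered by `1`, two of its involutions and their product. -/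
theorem four_cases {W : Subgroup G} (h4 : Nat.card ↥W = 4) (hsq : ∀ w ∈ W, w * w = 1) {a b : G} (ha : a ∈ W)
    (hb : b ∈ W) (ha1 : a ≠ 1) (hb1 : b ≠ 1) (hab : a ≠ b) {w : G} (hw : w ∈ W) :
    w = 1 ∨ w = a ∨ w = b ∨ w = a * b := by
  classical
  by_contra h
  push Not at h
  obtain ⟨w1, wa, wb, wab⟩ := h
  have hne : a * b ≠ 1 := fun e => hab (by
    calc a = a * (b * b) := by rw [hsq b hb, mul_one]
      _ = a * b * b := (mul_assoc a b b).symm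
      _ = b := by rw [e, one_mul])
  have hsub : ({1, a, b, a * b, w} : Set G) ⊆ (W : Set G) := by
    intro y hy
    simp only [Set.mem_insert_iff, Set.mem_singleton_iff] at hy
    rcases hy with rfl | rfl | rfl | rfl | rfl
    exacts [W.one_mem, ha, hb, W.mul_mem ha hb, hw]
  have hcard := Set.ncard_le_ncard hsub (Set.toFinite _)
  rw [show (W : Set G).ncard = 4 from h4,
    Set.ncard_insert_of_notMem (by
      simp only [Set.mem_insert_iff, Set.mem_singleton_iff, not_or]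
      exact ⟨Ne.symm ha1, Ne.symm hb1, Ne.symm hne, Ne.symm w1⟩),
    Set.ncard_insert_of_notMem (by
      simp only [Set.mem_insert_iff, Set.mem_singleton_iff, not_or]
      exact ⟨hab, fun e => hb1 (mul_left_cancel (a := a) (by rw [mul_one]; exact e.symm)), Ne.symm wa⟩),
    Set.ncard_insert_of_notMem (by
      simp only [Set.mem_insert_iff, Set.mem_singleton_iff, not_or]
      exact ⟨fun e => ha1 (mul_right_cancel (b := b) (by rw [one_mul]; exact e.symm)), Ne.symm wb⟩),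
    Set.ncard_pair (Ne.symm wab)] at hcard
  omega

/-- The hypotheses on `T`, `K` and the element `x`. -/
structure PairCtx (T K : Subgroup G) (x : G) : Prop where
  two : IsPGroup 2 ↥T
  comp : IsJComponent T K
  tK : T ≤ Subgroup.normalizer (K : Set G)
  coreT : pCoreOf 2 K ≤ T
  xT : ∀ t ∈ T, x * t * x⁻¹ ∈ T
  x2 : x * x ∈ T
  nob : ∀ R : Subgroup G, IsPGroup 2 ↥R → K ≤ Subgroup.normalizer (R : Set G) →
    T ≤ Subgroup.normalizer (R : Set G) → x ∈ Subgroup.normalizer (R : Set G) → R = ⊥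
  uniq : ∀ h ∈ T, h ≠ 1 → (∀ y ∈ K ⊔ T, y * h = h * y) → x * h * x⁻¹ ∈ wOf K →
    ∀ g : G, (∀ y ∈ K ⊔ T, g * y * g⁻¹ * h = h * (g * y * g⁻¹)) → g ∈ Subgroup.normalizer (K : Set G)

/-- `Q = C_T(W)`. -/
abbrev qOf (T K : Subgroup G) : Subgroup G := T ⊓ Subgroup.centralizer (wOf K : Set G)

/-- The words `P x P x ⋯ x P` with `n` letters `x`, for `P = ⟨K, T⟩`. -/
def ySet (T K : Subgroup G) (x : G) : ℕ → Set G
  | 0 => ((K ⊔ T : Subgroup G) : Set G)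
  | n + 1 => {g | ∃ g₁ ∈ ySet T K x n, ∃ p ∈ K ⊔ T, g = g₁ * x * p}

/-- `W` commutes with all its conjugates at distance `n`. -/
def CommAt (T K : Subgroup G) (x : G) (n : ℕ) : Prop :=
  ∀ g ∈ ySet T K x n, ∀ a ∈ wOf K, ∀ b ∈ wOf K, a * (g * b * g⁻¹) = g * b * g⁻¹ * a

variable {T K : Subgroup G} {x : G}

omit [Finite G] in
theorem mem_qOf {q : G} : q ∈ qOf T K ↔ q ∈ T ∧ ∀ w ∈ wOf K, w * q = q * w := by
  rw [qOf, Subgroup.mem_inf, Subgroup.mem_centralizer_iff]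
  rfl

omit [Finite G] in
theorem comm_of_conj {g a b : G} (h : (g * a * g⁻¹) * (g * b * g⁻¹) = (g * b * g⁻¹) * (g * a * g⁻¹)) :
    a * b = b * a := by
  have : g * (a * b) * g⁻¹ = g * (b * a) * g⁻¹ := by
    calc g * (a * b) * g⁻¹ = (g * a * g⁻¹) * (g * b * g⁻¹) := by group
      _ = (g * b * g⁻¹) * (g * a * g⁻¹) := h
      _ = g * (b * a) * g⁻¹ := by group
  exact mul_left_cancel (mul_right_cancel this)

omit [Finite G] in
theorem conj_comm (g : G) {a b : G} (h : a * b = b * a) :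
    (g * a * g⁻¹) * (g * b * g⁻¹) = (g * b * g⁻¹) * (g * a * g⁻¹) := by
  calc (g * a * g⁻¹) * (g * b * g⁻¹) = g * (a * b) * g⁻¹ := by group
    _ = g * (b * a) * g⁻¹ := by rw [h]
    _ = (g * b * g⁻¹) * (g * a * g⁻¹) := by group

namespace PairCtx

variable (c : PairCtx T K x)
include c

theorem xT' {t : G} (ht : t ∈ T) : x⁻¹ * t * x ∈ T := by
  have h1 := T.mul_mem (T.mul_mem (T.inv_mem c.x2) (c.xT t ht)) c.x2
  rwa [show (x * x)⁻¹ * (x * t * x⁻¹) * (x * x) = x⁻¹ * t * x by group] at h1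

theorem conjK {p y : G} (hp : p ∈ K ⊔ T) (hy : y ∈ K) : p * y * p⁻¹ ∈ K :=
  (Subgroup.mem_normalizer_iff.1 ((sup_le Subgroup.le_normalizer c.tK : K ⊔ T ≤ _) hp) y).1 hy

theorem conjW {p w : G} (hp : p ∈ K ⊔ T) (hw : w ∈ wOf K) : p * w * p⁻¹ ∈ wOf K :=
  conj_mem_wOf (fun _ hy => c.conjK hp hy) hw

theorem conjW' {p w : G} (hp : p ∈ K ⊔ T) (hw : w ∈ wOf K) : p⁻¹ * w * p ∈ wOf K := by
  have := c.conjW ((K ⊔ T).inv_mem hp) hw
  rwa [inv_inv] at this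

theorem conjCore {p y : G} (hp : p ∈ K ⊔ T) (hy : y ∈ pCoreOf 2 K) : p * y * p⁻¹ ∈ pCoreOf 2 K :=
  conj_mem_pCoreOf (fun _ hh => c.conjK hp hh) hy

theorem W_sq {w : G} (hw : w ∈ wOf K) : w * w = 1 := c.comp.2.2.2.2.2 w hw

theorem W_inv {w : G} (hw : w ∈ wOf K) : w⁻¹ = w := inv_eq_of_mul_eq_one_left (c.W_sq hw)

theorem W_comm_core {y w : G} (hy : y ∈ pCoreOf 2 K) (hw : w ∈ wOf K) : w * y = y * w :=
  ((mem_omegaCenterOf.1 (wOf_le_omega K hw)).2.1 y hy).symm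

theorem W_comm {a b : G} (ha : a ∈ wOf K) (hb : b ∈ wOf K) : a * b = b * a :=
  c.W_comm_core (wOf_le_pCoreOf K hb) ha

theorem core_le_Q : pCoreOf 2 K ≤ qOf T K := fun _ hy =>
  mem_qOf.2 ⟨c.coreT hy, fun _ hw => c.W_comm_core hy hw⟩

theorem W_le_Q : wOf K ≤ qOf T K := (wOf_le_pCoreOf K).trans c.core_le_Q

theorem W_ne_bot : wOf K ≠ ⊥ := fun h => by
  have := c.comp.2.2.2.2.1
  rw [h, Subgroup.card_bot] at this
  omega

theorem cent_K {y : G} (hy : y ∈ K) (hc : ∀ w ∈ wOf K, w * y = y * w) : y ∈ pCoreOf 2 K := by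
  by_contra hne
  obtain ⟨k, hk, hko, hkQ⟩ := exists_odd_notMem c.comp
  obtain ⟨w, hw, hw1⟩ := (Subgroup.bot_or_exists_ne_one _).resolve_left c.W_ne_bot
  refine hw1 (fpf_wOf c.comp hk hko hkQ hw (mul_inv_eq_iff_eq_mul.2 ?_))
  rcases (K_cases c.comp hk hkQ).2 y hy with h | h | h
  · exact absurd h hne
  · have e := c.W_comm_core h hw
    have e' := hc w hw
    calc k * w = (y * k⁻¹)⁻¹ * (y * w) := by group
      _ = (y * k⁻¹)⁻¹ * w * y := by rw [← e', mul_assoc]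
      _ = w * (y * k⁻¹)⁻¹ * y := by
          rw [show (y * k⁻¹)⁻¹ * w = w * (y * k⁻¹)⁻¹ from (Commute.inv_right (show Commute w (y * k⁻¹) from e)).symm.eq]
      _ = w * k := by group
  · have e := c.W_comm_core h hw
    have e' := hc w hw
    have h2 : Commute w (k * k) := by
      have : Commute w ((y * (k * k)⁻¹)⁻¹ * y) := (Commute.inv_right (show Commute w (y * (k * k)⁻¹) from e)).mul_right e'
      rwa [mul_inv_rev, inv_inv, inv_mul_cancel_right] at this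
    have h3 : Commute w (k * k * k) := c.W_comm_core (K_cases c.comp hk hkQ).1 hw
    have h4 : Commute w ((k * k)⁻¹ * (k * k * k)) := h2.inv_right.mul_right h3
    rw [show (k * k)⁻¹ * (k * k * k) = k by group] at h4
    exact h4.eq.symm

theorem conjQ {p q : G} (hp : p ∈ K ⊔ T) (hq : q ∈ qOf T K) : p * q * p⁻¹ ∈ qOf T K := by
  have hle : K ⊔ T ≤ Subgroup.normalizer (qOf T K : Set G) := by
    have hcw : ∀ {g y : G}, g ∈ K ⊔ T → y ∈ qOf T K → ∀ w ∈ wOf K, w * (g * y * g⁻¹) = g * y * g⁻¹ * w := by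
      intro g y hg hy w hw
      have := conj_comm g ((mem_qOf.1 hy).2 _ (c.conjW' hg hw))
      rwa [show g * (g⁻¹ * w * g) * g⁻¹ = w by group] at this
    refine sup_le ?_ ?_
    · intro y hy
      refine Subgroup.mem_normalizer_fintype fun q hq => ?_
      show y * q * y⁻¹ ∈ qOf T K
      have hyP : y ∈ K ⊔ T := Subgroup.mem_sup_left hy
      have hqP : q ∈ K ⊔ T := Subgroup.mem_sup_right (mem_qOf.1 hq).1
      have hz : y * q * y⁻¹ * q⁻¹ ∈ K := by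
        rw [show y * q * y⁻¹ * q⁻¹ = y * (q * y⁻¹ * q⁻¹) by group]
        exact K.mul_mem hy (c.conjK hqP (K.inv_mem hy))
      have hzc : ∀ w ∈ wOf K, w * (y * q * y⁻¹ * q⁻¹) = y * q * y⁻¹ * q⁻¹ * w := fun w hw =>
        ((show Commute w (y * q * y⁻¹) from hcw hyP hq w hw).mul_right
          (Commute.inv_right (show Commute w q from (mem_qOf.1 hq).2 w hw))).eq
      refine mem_qOf.2 ⟨?_, hcw hyP hq⟩
      have := T.mul_mem (c.coreT (c.cent_K hz hzc)) (mem_qOf.1 hq).1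
      rwa [inv_mul_cancel_right] at this
    · intro t ht
      refine Subgroup.mem_normalizer_fintype fun q hq => mem_qOf.2 ⟨?_, hcw (Subgroup.mem_sup_right ht) hq⟩
      exact T.mul_mem (T.mul_mem ht (mem_qOf.1 hq).1) (T.inv_mem ht)
  exact (Subgroup.mem_normalizer_iff.1 (hle hp) q).1 hq

theorem exists_notMem_Q : ∃ a ∈ T, a ∉ qOf T K := by
  by_contra h
  push Not at h
  have e : qOf T K = T := le_antisymm inf_le_left fun a ha => h a ha
  refine c.W_ne_bot (eq_bot_iff.2 ?_)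
  rw [← c.nob T c.two (fun y hy => Subgroup.mem_normalizer_fintype fun t ht => ?_) Subgroup.le_normalizer
    (Subgroup.mem_normalizer_fintype fun t ht => c.xT t ht)]
  · exact c.W_le_Q.trans inf_le_left
  · show y * t * y⁻¹ ∈ T
    exact (mem_qOf.1 (c.conjQ (Subgroup.mem_sup_left hy) (h t ht))).1

theorem exists_fixed : ∃ u ∈ wOf K, u ≠ 1 ∧ ∀ t ∈ T, t * u = u * t := by
  haveI : Fact (Nat.Prime 2) := ⟨Nat.prime_two⟩
  have hWT : wOf K ≤ T := c.W_le_Q.trans inf_le_left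
  haveI : ((wOf K).subgroupOf T).Normal := ⟨fun w hw t => c.conjW (Subgroup.mem_sup_right t.2) hw⟩
  have hne : (wOf K).subgroupOf T ≠ ⊥ := fun h => c.W_ne_bot (eq_bot_iff.2 fun w hw => by
    have h1 : (⟨w, hWT hw⟩ : ↥T) ∈ (⊥ : Subgroup ↥T) := h ▸ hw
    exact Subgroup.mem_bot.2 (congrArg Subtype.val (Subgroup.mem_bot.1 h1)))
  obtain ⟨⟨u, hu⟩, ⟨hu1, hu2⟩, hu3⟩ :=
    (Subgroup.bot_or_exists_ne_one _).resolve_left (CfsgLib.PReduced.inf_center_ne_bot c.two hne)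
  exact ⟨u, hu1, fun e => hu3 (Subtype.ext e),
    fun t ht => congrArg Subtype.val (Subgroup.mem_center_iff.1 hu2 ⟨t, ht⟩)⟩

variable {u : G} (hu : u ∈ wOf K) (hu1 : u ≠ 1) (huT : ∀ t ∈ T, t * u = u * t)
include hu hu1 huT

theorem cent_eq {t w : G} (ht : t ∈ T) (hw : w ∈ wOf K) (hw1 : w ≠ 1) (hwu : w ≠ u) (hc : w * t = t * w) :
    t ∈ qOf T K := by
  refine mem_qOf.2 ⟨ht, fun y hy => ?_⟩
  rcases four_cases c.comp.2.2.2.2.1 (fun _ h => c.W_sq h) hu hw hu1 hw1 (Ne.symm hwu) hy with rfl | rfl | rfl | rfl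
  · simp
  · exact (huT t ht).symm
  · exact hc
  · exact ((show Commute u t from (huT t ht).symm).mul_left (show Commute w t from hc)).eq

theorem conj_ne {p w : G} (hw : w ≠ u) (hp : p ∈ T) : p * w * p⁻¹ ≠ u := fun e => hw (by
  calc w = p⁻¹ * (p * w * p⁻¹) * p := by group
    _ = p⁻¹ * (u * p) := by rw [e, mul_assoc]
    _ = p⁻¹ * (p * u) := by rw [huT p hp]
    _ = u := by group)

theorem comm_val {t w : G} (ht : t ∈ T) (hw : w ∈ wOf K) :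
    t * w * t⁻¹ * w⁻¹ = 1 ∨ t * w * t⁻¹ * w⁻¹ = u := by
  by_cases hw1 : w = 1
  · subst hw1; left; group
  by_cases hwu : w = u
  · subst hwu; left; rw [huT t ht]; group
  rcases four_cases c.comp.2.2.2.2.1 (fun _ h => c.W_sq h) hu hw hu1 hw1 (Ne.symm hwu)
    (c.conjW (Subgroup.mem_sup_right ht) hw) with h | h | h | h
  · exact absurd (by simpa using h) hw1
  · exact absurd h (c.conj_ne hu hu1 huT hwu ht)
  · left; rw [h, mul_inv_cancel]
  · right; rw [h, mul_inv_cancel_right]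

theorem comm_val_x {t w : G} (ht : t ∈ T) (hw : w ∈ wOf K) :
    t * (x * w * x⁻¹) * t⁻¹ * (x * w * x⁻¹)⁻¹ = 1 ∨
      t * (x * w * x⁻¹) * t⁻¹ * (x * w * x⁻¹)⁻¹ = x * u * x⁻¹ := by
  have e : t * (x * w * x⁻¹) * t⁻¹ * (x * w * x⁻¹)⁻¹ =
      x * ((x⁻¹ * t * x) * w * (x⁻¹ * t * x)⁻¹ * w⁻¹) * x⁻¹ := by group
  rcases c.comm_val hu hu1 huT (c.xT' ht) hw with h | h
  · left; rw [e, h]; group
  · right; rw [e, h]

omit hu hu1 huT

theorem y_left : ∀ {n : ℕ} {g p : G}, p ∈ K ⊔ T → g ∈ ySet T K x n → p * g ∈ ySet T K x n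
  | 0, _, _, hp, hg => (K ⊔ T).mul_mem hp hg
  | n + 1, g, p, hp, hg => by
    obtain ⟨g₁, hg₁, q, hq, rfl⟩ := hg
    exact ⟨p * g₁, y_left hp hg₁, q, hq, by group⟩

theorem y_right {n : ℕ} {g p : G} (hp : p ∈ K ⊔ T) (hg : g ∈ ySet T K x n) : g * p ∈ ySet T K x n := by
  cases n with
  | zero => exact (K ⊔ T).mul_mem hg hp
  | succ n =>
    obtain ⟨g₁, hg₁, q, hq, rfl⟩ := hg
    exact ⟨g₁, hg₁, q * p, (K ⊔ T).mul_mem hq hp, by group⟩

theorem y_succ_left : ∀ {n : ℕ} {g : G}, g ∈ ySet T K x n → x * g ∈ ySet T K x (n + 1)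
  | 0, g, hg => ⟨1, (K ⊔ T).one_mem, g, hg, by group⟩
  | n + 1, g, hg => by
    obtain ⟨g₁, hg₁, q, hq, rfl⟩ := hg
    exact ⟨x * g₁, y_succ_left hg₁, q, hq, by group⟩

theorem y_decomp : ∀ {n : ℕ} {g : G}, g ∈ ySet T K x (n + 1) →
    ∃ p ∈ K ⊔ T, ∃ g' ∈ ySet T K x n, g = p * x * g'
  | 0, g, hg => by
    obtain ⟨g₁, hg₁, q, hq, rfl⟩ := hg
    exact ⟨g₁, hg₁, q, hq, rfl⟩
  | n + 1, g, hg => by
    obtain ⟨g₁, hg₁, q, hq, rfl⟩ := hg
    obtain ⟨p, hp, g', hg', rfl⟩ := y_decomp hg₁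
    exact ⟨p, hp, g' * x * q, ⟨g', hg', q, hq, rfl⟩, by group⟩

theorem y_inv_x {n : ℕ} {g : G} (hg : g ∈ ySet T K x n) : ∃ g' ∈ ySet T K x n, x⁻¹ * g = x * g' :=
  ⟨(x * x)⁻¹ * g, c.y_left (Subgroup.mem_sup_right (T.inv_mem c.x2)) hg, by group⟩

theorem y_inv : ∀ {n : ℕ} {g : G}, g ∈ ySet T K x n → g⁻¹ ∈ ySet T K x n
  | 0, _, hg => (K ⊔ T).inv_mem hg
  | n + 1, g, hg => by
    obtain ⟨g₁, hg₁, q, hq, rfl⟩ := hg
    obtain ⟨g', hg', e⟩ := c.y_inv_x (y_inv hg₁)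
    rw [show (g₁ * x * q)⁻¹ = q⁻¹ * (x⁻¹ * g₁⁻¹) by group, e]
    exact c.y_left ((K ⊔ T).inv_mem hq) (c.y_succ_left hg')

theorem y_mul {a : ℕ} {g : G} (hg : g ∈ ySet T K x a) : ∀ {b : ℕ} {g' : G}, g' ∈ ySet T K x b →
    g * g' ∈ ySet T K x (a + b)
  | 0, _, hg' => c.y_right hg' hg
  | b + 1, g', hg' => by
    obtain ⟨g₁, hg₁, q, hq, rfl⟩ := hg'
    exact ⟨g * g₁, y_mul hg hg₁, q, hq, by group⟩

/-- Commutation below distance `n` puts `W` into the corresponding conjugates of `Q`. -/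
theorem claim {n : ℕ} (hn : ∀ i < n, CommAt T K x i) : ∀ i, i < n → ∀ g ∈ ySet T K x i, ∀ a ∈ wOf K,
    g⁻¹ * a * g ∈ qOf T K
  | 0, _, g, hg, a, ha => c.W_le_Q (c.conjW' hg ha)
  | i + 1, hi, g, hg, a, ha => by
    obtain ⟨g₁, hg₁, p, hp, rfl⟩ := hg
    have h1 : x⁻¹ * (g₁⁻¹ * a * g₁) * x ∈ qOf T K := by
      refine mem_qOf.2 ⟨c.xT' (mem_qOf.1 (claim hn i (by omega) g₁ hg₁ a ha)).1, fun w hw => ?_⟩
      refine comm_of_conj (g := g₁ * x) ?_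
      have := hn (i + 1) hi (g₁ * x) ⟨g₁, hg₁, 1, (K ⊔ T).one_mem, by group⟩ a ha w hw
      rw [show g₁ * x * (x⁻¹ * (g₁⁻¹ * a * g₁) * x) * (g₁ * x)⁻¹ = a by group]
      exact this.symm
    have := c.conjQ ((K ⊔ T).inv_mem hp) h1
    rwa [show p⁻¹ * (x⁻¹ * (g₁⁻¹ * a * g₁) * x) * p⁻¹⁻¹ = (g₁ * x * p)⁻¹ * a * (g₁ * x * p) by group] at this

theorem mem_T {n i : ℕ} (hn : ∀ i < n, CommAt T K x i) (hi : i < n) {g a : G} (hg : g ∈ ySet T K x i)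
    (ha : a ∈ wOf K) : (g * x)⁻¹ * a * (g * x) ∈ T := by
  have := c.xT' (mem_qOf.1 (c.claim hn i hi g hg a ha)).1
  rwa [show x⁻¹ * (g⁻¹ * a * g) * x = (g * x)⁻¹ * a * (g * x) by group] at this

include hu hu1 huT

/-- The commutator of a noncommuting pair, read at the far end. -/
theorem crit_right {n i : ℕ} (hn : ∀ i < n, CommAt T K x i) (hi : i < n) {g a b : G} (hg : g ∈ ySet T K x i)
    (ha : a ∈ wOf K) (hb : b ∈ wOf K)
    (hne : a * (g * x * b * (g * x)⁻¹) ≠ g * x * b * (g * x)⁻¹ * a) :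
    a * (g * x * b * (g * x)⁻¹) * a⁻¹ * (g * x * b * (g * x)⁻¹)⁻¹ = g * x * u * (g * x)⁻¹ := by
  have ht := c.mem_T hn hi hg ha
  set t := (g * x)⁻¹ * a * (g * x) with ht'
  have e : a * (g * x * b * (g * x)⁻¹) * a⁻¹ * (g * x * b * (g * x)⁻¹)⁻¹ =
      g * x * (t * b * t⁻¹ * b⁻¹) * (g * x)⁻¹ := by rw [ht']; group
  rcases c.comm_val hu hu1 huT ht hb with h | h
  · refine absurd ?_ hne
    rw [h, mul_one, mul_inv_cancel, mul_inv_eq_one, mul_inv_eq_iff_eq_mul] at e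
    exact e
  · rw [e, h]

/-- The commutator of a noncommuting pair, read at the near end. -/
theorem crit_left {n i : ℕ} (hn : ∀ i < n, CommAt T K x i) (hi : i < n) {g a b : G} (hg : g ∈ ySet T K x i)
    (ha : a ∈ wOf K) (hb : b ∈ wOf K)
    (hne : a * (x * g * b * (x * g)⁻¹) ≠ x * g * b * (x * g)⁻¹ * a) :
    a * (x * g * b * (x * g)⁻¹) * a⁻¹ * (x * g * b * (x * g)⁻¹)⁻¹ = u := by
  have h1 := c.claim hn i hi g⁻¹ (c.y_inv hg) b hb
  rw [inv_inv] at h1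
  have ht : x * g * b * (x * g)⁻¹ ∈ T := by
    have := c.xT _ (mem_qOf.1 h1).1
    rwa [show x * (g * b * g⁻¹) * x⁻¹ = x * g * b * (x * g)⁻¹ by group] at this
  set t := x * g * b * (x * g)⁻¹
  rcases c.comm_val hu hu1 huT ht ha with h | h
  · rw [mul_inv_eq_one, mul_inv_eq_iff_eq_mul] at h
    exact absurd h.symm hne
  · rw [← c.W_inv hu, ← h]; group

omit hu hu1 huT

theorem not_all_comm : ∃ n, ¬ CommAt T K x n := by
  by_contra h
  push Not at h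
  set S₀ : Set G := {y | ∃ n, ∃ g ∈ ySet T K x n, ∃ b ∈ wOf K, g * b * g⁻¹ = y} with hS₀
  set R := Subgroup.closure S₀ with hR
  have hgen : ∀ y ∈ S₀, ∀ z ∈ S₀, y * z = z * y := by
    rintro _ ⟨m, g, hg, b, hb, rfl⟩ _ ⟨m', g', hg', b', hb', rfl⟩
    have := conj_comm g (h _ (g⁻¹ * g') (c.y_mul (c.y_inv hg) hg') b hb b' hb')
    rwa [show g * (g⁻¹ * g' * b' * (g⁻¹ * g')⁻¹) * g⁻¹ = g' * b' * g'⁻¹ by group] at this
  have hR1 : R ≤ Subgroup.centralizer S₀ := by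
    rw [hR, Subgroup.closure_le]
    exact fun y hy => Subgroup.mem_centralizer_iff.2 fun z hz => hgen z hz y hy
  have hR2 : R ≤ Subgroup.centralizer (R : Set G) := by
    conv_lhs => rw [hR]
    rw [Subgroup.closure_le]
    exact fun y hy => Subgroup.mem_centralizer_iff.2 fun z hz => (Subgroup.mem_centralizer_iff.1 (hR1 hz) y hy).symm
  have hsq : ∀ y ∈ R, y * y = 1 := by
    intro y hy
    induction hy using Subgroup.closure_induction with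
    | mem y hy =>
      obtain ⟨m, g, hg, b, hb, rfl⟩ := hy
      rw [show g * b * g⁻¹ * (g * b * g⁻¹) = g * (b * b) * g⁻¹ by group, c.W_sq hb]; group
    | one => simp
    | mul a b ha hb iha ihb =>
      rw [show a * b * (a * b) = a * (b * a) * b by group, Subgroup.mem_centralizer_iff.1 (hR2 ha) b hb,
        show a * (a * b) * b = (a * a) * (b * b) by group, iha, ihb, mul_one]
    | inv a _ iha => rw [← mul_inv_rev, iha, inv_one]
  have hnorm : ∀ p : G, (∀ n, ∀ g ∈ ySet T K x n, ∃ m, p * g ∈ ySet T K x m) →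
      p ∈ Subgroup.normalizer (R : Set G) := by
    intro p hp
    refine Subgroup.mem_normalizer_fintype fun y hy => ?_
    have hle : R ≤ R.comap (MulAut.conj p).toMonoidHom := by
      conv_lhs => rw [hR]
      rw [Subgroup.closure_le]
      rintro _ ⟨n, g, hg, b, hb, rfl⟩
      obtain ⟨m, hm⟩ := hp n g hg
      exact Subgroup.subset_closure ⟨m, p * g, hm, b, hb, by simp [mul_assoc]⟩
    exact hle hy
  refine c.W_ne_bot (eq_bot_iff.2 ?_)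
  rw [← c.nob R (fun y => ⟨1, Subtype.ext (by rw [SubmonoidClass.coe_pow, pow_one, pow_two]; exact hsq y y.2)⟩)
    (fun p hp => hnorm p fun n g hg => ⟨n, c.y_left (Subgroup.mem_sup_left hp) hg⟩)
    (fun p hp => hnorm p fun n g hg => ⟨n, c.y_left (Subgroup.mem_sup_right hp) hg⟩)
    (hnorm x fun n g hg => ⟨n + 1, c.y_succ_left hg⟩)]
  exact fun w hw => Subgroup.subset_closure ⟨0, 1, (K ⊔ T).one_mem, w, hw, by simp⟩

/-- The action of an element outside `Q` on an odd element of `K`. -/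
theorem swap {k : G} (hk : k ∈ K) (hko : Odd (orderOf k)) (hkQ : k ∉ pCoreOf 2 K) {a : G} (ha : a ∈ T)
    (haQ : a ∉ qOf T K) : ∃ q ∈ pCoreOf 2 K, a * k * a⁻¹ = q * (k * k) := by
  obtain ⟨u, hu, hu1, huT⟩ := c.exists_fixed
  have haP : a ∈ K ⊔ T := Subgroup.mem_sup_right ha
  rcases (K_cases c.comp hk hkQ).2 _ (c.conjK haP hk) with h | h | h
  · have := c.conjCore ((K ⊔ T).inv_mem haP) h
    rw [show a⁻¹ * (a * k * a⁻¹) * a⁻¹⁻¹ = k by group] at this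
    exact absurd this hkQ
  · set q := a * k * a⁻¹ * k⁻¹ with hq
    have hkW : k * u * k⁻¹ ∈ wOf K := c.conjW (Subgroup.mem_sup_left hk) hu
    have hne : k * u * k⁻¹ ≠ u := fun e => hu1 (fpf_wOf c.comp hk hko hkQ hu e)
    have hne1 : k * u * k⁻¹ ≠ 1 := fun e => hu1 (by simpa using e)
    refine absurd (c.cent_eq hu hu1 huT ha hkW hne1 hne ?_) haQ
    have h1 : a * (k * u * k⁻¹) * a⁻¹ = q * (k * u * k⁻¹) * q⁻¹ := by
      calc a * (k * u * k⁻¹) * a⁻¹ = (a * k * a⁻¹) * (a * u * a⁻¹) * (a * k * a⁻¹)⁻¹ := by group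
        _ = (a * k * a⁻¹) * u * (a * k * a⁻¹)⁻¹ := by rw [huT a ha, mul_inv_cancel_right]
        _ = q * (k * u * k⁻¹) * q⁻¹ := by rw [hq]; group
    rw [← c.W_comm_core h hkW, mul_inv_cancel_right, mul_inv_eq_iff_eq_mul] at h1
    exact h1.symm
  · exact ⟨a * k * a⁻¹ * (k * k)⁻¹, h, by group⟩

/-- Generation of `K` by an odd element and the 2-core. -/
theorem K_mem_of {N : Subgroup G} {k : G} (hk : k ∈ K) (hkQ : k ∉ pCoreOf 2 K) (hkN : k ∈ N)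
    (hQN : pCoreOf 2 K ≤ N) : K ≤ N := by
  intro y hy
  rcases (K_cases c.comp hk hkQ).2 y hy with h | h | h
  · exact hQN h
  · rw [show y = y * k⁻¹ * k by group]; exact N.mul_mem (hQN h) hkN
  · rw [show y = y * (k * k)⁻¹ * (k * k) by group]; exact N.mul_mem (hQN h) (N.mul_mem hkN hkN)

/-- The conjugate `xWx⁻¹` of `W` does not commute with `W`. -/
theorem noncomm : ∃ a ∈ wOf K, ∃ b ∈ wOf K, a * (x * b * x⁻¹) ≠ x * b * x⁻¹ * a := by
  classical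
  obtain ⟨u, hu, hu1, huT⟩ := c.exists_fixed
  have hne := c.not_all_comm
  set n := Nat.find hne with hndef
  have hn : ¬ CommAt T K x n := Nat.find_spec hne
  have hmin : ∀ i < n, CommAt T K x i := fun i hi => not_not.1 (Nat.find_min hne hi)
  obtain ⟨g, hg, a, ha, b, hb, hab⟩ : ∃ g ∈ ySet T K x n, ∃ a ∈ wOf K, ∃ b ∈ wOf K,
      a * (g * b * g⁻¹) ≠ g * b * g⁻¹ * a := by
    by_contra h
    push Not at h
    exact hn fun g hg a ha b hb => h g hg a ha b hb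
  clear_value n
  rcases n with _ | _ | m
  · exact absurd (c.W_comm ha (c.conjW hg hb)) hab
  · obtain ⟨g₁, hg₁, p, hp, rfl⟩ := hg
    refine ⟨g₁⁻¹ * a * g₁, c.conjW' hg₁ ha, p * b * p⁻¹, c.conjW hp hb, fun e => hab ?_⟩
    have := conj_comm g₁ e
    rwa [show g₁ * (g₁⁻¹ * a * g₁) * g₁⁻¹ = a by group,
      show g₁ * (x * (p * b * p⁻¹) * x⁻¹) * g₁⁻¹ = g₁ * x * p * b * (g₁ * x * p)⁻¹ by group] at this
  exfalso
  -- normalise the two ends
  obtain ⟨g₁, g', a, b, hg₁, hg', ha, hb, e12, hab⟩ : ∃ g₁ g' a b, g₁ ∈ ySet T K x (m + 1) ∧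
      g' ∈ ySet T K x (m + 1) ∧ a ∈ wOf K ∧ b ∈ wOf K ∧ g₁ * x = x * g' ∧
      a * (g₁ * x * b * (g₁ * x)⁻¹) ≠ g₁ * x * b * (g₁ * x)⁻¹ * a := by
    obtain ⟨p', hp', g', hg', rfl⟩ := c.y_decomp hg
    obtain ⟨g₁, hg₁, p, hp, e⟩ := c.y_succ_left hg'
    refine ⟨g₁, g' * p⁻¹, p'⁻¹ * a * p', p * b * p⁻¹, hg₁, c.y_right ((K ⊔ T).inv_mem hp) hg',
      c.conjW' hp' ha, c.conjW hp hb, by rw [← mul_assoc x g', e]; group, fun h => hab ?_⟩
    have := conj_comm p' h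
    rwa [show p' * (p'⁻¹ * a * p') * p'⁻¹ = a by group,
      show p' * (g₁ * x * (p * b * p⁻¹) * (g₁ * x)⁻¹) * p'⁻¹ = p' * (g₁ * x * p) * b * (p' * (g₁ * x * p))⁻¹ by group,
      show p' * (g₁ * x * p) = p' * x * g' by rw [← e]; group] at this
  clear hg
  set h := x * u * x⁻¹ with hh
  have hu_eq : u = g₁ * h * g₁⁻¹ := by
    have h1 := c.crit_right hu hu1 huT hmin (by omega) hg₁ ha hb hab
    have hab' := hab
    rw [e12] at hab'
    have h2 := c.crit_left hu hu1 huT hmin (by omega) hg' ha hb hab'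
    rw [← e12] at h2
    calc u = g₁ * x * u * (g₁ * x)⁻¹ := h2.symm.trans h1
      _ = g₁ * h * g₁⁻¹ := by rw [hh]; group
  -- the two ends
  have hW2Q : ∀ w ∈ wOf K, x * w * x⁻¹ ∈ qOf T K := fun w hw => mem_qOf.2
    ⟨c.xT _ (mem_qOf.1 (c.W_le_Q hw)).1, fun y hy =>
      hmin 1 (by omega) x ⟨1, (K ⊔ T).one_mem, 1, (K ⊔ T).one_mem, by group⟩ y hy w hw⟩
  have hW2T : ∀ t ∈ T, ∀ w ∈ wOf K, ∃ w' ∈ wOf K, t * (x * w * x⁻¹) * t⁻¹ = x * w' * x⁻¹ :=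
    fun t ht w hw => ⟨(x⁻¹ * t * x) * w * (x⁻¹ * t * x)⁻¹, c.conjW (Subgroup.mem_sup_right (c.xT' ht)) hw, by group⟩
  set t₀ := g₁ * x * b * (g₁ * x)⁻¹ with ht₀
  have ht₀T : t₀ ∈ T := by
    have h1 := c.claim hmin (m + 1) (by omega) g'⁻¹ (c.y_inv hg') b hb
    rw [inv_inv] at h1
    have := c.xT _ (mem_qOf.1 h1).1
    rwa [show x * (g' * b * g'⁻¹) * x⁻¹ = x * g' * b * (x * g')⁻¹ by group, ← e12] at this
  have ht₀Q : t₀ ∉ qOf T K := fun h1 => hab ((mem_qOf.1 h1).2 a ha)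
  obtain ⟨k, hk, hko, hkQ⟩ := exists_odd_notMem c.comp
  have hkP : k ∈ K ⊔ T := Subgroup.mem_sup_left hk
  obtain ⟨q, hq, hswap⟩ := c.swap hk hko hkQ ht₀T ht₀Q
  have hq' : (k * k)⁻¹ * q * (k * k) ∈ pCoreOf 2 K := by
    have := c.conjCore ((K ⊔ T).inv_mem ((K ⊔ T).mul_mem hkP hkP)) hq
    rwa [inv_inv] at this
  obtain ⟨g₂, hg₂, p, hp, hg₁eq⟩ := hg₁
  have hg₁Y : g₁ ∈ ySet T K x (m + 1) := ⟨g₂, hg₂, p, hp, hg₁eq⟩
  by_cases hA : ∀ y ∈ wOf K, ∀ z ∈ wOf K,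
      k * (x * y * x⁻¹) * k⁻¹ * (g₁ * z * g₁⁻¹) = g₁ * z * g₁⁻¹ * (k * (x * y * x⁻¹) * k⁻¹)
  · -- commuting: `W ⊔ xWx⁻¹` is normalised by everything
    have hs : ∀ y ∈ wOf K, g₁⁻¹ * (k * (x * y * x⁻¹) * k⁻¹) * g₁ ∈ qOf T K := by
      intro y hy
      obtain ⟨g'', hg'', e⟩ := c.y_inv_x (c.y_left ((K ⊔ T).inv_mem hkP) hg₂)
      have hY : x * g'' ∈ ySet T K x (m + 1) := c.y_succ_left hg''
      have ht : (x * g'' * x)⁻¹ * y * (x * g'' * x) ∈ qOf T K := by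
        refine mem_qOf.2 ⟨c.mem_T hmin (by omega) hY hy, fun z hz => ?_⟩
        have h1 := hA y hy (p⁻¹ * z * p) (c.conjW' hp hz)
        refine (comm_of_conj (g := k * x * (x * g'' * x)) ?_).symm
        rw [show k * x * (x * g'' * x) * ((x * g'' * x)⁻¹ * y * (x * g'' * x)) * (k * x * (x * g'' * x))⁻¹ =
            k * (x * y * x⁻¹) * k⁻¹ by group,
          show k * x * (x * g'' * x) * z * (k * x * (x * g'' * x))⁻¹ = g₁ * (p⁻¹ * z * p) * g₁⁻¹ by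
            rw [hg₁eq, ← e]; group]
        exact h1
      have := c.conjQ ((K ⊔ T).inv_mem hp) ht
      rwa [show p⁻¹ * ((x * g'' * x)⁻¹ * y * (x * g'' * x)) * p⁻¹⁻¹ = g₁⁻¹ * (k * (x * y * x⁻¹) * k⁻¹) * g₁ by
        rw [hg₁eq, ← e]; group] at this
    set R := wOf K ⊔ (wOf K).map (MulAut.conj x).toMonoidHom with hR
    have hW1 : ∀ w ∈ wOf K, w ∈ R := fun w hw => Subgroup.mem_sup_left hw
    have hW2 : ∀ w ∈ wOf K, x * w * x⁻¹ ∈ R := fun w hw => Subgroup.mem_sup_right ⟨w, hw, rfl⟩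
    have hk2 : ∀ y ∈ wOf K, k * (x * y * x⁻¹) * k⁻¹ ∈ R := by
      intro r hr
      -- write the element as the image of some `y`
      have ht1 : (k * k)⁻¹ * q * (k * k) * t₀ ∈ T := T.mul_mem (c.coreT hq') ht₀T
      obtain ⟨y, hy, hy'⟩ := hW2T _ (T.inv_mem ht1) r hr
      set t₁ := (k * k)⁻¹ * q * (k * k) * t₀ with ht₁
      have hyr : t₁ * (x * y * x⁻¹) * t₁⁻¹ = x * r * x⁻¹ := by rw [← hy']; group
      set s := k * (x * y * x⁻¹) * k⁻¹ with hsdef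
      have hval : t₀ * s * t₀⁻¹ * s⁻¹ = 1 ∨ t₀ * s * t₀⁻¹ * s⁻¹ = u := by
        have e1 : t₀ * s * t₀⁻¹ * s⁻¹ = g₁ * ((g₁⁻¹ * s * g₁) * (x * b * x⁻¹) * (g₁⁻¹ * s * g₁)⁻¹ *
            (x * b * x⁻¹)⁻¹)⁻¹ * g₁⁻¹ := by rw [ht₀]; group
        rcases c.comm_val_x hu hu1 huT (mem_qOf.1 (hs y hy)).1 hb with e2 | e2
        · left; rw [e1, e2]; group
        · right
          rw [e1, e2, ← hh, show g₁ * h⁻¹ * g₁⁻¹ = (g₁ * h * g₁⁻¹)⁻¹ by group, ← hu_eq, c.W_inv hu]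
      have hts : t₀ * s * t₀⁻¹ = k * k * (x * r * x⁻¹) * (k * k)⁻¹ := by
        calc t₀ * s * t₀⁻¹ = (t₀ * k * t₀⁻¹) * (t₀ * (x * y * x⁻¹) * t₀⁻¹) * (t₀ * k * t₀⁻¹)⁻¹ := by
              rw [hsdef]; group
          _ = k * k * (t₁ * (x * y * x⁻¹) * t₁⁻¹) * (k * k)⁻¹ := by rw [hswap, ht₁]; group
          _ = _ := by rw [hyr]
      rcases hval with e | e
      · rw [mul_inv_eq_one] at e
        have e3 : k * (x * r * x⁻¹) * k⁻¹ = x * y * x⁻¹ := by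
          calc k * (x * r * x⁻¹) * k⁻¹ = k⁻¹ * (k * k * (x * r * x⁻¹) * (k * k)⁻¹) * k := by group
            _ = k⁻¹ * s * k := by rw [← hts, e]
            _ = x * y * x⁻¹ := by rw [hsdef]; group
        rw [e3]; exact hW2 y hy
      · rw [mul_inv_eq_iff_eq_mul] at e
        have e3 : k * (x * r * x⁻¹) * k⁻¹ = (k⁻¹ * u * k) * (x * y * x⁻¹) := by
          calc k * (x * r * x⁻¹) * k⁻¹ = k⁻¹ * (k * k * (x * r * x⁻¹) * (k * k)⁻¹) * k := by group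
            _ = k⁻¹ * (u * s) * k := by rw [← hts, e]
            _ = (k⁻¹ * u * k) * (x * y * x⁻¹) := by rw [hsdef]; group
        rw [e3]; exact R.mul_mem (hW1 _ (c.conjW' hkP hu)) (hW2 y hy)
    have hnorm : ∀ y : G, (∀ w ∈ wOf K, y * w * y⁻¹ ∈ R) → (∀ w ∈ wOf K, y * (x * w * x⁻¹) * y⁻¹ ∈ R) →
        y ∈ Subgroup.normalizer (R : Set G) := by
      intro y h1 h2
      refine Subgroup.mem_normalizer_fintype fun r hr => ?_
      have hle : R ≤ R.comap (MulAut.conj y).toMonoidHom := by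
        refine sup_le (fun w hw => h1 w hw) ?_
        rintro _ ⟨w, hw, rfl⟩
        exact h2 w hw
      exact hle hr
    have hTR : T ≤ Subgroup.normalizer (R : Set G) := fun t ht => hnorm t
      (fun w hw => hW1 _ (c.conjW (Subgroup.mem_sup_right ht) hw))
      (fun w hw => by obtain ⟨w', hw', e⟩ := hW2T t ht w hw; rw [e]; exact hW2 w' hw')
    have hKR : K ≤ Subgroup.normalizer (R : Set G) := c.K_mem_of hk hkQ
      (hnorm k (fun w hw => hW1 _ (c.conjW hkP hw)) hk2) (c.coreT.trans hTR)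
    have hRT : R ≤ T := sup_le (fun w hw => (mem_qOf.1 (c.W_le_Q hw)).1)
      (by rintro _ ⟨w, hw, rfl⟩; exact (mem_qOf.1 (hW2Q w hw)).1)
    refine c.W_ne_bot (eq_bot_iff.2 ?_)
    rw [← c.nob R (c.two.to_le hRT) hKR hTR (hnorm x hW2 fun w hw => ?_)]
    · exact le_sup_left
    · rw [show x * (x * w * x⁻¹) * x⁻¹ = (x * x) * w * (x * x)⁻¹ by group]
      exact hW1 _ (c.conjW (Subgroup.mem_sup_right c.x2) hw)
  -- noncommuting: a point fixed by `K`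
  push Not at hA
  obtain ⟨y, hy, z, hz, hne'⟩ := hA
  have hval : ∀ j ∈ K ⊔ T, ∀ y ∈ wOf K,
      j * (x * y * x⁻¹) * j⁻¹ * (g₁ * z * g₁⁻¹) ≠ g₁ * z * g₁⁻¹ * (j * (x * y * x⁻¹) * j⁻¹) →
      j * h * j⁻¹ = g₂ * h * g₂⁻¹ := by
    intro j hj y hy hne2
    obtain ⟨g'', hg'', e⟩ := c.y_inv_x (c.y_left ((K ⊔ T).inv_mem hj) hg₂)
    have hY : x * g'' ∈ ySet T K x (m + 1) := c.y_succ_left hg''
    obtain ⟨g₃, hg₃, e'⟩ := c.y_inv_x (c.y_left ((K ⊔ T).inv_mem hj) hg₁Y)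
    have hne3 : y * (x * g'' * x * (p * z * p⁻¹) * (x * g'' * x)⁻¹) ≠
        x * g'' * x * (p * z * p⁻¹) * (x * g'' * x)⁻¹ * y := by
      intro e1
      refine hne2 ?_
      have := conj_comm (j * x) e1
      rwa [show j * x * y * (j * x)⁻¹ = j * (x * y * x⁻¹) * j⁻¹ by group,
        show j * x * (x * g'' * x * (p * z * p⁻¹) * (x * g'' * x)⁻¹) * (j * x)⁻¹ = g₁ * z * g₁⁻¹ by
          rw [hg₁eq, ← e]; group] at this
    have h1 := c.crit_right hu hu1 huT hmin (by omega) hY hy (c.conjW hp hz) hne3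
    have heq : x * g'' * x * (p * z * p⁻¹) * (x * g'' * x)⁻¹ = x * g₃ * z * (x * g₃)⁻¹ := by
      rw [← e, ← e', hg₁eq]; group
    rw [heq] at h1 hne3
    have h2 := c.crit_left hu hu1 huT hmin (by omega) hg₃ hy hz hne3
    have h3 : u = x * g'' * x * u * (x * g'' * x)⁻¹ := h2.symm.trans h1
    rw [hh]
    calc j * (x * u * x⁻¹) * j⁻¹
        = j * (x * (x * g'' * x * u * (x * g'' * x)⁻¹) * x⁻¹) * j⁻¹ := by rw [← h3]
      _ = g₂ * (x * u * x⁻¹) * g₂⁻¹ := by rw [← e]; group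
  have hT1 : ∀ t ∈ T, t * h = h * t := fun t ht => by
    have := conj_comm x (huT _ (c.xT' ht))
    rwa [show x * (x⁻¹ * t * x) * x⁻¹ = t by group] at this
  have hkh : k * h = h * k := by
    have h1 := hval k hkP y hy hne'
    have ht₀z : t₀ * (g₁ * z * g₁⁻¹) = g₁ * z * g₁⁻¹ * t₀ := by
      have := conj_comm g₁ ((mem_qOf.1 (hW2Q b hb)).2 z hz).symm
      rwa [show g₁ * (x * b * x⁻¹) * g₁⁻¹ = t₀ by rw [ht₀]; group] at this
    obtain ⟨y₁, hy₁, ey⟩ := hW2T t₀ ht₀T y hy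
    have hj : t₀ * k * t₀⁻¹ ∈ K ⊔ T := Subgroup.mem_sup_left (c.conjK (Subgroup.mem_sup_right ht₀T) hk)
    have h2 := hval (t₀ * k * t₀⁻¹) hj y₁ hy₁ (by
      intro e
      refine hne' (comm_of_conj (g := t₀) ?_)
      rw [show t₀ * (g₁ * z * g₁⁻¹) * t₀⁻¹ = g₁ * z * g₁⁻¹ by rw [ht₀z, mul_inv_cancel_right],
        show t₀ * (k * (x * y * x⁻¹) * k⁻¹) * t₀⁻¹ =
          (t₀ * k * t₀⁻¹) * (t₀ * (x * y * x⁻¹) * t₀⁻¹) * (t₀ * k * t₀⁻¹)⁻¹ by group, ey]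
      exact e)
    rw [← h1, hswap] at h2
    have h3 : q * (k * k) * h * (q * (k * k))⁻¹ = k * k * h * (k * k)⁻¹ := by
      calc q * (k * k) * h * (q * (k * k))⁻¹
          = k * k * (((k * k)⁻¹ * q * (k * k)) * h * ((k * k)⁻¹ * q * (k * k))⁻¹) * (k * k)⁻¹ := by group
        _ = k * k * h * (k * k)⁻¹ := by rw [hT1 _ (c.coreT hq'), mul_inv_cancel_right]
    rw [h3] at h2
    have h4 : k * h * k⁻¹ = h := by
      calc k * h * k⁻¹ = k⁻¹ * (k * k * h * (k * k)⁻¹) * k := by group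
        _ = k⁻¹ * (k * h * k⁻¹) * k := by rw [h2]
        _ = h := by group
    exact mul_inv_eq_iff_eq_mul.1 h4
  have hhu : h ≠ u := fun e => hu1 (fpf_wOf c.comp hk hko hkQ hu (by rw [← e, hkh, mul_inv_cancel_right]))
  have hhT : h ∈ T := c.xT _ (mem_qOf.1 (c.W_le_Q hu)).1
  have hh1 : h ≠ 1 := fun e => hu1 (by rw [hh] at e; simpa using e)
  have hPh : K ⊔ T ≤ Subgroup.centralizer ({h} : Set G) :=
    sup_le (c.K_mem_of hk hkQ (Subgroup.mem_centralizer_singleton_iff.2 hkh)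
      (fun y hy => Subgroup.mem_centralizer_singleton_iff.2 (hT1 y (c.coreT hy))))
      (fun y hy => Subgroup.mem_centralizer_singleton_iff.2 (hT1 y hy))
  have hxh : x * h * x⁻¹ = u := by
    rw [hh, show x * (x * u * x⁻¹) * x⁻¹ = (x * x) * u * (x * x)⁻¹ by group, huT _ c.x2, mul_inv_cancel_right]
  have hgN : x⁻¹ * g₁ ∈ Subgroup.normalizer (K : Set G) := by
    refine c.uniq h hhT hh1 (fun y hy => Subgroup.mem_centralizer_singleton_iff.1 (hPh hy)) (hxh ▸ hu) _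
      fun w hw => ?_
    have hfix : x⁻¹ * g₁ * h * (x⁻¹ * g₁)⁻¹ = h := by
      calc x⁻¹ * g₁ * h * (x⁻¹ * g₁)⁻¹ = x⁻¹ * (g₁ * h * g₁⁻¹) * x := by group
        _ = x⁻¹ * (x * h * x⁻¹) * x := by rw [← hu_eq, hxh]
        _ = h := by group
    have := conj_comm (x⁻¹ * g₁) (Subgroup.mem_centralizer_singleton_iff.1 (hPh hw))
    rwa [hfix] at this
  -- so `kxWx⁻¹k⁻¹` and `xWx⁻¹` do not commute
  have hz₂ : x⁻¹ * g₁ * z * (x⁻¹ * g₁)⁻¹ ∈ wOf K :=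
    conj_mem_wOf (fun w hw => (Subgroup.mem_normalizer_iff.1 hgN w).1 hw) hz
  set z₂ := x⁻¹ * g₁ * z * (x⁻¹ * g₁)⁻¹ with hz₂def
  rw [show g₁ * z * g₁⁻¹ = x * z₂ * x⁻¹ by rw [hz₂def]; group] at hne'
  have hcomm_h : ∀ w, w = 1 ∨ w = u → ∀ t ∈ T, t * (x * w * x⁻¹) = x * w * x⁻¹ * t := by
    rintro w (rfl | rfl) t ht
    · simp
    · exact hT1 t ht
  have hQT : qOf T K ≤ T := inf_le_left
  obtain ⟨v, hv, hv1, hvu⟩ : ∃ v ∈ wOf K, v ≠ 1 ∧ v ≠ u := by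
    refine ⟨z₂, hz₂, fun e => hne' ?_, fun e => hne' ?_⟩
    · exact hcomm_h z₂ (Or.inl e) _ (hQT (c.conjQ hkP (hW2Q y hy)))
    · exact hcomm_h z₂ (Or.inr e) _ (hQT (c.conjQ hkP (hW2Q y hy)))
  set w₂ := x * v * x⁻¹ with hw₂
  set c₁ := k * w₂ * k⁻¹ with hc₁
  set c₃ := k * k * w₂ * (k * k)⁻¹ with hc₃
  have hc₁T : c₁ ∈ T := hQT (c.conjQ hkP (hW2Q v hv))
  have hw₂sq : w₂ * w₂ = 1 := by
    rw [hw₂, show x * v * x⁻¹ * (x * v * x⁻¹) = x * (v * v) * x⁻¹ by group, c.W_sq hv]; group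
  have hc₁sq : c₁ * c₁ = 1 := by
    rw [hc₁, show k * w₂ * k⁻¹ * (k * w₂ * k⁻¹) = k * (w₂ * w₂) * k⁻¹ by group, hw₂sq]; group
  have hnc : c₁ * w₂ ≠ w₂ * c₁ := by
    intro e
    refine hne' ?_
    have hcase : ∀ w ∈ wOf K, ∀ t ∈ T, t * w₂ = w₂ * t → t * (x * w * x⁻¹) = x * w * x⁻¹ * t := by
      intro w hw t ht e1
      rcases four_cases c.comp.2.2.2.2.1 (fun _ h => c.W_sq h) hu hv hu1 hv1 (Ne.symm hvu) hw with
        rfl | rfl | rfl | rfl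
      · exact hcomm_h _ (Or.inl rfl) t ht
      · exact hcomm_h _ (Or.inr rfl) t ht
      · exact e1
      · rw [show x * (u * v) * x⁻¹ = h * w₂ by rw [hh, hw₂]; group]
        exact ((show Commute t h from hT1 t ht).mul_right (show Commute t w₂ from e1)).eq
    have h1 : k * (x * y * x⁻¹) * k⁻¹ * w₂ = w₂ * (k * (x * y * x⁻¹) * k⁻¹) := by
      have h2 := hcase y hy (k⁻¹ * w₂ * k) (hQT (by
        have := c.conjQ ((K ⊔ T).inv_mem hkP) (hW2Q v hv); rwa [inv_inv] at this)) (by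
        refine comm_of_conj (g := k) ?_
        rw [show k * (k⁻¹ * w₂ * k) * k⁻¹ = w₂ by group]
        exact e.symm)
      have := conj_comm k h2
      rw [show k * (k⁻¹ * w₂ * k) * k⁻¹ = w₂ by group] at this
      exact this.symm
    exact hcase z₂ hz₂ _ (hQT (c.conjQ hkP (hW2Q y hy))) h1
  have hcv : c₁ * w₂ * c₁⁻¹ * w₂⁻¹ = h := by
    rcases c.comm_val_x hu hu1 huT hc₁T hv with e | e
    · rw [← hw₂, mul_inv_eq_one, mul_inv_eq_iff_eq_mul] at e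
      exact absurd e hnc
    · exact e
  have hkh' : ∀ y : G, y ∈ K ⊔ T → y * h * y⁻¹ = h := fun y hy => by
    rw [Subgroup.mem_centralizer_singleton_iff.1 (hPh hy), mul_inv_cancel_right]
  have hhsq : h * h = 1 := by
    rw [hh, show x * u * x⁻¹ * (x * u * x⁻¹) = x * (u * u) * x⁻¹ by group, c.W_sq hu]; group
  have h31 : c₃ * c₁ * c₃⁻¹ * c₁⁻¹ = h := by
    rw [hc₃, hc₁, show k * k * w₂ * (k * k)⁻¹ * (k * w₂ * k⁻¹) * (k * k * w₂ * (k * k)⁻¹)⁻¹ * (k * w₂ * k⁻¹)⁻¹ =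
      k * (c₁ * w₂ * c₁⁻¹ * w₂⁻¹) * k⁻¹ by rw [hc₁]; group, hcv]
    exact hkh' k hkP
  have hsq : ∀ r ∈ T, r ∉ qOf T K → (r * c₁ * r⁻¹ * c₁) * (r * c₁ * r⁻¹ * c₁) = h := by
    intro r hr hrQ
    obtain ⟨q₀, hq₀, e0⟩ := c.swap hk hko hkQ hr hrQ
    set q₁ := (k * k)⁻¹ * q₀ * (k * k) with hq₁
    have hq₁T : q₁ ∈ T := c.coreT (by
      have := c.conjCore ((K ⊔ T).inv_mem ((K ⊔ T).mul_mem hkP hkP)) hq₀
      rwa [inv_inv] at this)
    have e1 : r * c₁ * r⁻¹ = k * k * ((q₁ * r) * w₂ * (q₁ * r)⁻¹) * (k * k)⁻¹ := by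
      calc r * c₁ * r⁻¹ = (r * k * r⁻¹) * (r * w₂ * r⁻¹) * (r * k * r⁻¹)⁻¹ := by rw [hc₁]; group
        _ = _ := by rw [e0, hq₁]; group
    have hpq : ∀ e : G, e * e = 1 → e * c₁ * e⁻¹ * c₁⁻¹ = h → e * c₁ * (e * c₁) = h := by
      intro e he1 he2
      have i1 : e⁻¹ = e := inv_eq_of_mul_eq_one_left he1
      have i2 : c₁⁻¹ = c₁ := inv_eq_of_mul_eq_one_left hc₁sq
      calc e * c₁ * (e * c₁) = e * c₁ * e⁻¹ * c₁⁻¹ := by rw [i1, i2, ← mul_assoc]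
        _ = h := he2
    have hc₃sq : c₃ * c₃ = 1 := by
      rw [hc₃, show k * k * w₂ * (k * k)⁻¹ * (k * k * w₂ * (k * k)⁻¹) = k * k * (w₂ * w₂) * (k * k)⁻¹ by group,
        hw₂sq]; group
    rcases c.comm_val_x hu hu1 huT (T.mul_mem hq₁T hr) hv with e2 | e2
    · rw [← hw₂, mul_inv_eq_one] at e2
      rw [e1, e2, ← hc₃]
      exact hpq c₃ hc₃sq h31
    · rw [← hw₂, ← hh, mul_inv_eq_iff_eq_mul] at e2
      have e3 : r * c₁ * r⁻¹ = h * c₃ := by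
        rw [e1, e2, hc₃, show k * k * (h * w₂) * (k * k)⁻¹ =
          (k * k * h * (k * k)⁻¹) * (k * k * w₂ * (k * k)⁻¹) by group, hkh' _ ((K ⊔ T).mul_mem hkP hkP)]
      rw [e3]
      have hc : c₁ * h = h * c₁ := hT1 c₁ hc₁T
      have hc' : c₃ * h = h * c₃ := by
        have := hkh' (k * k) ((K ⊔ T).mul_mem hkP hkP)
        have h5 := conj_comm (k * k) (hT1 w₂ (hQT (hW2Q v hv)))
        rwa [this] at h5
      refine hpq (h * c₃) ?_ ?_
      · rw [show h * c₃ * (h * c₃) = h * (c₃ * h) * c₃ by group, hc',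
          show h * (h * c₃) * c₃ = (h * h) * (c₃ * c₃) by group, hhsq, hc₃sq, mul_one]
      · calc h * c₃ * c₁ * (h * c₃)⁻¹ * c₁⁻¹ = h * (c₃ * c₁ * c₃⁻¹ * c₁⁻¹) * (c₁ * h⁻¹ * c₁⁻¹) := by group
          _ = h := by
            rw [h31, (Commute.inv_right (show Commute c₁ h from hc)).eq, mul_inv_cancel_right,
              mul_inv_cancel_right]
  set bb := x * c₁ * x⁻¹ with hbb
  set r := x⁻¹ * c₁ * x with hr
  have hbbQ : bb ∉ qOf T K := fun h1 => hnc (by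
    have h2 := (mem_qOf.1 h1).2 _ (c.conjW (Subgroup.mem_sup_right c.x2) hv)
    refine comm_of_conj (g := x) ?_
    rw [show x * w₂ * x⁻¹ = x * x * v * (x * x)⁻¹ by rw [hw₂]; group]
    exact h2.symm)
  have hrQ : r ∉ qOf T K := fun h1 => hnc (by
    have h2 := (mem_qOf.1 h1).2 v hv
    have h3 := conj_comm x h2
    rw [show x * r * x⁻¹ = c₁ by rw [hr]; group] at h3
    exact h3.symm)
  have h1 := hsq bb (c.xT _ hc₁T) hbbQ
  have h2 := hsq r (c.xT' hc₁T) hrQ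
  have i1 : c₁⁻¹ = c₁ := inv_eq_of_mul_eq_one_left hc₁sq
  have hbsq : bb⁻¹ = bb := by rw [hbb, show (x * c₁ * x⁻¹)⁻¹ = x * c₁⁻¹ * x⁻¹ by group, i1]
  have hrsq : r⁻¹ = r := by rw [hr, show (x⁻¹ * c₁ * x)⁻¹ = x⁻¹ * c₁⁻¹ * x by group, i1]
  rw [hbsq] at h1
  rw [hrsq] at h2
  have key : x * ((r * c₁ * r * c₁) * (r * c₁ * r * c₁)) * x⁻¹ = c₁ * (bb * c₁ * bb * c₁ * (bb * c₁ * bb * c₁)) * c₁⁻¹ := by
    rw [hbb, hr]; group
  rw [h1, h2, hxh, hT1 c₁ hc₁T, mul_inv_cancel_right] at key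
  exact hhu key.symm

include hu hu1 huT

/-- In this situation `T` is dihedral of order 8, possibly times a group of order 2. -/
theorem small (hbound : Nat.card ↥(omegaCenterOf T) ≤ 4) :
    x * u * x⁻¹ = u ∧ (∀ q ∈ qOf T K, q * q = 1) ∧ (∃ t₁ ∈ T, t₁ ∉ qOf T K) ∧
      Nat.card ↥T = 2 * Nat.card ↥(qOf T K) ∧
      ∃ C : Subgroup G, C ≤ qOf T K ∧ (∀ y ∈ K ⊔ T, ∀ d ∈ C, y * d = d * y) ∧
        C ⊓ wOf K = ⊥ ∧ C ⊔ wOf K = qOf T K ∧ Nat.card ↥(qOf T K) = 4 * Nat.card ↥C ∧ Nat.card ↥C ≤ 2 := by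
  haveI : Fact (Nat.Prime 2) := ⟨Nat.prime_two⟩
  obtain ⟨a₀, ha₀, b₀, hb₀, hne⟩ := c.noncomm
  set b₁ := x * b₀ * x⁻¹ with hb₁
  have hb₁T : b₁ ∈ T := c.xT _ (mem_qOf.1 (c.W_le_Q hb₀)).1
  have ha₀T : a₀ ∈ T := (mem_qOf.1 (c.W_le_Q ha₀)).1
  have hxu : x * u * x⁻¹ = u := by
    rcases c.comm_val hu hu1 huT hb₁T ha₀ with e | e
    · rw [mul_inv_eq_one, mul_inv_eq_iff_eq_mul] at e
      exact absurd e.symm hne
    rcases c.comm_val_x hu hu1 huT ha₀T hb₀ with e' | e'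
    · rw [← hb₁, mul_inv_eq_one, mul_inv_eq_iff_eq_mul] at e'
      exact absurd e' hne
    rw [← e', ← hb₁, show a₀ * b₁ * a₀⁻¹ * b₁⁻¹ = (b₁ * a₀ * b₁⁻¹ * a₀⁻¹)⁻¹ by group, e, c.W_inv hu]
  have hb₁Q : b₁ ∉ qOf T K := fun h => hne ((mem_qOf.1 h).2 a₀ ha₀)
  have ha₀Q : a₀ ∈ qOf T K := c.W_le_Q ha₀
  set Q := qOf T K with hQdef
  have hQT : Q ≤ T := inf_le_left
  have ha₀1 : a₀ ≠ 1 ∧ a₀ ≠ u := by
    constructor
    · intro e; exact hne (by rw [e, one_mul, mul_one])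
    · intro e; exact hne (by rw [e, (huT b₁ hb₁T)])
  have hbQ : ∀ q ∈ Q, b₁ * q * b₁⁻¹ * q⁻¹ = 1 ∨ b₁ * q * b₁⁻¹ * q⁻¹ = u := by
    intro q hq
    have e0 : b₁ * q * b₁⁻¹ * q⁻¹ = (q * b₁ * q⁻¹ * b₁⁻¹)⁻¹ := by group
    rcases c.comm_val_x hu hu1 huT (hQT hq) hb₀ with e | e
    · left; rw [e0, hb₁, e, inv_one]
    · right; rw [e0, hb₁, e, hxu, c.W_inv hu]
  have hba : b₁ * a₀ * b₁⁻¹ * a₀⁻¹ = u := by
    rcases hbQ a₀ ha₀Q with e | e
    · rw [mul_inv_eq_one, mul_inv_eq_iff_eq_mul] at e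
      exact absurd e.symm hne
    · exact e
  have hzero : ∀ q ∈ Q, q * q = 1 := by
    have hDiff : ∀ q ∈ Q, ∃ d ∈ Q, b₁ * d = d * b₁ ∧ q * q = d * d := by
      intro q hq
      rcases hbQ q hq with e | e
      · rw [mul_inv_eq_one, mul_inv_eq_iff_eq_mul] at e
        exact ⟨q, hq, e, rfl⟩
      · refine ⟨q * a₀, Q.mul_mem hq ha₀Q, ?_, ?_⟩
        · have e1 : b₁ * q * b₁⁻¹ = u * q := mul_inv_eq_iff_eq_mul.1 e
          have e2 : b₁ * a₀ * b₁⁻¹ = u * a₀ := mul_inv_eq_iff_eq_mul.1 hba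
          refine mul_inv_eq_iff_eq_mul.1 ?_
          calc b₁ * (q * a₀) * b₁⁻¹ = (b₁ * q * b₁⁻¹) * (b₁ * a₀ * b₁⁻¹) := by group
            _ = u * (q * u) * a₀ := by rw [e1, e2]; group
            _ = (u * u) * (q * a₀) := by rw [huT q (hQT hq)]; group
            _ = q * a₀ := by rw [c.W_sq hu, one_mul]
        · rw [show q * a₀ * (q * a₀) = q * (a₀ * q) * a₀ by group, (mem_qOf.1 hq).2 a₀ ha₀,
            show q * (q * a₀) * a₀ = q * q * (a₀ * a₀) by group, c.W_sq ha₀, mul_one]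
    set S₀ : Set G := {y | ∃ q ∈ Q, q * q = y} with hS₀
    set R := Subgroup.closure S₀ with hR
    have hnorm : ∀ p : G, (∀ q ∈ Q, ∃ q' ∈ Q, p * (q * q) * p⁻¹ = q' * q') →
        p ∈ Subgroup.normalizer (R : Set G) := by
      intro p hp
      refine Subgroup.mem_normalizer_fintype fun y hy => ?_
      have hle : R ≤ R.comap (MulAut.conj p).toMonoidHom := by
        conv_lhs => rw [hR]
        rw [Subgroup.closure_le]
        rintro _ ⟨q, hq, rfl⟩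
        obtain ⟨q', hq', e⟩ := hp q hq
        exact Subgroup.subset_closure ⟨q', hq', e.symm⟩
      exact hle hy
    have hP : K ⊔ T ≤ Subgroup.normalizer (R : Set G) := fun p hp =>
      hnorm p fun q hq => ⟨_, c.conjQ hp hq, by group⟩
    have hx : x ∈ Subgroup.normalizer (R : Set G) := hnorm x fun q hq => by
      obtain ⟨d, hd, hdb, e⟩ := hDiff q hq
      refine ⟨x * d * x⁻¹, ?_, by rw [e]; group⟩
      have hx2P : x * x ∈ K ⊔ T := Subgroup.mem_sup_right c.x2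
      have hw : x * x * b₀ * (x * x)⁻¹ ∈ wOf K := c.conjW hx2P hb₀
      refine c.cent_eq hu hu1 huT (c.xT _ (hQT hd)) hw (fun h1 => ?_) (fun h1 => ?_) ?_
      · refine hne ?_
        have : b₀ = 1 := by
          calc b₀ = (x * x)⁻¹ * (x * x * b₀ * (x * x)⁻¹) * (x * x) := by group
            _ = 1 := by rw [h1]; group
        rw [hb₁, this]; group
      · refine c.conj_ne hu hu1 huT (fun h2 => ?_) c.x2 h1
        exact hne (by rw [hb₁, h2, hxu]; exact c.W_comm ha₀ hu)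
      · rw [show x * x * b₀ * (x * x)⁻¹ = x * b₁ * x⁻¹ by rw [hb₁]; group]
        exact conj_comm x hdb
    have hbot := c.nob R (c.two.to_le (by
      rw [hR, Subgroup.closure_le]; rintro _ ⟨q, hq, rfl⟩; exact T.mul_mem (hQT hq) (hQT hq)))
      (le_sup_left.trans hP) (le_sup_right.trans hP) hx
    intro q hq
    exact Subgroup.mem_bot.1 (hbot ▸ Subgroup.subset_closure ⟨q, hq, rfl⟩)
  have hQc : ∀ p ∈ Q, ∀ q ∈ Q, p * q = q * p := fun p hp q hq => by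
    have i1 : p⁻¹ = p := inv_eq_of_mul_eq_one_left (hzero p hp)
    have i2 : q⁻¹ = q := inv_eq_of_mul_eq_one_left (hzero q hq)
    calc p * q = (p * q)⁻¹ := (inv_eq_of_mul_eq_one_left (hzero _ (Q.mul_mem hp hq))).symm
      _ = q * p := by rw [mul_inv_rev, i1, i2]
  have hoff : ∀ t ∈ T, t ∉ Q → t * b₁ ∈ Q := by
    intro t ht htQ
    rcases c.comm_val hu hu1 huT ht ha₀ with e | e
    · rw [mul_inv_eq_one, mul_inv_eq_iff_eq_mul] at e
      exact absurd (c.cent_eq hu hu1 huT ht ha₀ ha₀1.1 ha₀1.2 e.symm) htQ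
    refine c.cent_eq hu hu1 huT (T.mul_mem ht hb₁T) ha₀ ha₀1.1 ha₀1.2 ?_
    refine (mul_inv_eq_iff_eq_mul.1 ?_).symm
    calc t * b₁ * a₀ * (t * b₁)⁻¹ = t * (b₁ * a₀ * b₁⁻¹) * t⁻¹ := by group
      _ = t * (u * a₀) * t⁻¹ := by rw [mul_inv_eq_iff_eq_mul.1 hba]
      _ = (t * u * t⁻¹) * (t * a₀ * t⁻¹) := by group
      _ = u * (u * a₀) := by rw [huT t ht, mul_inv_cancel_right, mul_inv_eq_iff_eq_mul.1 e]
      _ = a₀ := by rw [← mul_assoc, c.W_sq hu, one_mul]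
  have hcardT : Nat.card ↥T = 2 * Nat.card ↥Q := by
    have hidx : (Q.subgroupOf T).index = 2 := by
      rw [Subgroup.index_eq_two_iff]
      refine ⟨⟨b₁, hb₁T⟩, fun t => ?_⟩
      show Xor' ((t : G) * b₁ ∈ Q) ((t : G) ∈ Q)
      by_cases h : (t : G) ∈ Q
      · refine Or.inr ⟨h, fun h1 => hb₁Q ?_⟩
        have := Q.mul_mem (Q.inv_mem h) h1
        rwa [inv_mul_cancel_left] at this
      · exact Or.inl ⟨hoff t t.2 h, h⟩
    have h1 := Subgroup.card_mul_index (Q.subgroupOf T)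
    rw [hidx, Nat.card_congr (Subgroup.subgroupOfEquivOfLe hQT).toEquiv] at h1
    omega
  obtain ⟨k, hk, hko, hkQ⟩ := exists_odd_notMem c.comp
  have hkP : k ∈ K ⊔ T := Subgroup.mem_sup_left hk
  set C : Subgroup G := Q ⊓ Subgroup.centralizer ({k} : Set G) with hC
  have hcov : ∀ q ∈ Q, ∃ w ∈ wOf K, q * w ∈ C := by
    intro q hq
    obtain ⟨q₁, hq₁, hsw⟩ := c.swap hk hko hkQ hb₁T hb₁Q
    have hq₁Q := c.core_le_Q hq₁
    have h1 : k * q * k⁻¹ * q⁻¹ ∈ wOf K := by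
      have hkq : k * q * k⁻¹ ∈ Q := c.conjQ hkP hq
      have e1 : b₁ * (k * b₁⁻¹ * k⁻¹) * q * (b₁ * (k * b₁⁻¹ * k⁻¹))⁻¹ = k * q * k⁻¹ := by
        calc b₁ * (k * b₁⁻¹ * k⁻¹) * q * (b₁ * (k * b₁⁻¹ * k⁻¹))⁻¹
            = (b₁ * k * b₁⁻¹) * (k⁻¹ * q * k) * (b₁ * k * b₁⁻¹)⁻¹ := by group
          _ = q₁ * (k * q * k⁻¹) * q₁⁻¹ := by rw [hsw]; group
          _ = k * q * k⁻¹ := by rw [hQc _ hq₁Q _ hkq, mul_inv_cancel_right]
      have hq' : k⁻¹ * q * k ∈ Q := by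
        have := c.conjQ ((K ⊔ T).inv_mem hkP) hq; rwa [inv_inv] at this
      set q₂ := k * b₁⁻¹ * k⁻¹ * q * (k * b₁⁻¹ * k⁻¹)⁻¹ with hq₂
      have h2 : q₂ * q⁻¹ ∈ wOf K := by
        rw [show q₂ * q⁻¹ = k * (b₁⁻¹ * (k⁻¹ * q * k) * b₁ * (k⁻¹ * q * k)⁻¹) * k⁻¹ by rw [hq₂]; group]
        refine c.conjW hkP ?_
        rw [show b₁⁻¹ * (k⁻¹ * q * k) * b₁ * (k⁻¹ * q * k)⁻¹ =
          b₁⁻¹ * (b₁ * (k⁻¹ * q * k) * b₁⁻¹ * (k⁻¹ * q * k)⁻¹)⁻¹ * b₁⁻¹⁻¹ by group]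
        refine c.conjW (Subgroup.mem_sup_right (T.inv_mem hb₁T)) ((wOf K).inv_mem ?_)
        rcases hbQ _ hq' with e | e <;> rw [e]
        exacts [(wOf K).one_mem, hu]
      have hq₂Q : q₂ ∈ Q := by
        have := Q.mul_mem (c.W_le_Q h2) hq
        rwa [inv_mul_cancel_right] at this
      have h3 : b₁ * q₂ * b₁⁻¹ * q₂⁻¹ ∈ wOf K := by
        rcases hbQ _ hq₂Q with e | e <;> rw [e]
        exacts [(wOf K).one_mem, hu]
      rw [← e1, show b₁ * (k * b₁⁻¹ * k⁻¹) * q * (b₁ * (k * b₁⁻¹ * k⁻¹))⁻¹ * q⁻¹ =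
        (b₁ * q₂ * b₁⁻¹ * q₂⁻¹) * (q₂ * q⁻¹) by rw [hq₂]; group]
      exact (wOf K).mul_mem h3 h2
    let f : ↥(wOf K) → ↥(wOf K) := fun w => ⟨k * (w : G) * k⁻¹ * (w : G)⁻¹,
      (wOf K).mul_mem (c.conjW hkP w.2) ((wOf K).inv_mem w.2)⟩
    have hf : Function.Injective f := by
      intro p r e
      have e' : k * (p : G) * k⁻¹ * (p : G)⁻¹ = k * (r : G) * k⁻¹ * (r : G)⁻¹ := congrArg Subtype.val e
      have h2 : k * ((r : G)⁻¹ * p) * k⁻¹ = (r : G)⁻¹ * p := by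
        calc k * ((r : G)⁻¹ * p) * k⁻¹ = (k * r * k⁻¹)⁻¹ * (k * p * k⁻¹ * (p : G)⁻¹) * p := by group
          _ = (r : G)⁻¹ * p := by rw [e']; group
      exact Subtype.ext (inv_mul_eq_one.1 (fpf_wOf c.comp hk hko hkQ
        ((wOf K).mul_mem ((wOf K).inv_mem r.2) p.2) h2)).symm
    obtain ⟨⟨w, hw⟩, hfw⟩ := Finite.surjective_of_injective hf ⟨_, h1⟩
    have hfw' : k * w * k⁻¹ * w⁻¹ = k * q * k⁻¹ * q⁻¹ := congrArg Subtype.val hfw
    refine ⟨w, hw, Q.mul_mem hq (c.W_le_Q hw), Subgroup.mem_centralizer_singleton_iff.2 ?_⟩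
    have h4 : k * (q * w) * k⁻¹ = q * w := by
      have hkq : k * q * k⁻¹ ∈ Q := c.conjQ hkP hq
      calc k * (q * w) * k⁻¹ = (k * q * k⁻¹) * (k * w * k⁻¹ * w⁻¹) * w := by group
        _ = (k * q * k⁻¹) * (k * q * k⁻¹) * q⁻¹ * w := by rw [hfw']; group
        _ = q * w := by rw [hzero _ hkq, one_mul, inv_eq_of_mul_eq_one_left (hzero q hq)]
    exact (mul_inv_eq_iff_eq_mul.1 h4).symm
  have hCk : ∀ d ∈ C, d * k = k * d := fun d hd => Subgroup.mem_centralizer_singleton_iff.1 hd.2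
  have hdisj : C ⊓ wOf K = ⊥ := eq_bot_iff.2 fun d hd => Subgroup.mem_bot.2
    (fpf_wOf c.comp hk hko hkQ hd.2 (by rw [← hCk d hd.1, mul_inv_cancel_right]))
  have hCT : ∀ t ∈ T, ∀ d ∈ C, t * d = d * t := by
    have hb : ∀ d ∈ C, b₁ * d = d * b₁ := by
      intro d hd
      rcases hbQ d hd.1 with e | e
      · exact mul_inv_eq_iff_eq_mul.1 (mul_inv_eq_one.1 e)
      exfalso
      obtain ⟨q₁, hq₁, hsw⟩ := c.swap hk hko hkQ hb₁T hb₁Q
      have e1 : b₁ * d * b₁⁻¹ = u * d := mul_inv_eq_iff_eq_mul.1 e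
      set d' := u * d with hd'
      have hd'Q : d' ∈ Q := Q.mul_mem (c.W_le_Q hu) hd.1
      have h2 : Commute (k * k) d' := by
        have h3 := conj_comm b₁ (hCk d hd)
        rw [e1, hsw] at h3
        have h4 : Commute (q₁⁻¹ * (q₁ * (k * k))) d' :=
          (Commute.inv_left (show Commute q₁ d' from hQc _ (c.core_le_Q hq₁) _ hd'Q)).mul_left h3.symm
        rwa [inv_mul_cancel_left] at h4
      have h5 : Commute k d' := by
        have h6 : Commute ((k * k)⁻¹ * (k * k * k)) d' :=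
          h2.inv_left.mul_left (hQc _ (c.core_le_Q (K_cases c.comp hk hkQ).1) _ hd'Q)
        rwa [show (k * k)⁻¹ * (k * k * k) = k by group] at h6
      have h7 : Commute k (d' * d⁻¹) := h5.mul_right (show Commute k d from (hCk d hd).symm).inv_right
      rw [hd', mul_inv_cancel_right] at h7
      exact hu1 (fpf_wOf c.comp hk hko hkQ hu (by rw [h7.eq, mul_inv_cancel_right]))
    intro t ht d hd
    by_cases htQ : t ∈ Q
    · exact hQc t htQ d hd.1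
    · have h1 := hQc _ (hoff t ht htQ) d hd.1
      calc t * d = (t * b₁) * (b₁⁻¹ * d) := by group
        _ = (t * b₁) * (d * b₁⁻¹) := by
            rw [((show Commute b₁ d from hb d hd).inv_left).eq]
        _ = d * t := by rw [← mul_assoc, h1]; group
  have hCP : ∀ y ∈ K ⊔ T, ∀ d ∈ C, y * d = d * y := by
    intro y hy d hd
    have hle : K ⊔ T ≤ Subgroup.centralizer ({d} : Set G) :=
      sup_le (c.K_mem_of hk hkQ (Subgroup.mem_centralizer_singleton_iff.2 (hCk d hd).symm)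
        (fun z hz => Subgroup.mem_centralizer_singleton_iff.2 (hCT z (c.coreT hz) d hd)))
        (fun z hz => Subgroup.mem_centralizer_singleton_iff.2 (hCT z hz d hd))
    exact Subgroup.mem_centralizer_singleton_iff.1 (hle hy)
  have hsup : C ⊔ wOf K = Q := by
    refine le_antisymm (sup_le inf_le_left c.W_le_Q) fun q hq => ?_
    obtain ⟨w, hw, hqw⟩ := hcov q hq
    have := Subgroup.mul_mem (C ⊔ wOf K) (Subgroup.mem_sup_left hqw) (Subgroup.mem_sup_right ((wOf K).inv_mem hw))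
    rwa [mul_inv_cancel_right] at this
  have hcardQ : Nat.card ↥Q = 4 * Nat.card ↥C := by
    have hinj : Function.Injective (fun p : ↥C × ↥(wOf K) =>
        (⟨(p.1 : G) * (p.2 : G), Q.mul_mem p.1.2.1 (c.W_le_Q p.2.2)⟩ : ↥Q)) := by
      rintro ⟨⟨c1, hc1⟩, ⟨w1, hw1⟩⟩ ⟨⟨c2, hc2⟩, ⟨w2, hw2⟩⟩ e
      have e' : c1 * w1 = c2 * w2 := congrArg Subtype.val e
      have e2 : c2⁻¹ * c1 = w2 * w1⁻¹ := by
        calc c2⁻¹ * c1 = c2⁻¹ * (c1 * w1) * w1⁻¹ := by group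
          _ = w2 * w1⁻¹ := by rw [e']; group
      have h1 : c2⁻¹ * c1 ∈ C ⊓ wOf K :=
        ⟨C.mul_mem (C.inv_mem hc2) hc1, e2 ▸ (wOf K).mul_mem hw2 ((wOf K).inv_mem hw1)⟩
      rw [hdisj, Subgroup.mem_bot] at h1
      rw [h1] at e2
      exact Prod.ext (Subtype.ext (inv_mul_eq_one.1 h1).symm) (Subtype.ext (mul_inv_eq_one.1 e2.symm).symm)
    have hsurj : Function.Surjective (fun p : ↥C × ↥(wOf K) =>
        (⟨(p.1 : G) * (p.2 : G), Q.mul_mem p.1.2.1 (c.W_le_Q p.2.2)⟩ : ↥Q)) := by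
      rintro ⟨q, hq⟩
      obtain ⟨w, hw, hqw⟩ := hcov q hq
      exact ⟨(⟨q * w, hqw⟩, ⟨w⁻¹, (wOf K).inv_mem hw⟩), Subtype.ext (mul_inv_cancel_right q w)⟩
    rw [← Nat.card_eq_of_bijective _ ⟨hinj, hsurj⟩, Nat.card_prod, c.comp.2.2.2.2.1, mul_comm]
  refine ⟨hxu, hzero, ⟨b₁, hb₁T, hb₁Q⟩, hcardT, C, inf_le_left, hCP, hdisj, hsup, hcardQ, ?_⟩
  -- two cosets of `C` inside `Ω₁(Z(T))`
  have hinj : Function.Injective (fun p : ↥C × Bool => (⟨(p.1 : G) * (if p.2 then u else 1), by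
      refine mem_omegaCenterOf.2 ⟨?_, fun t ht => ?_, ?_⟩
      · refine T.mul_mem (hQT p.1.2.1) ?_
        split <;> [exact hQT (c.W_le_Q hu); exact T.one_mem]
      · refine ((show Commute t p.1 from hCT t ht _ p.1.2).mul_right ?_).eq
        split <;> [exact huT t ht; exact Commute.one_right t]
      · exact hzero _ (Q.mul_mem p.1.2.1 (by split <;> [exact c.W_le_Q hu; exact Q.one_mem]))⟩ :
      ↥(omegaCenterOf T))) := by
    rintro ⟨⟨c1, hc1⟩, i⟩ ⟨⟨c2, hc2⟩, j⟩ e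
    have e' : c1 * (if i then u else 1) = c2 * (if j then u else 1) := congrArg Subtype.val e
    have huC : u ∉ C := fun h => hu1 (Subgroup.mem_bot.1 (hdisj ▸ (⟨h, hu⟩ : u ∈ C ⊓ wOf K)))
    cases i <;> cases j <;> simp at e'
    · subst e'; rfl
    · exact absurd (show u ∈ C by
        have := C.mul_mem (C.inv_mem hc2) hc1
        rwa [e', inv_mul_cancel_left] at this) huC
    · exact absurd (show u ∈ C by
        have := C.mul_mem (C.inv_mem hc1) hc2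
        rwa [← e', inv_mul_cancel_left] at this) huC
    · subst e'; rfl
  have h1 := Nat.card_le_card_of_injective _ hinj
  rw [Nat.card_prod, Nat.card_eq_fintype_card (α := Bool), Fintype.card_bool] at h1
  omega

end PairCtx

end CfsgLib.JComp
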