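import Cfsg.Agent.JComp.Unique
import Cfsg.Agent.JComp.Pair
import Cfsg.Agent.S2946

/-!
Components outside `M` for a maximal straddling 2-group `T`.
-/

set_option autoImplicit false
open Cfsg

namespace CfsgLib.JComp

variable {G : Type*} [Group G] [Finite G]

omit [Finite G] in
theorem centralizer_singleton_eq_normalizer {e : G} :
    Subgroup.centralizer ({e} : Set G) ≤ Subgroup.normalizer (Subgroup.zpowers e : Set G) := by
  rw [Subgroup.zpowers_eq_closure]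
  refine le_trans (le_of_eq ?_) (Subgroup.centralizer_le_normalizer _)
  rw [Subgroup.centralizer_closure]

omit [Finite G] in
theorem normalizer_zpowers_le {e : G} (he : e * e = 1) :
    Subgroup.normalizer (Subgroup.zpowers e : Set G) ≤ Subgroup.centralizer ({e} : Set G) := by
  intro g hg
  refine Subgroup.mem_centralizer_singleton_iff.2 ?_
  obtain ⟨i, hi⟩ := (Subgroup.mem_normalizer_iff.1 hg e).1 (Subgroup.mem_zpowers e)
  simp only [] at hi
  rcases Int.even_or_odd' i with ⟨j, rfl | rfl⟩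
  · rw [zpow_mul, zpow_two, he, one_zpow] at hi
    have : e = 1 := by
      calc e = g⁻¹ * (g * e * g⁻¹) * g := by group
        _ = 1 := by rw [← hi]; group
    rw [this, mul_one, one_mul]
  · rw [zpow_add, zpow_mul, zpow_two, he, one_zpow, one_mul, zpow_one] at hi
    exact mul_inv_eq_iff_eq_mul.1 hi.symm

omit [Finite G] in
theorem isTwoLocal_centralizer {e : G} (he : e * e = 1) (he1 : e ≠ 1) :
    IsTwoLocal (Subgroup.centralizer ({e} : Set G)) := by
  refine ⟨Subgroup.zpowers e, ?_, fun h => he1 (Subgroup.zpowers_eq_bot.1 h),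
    le_antisymm centralizer_singleton_eq_normalizer (normalizer_zpowers_le he)⟩
  rintro ⟨y, i, rfl⟩
  exact ⟨1, Subtype.ext (by
    rw [SubmonoidClass.coe_pow, pow_one, pow_two]
    show e ^ i * e ^ i = 1
    rw [← (Commute.refl e).mul_zpow, he, one_zpow])⟩

omit [Finite G] in
theorem isPGroup_of_sq {A : Subgroup G} (h : ∀ a ∈ A, a * a = 1) : IsPGroup 2 ↥A := fun a =>
  ⟨1, Subtype.ext (by rw [SubmonoidClass.coe_pow, pow_one, pow_two]; exact h a a.2)⟩

/-- An elementary abelian subgroup centralizing a largest one is inside it. -/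
theorem IsMaxEl.absorb {S A Y : Subgroup G} (hA : IsMaxEl S A) (hY : Y ≤ S) (hsq : ∀ y ∈ Y, y * y = 1)
    (hc : ∀ y ∈ Y, ∀ a ∈ A, y * a = a * y) (hYc : ∀ y ∈ Y, ∀ z ∈ Y, y * z = z * y) : Y ≤ A := by
  have hn : Y ≤ Subgroup.normalizer (A : Set G) := fun y hy =>
    Subgroup.mem_normalizer_fintype fun a ha => by
      show y * a * y⁻¹ ∈ A
      rw [hc y hy a ha, mul_inv_cancel_right]; exact ha
  have hmem : ∀ b ∈ Y ⊔ A, ∃ y ∈ Y, ∃ a ∈ A, b = y * a := by
    intro b hb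
    rw [← SetLike.mem_coe, Subgroup.coe_mul_of_left_le_normalizer_right _ _ hn] at hb
    obtain ⟨y, hy, a, ha, rfl⟩ := hb
    exact ⟨y, hy, a, ha, rfl⟩
  have hel : IsElementaryAbelian 2 (Y ⊔ A) := by
    refine ⟨⟨⟨?_⟩⟩, ?_⟩
    · rintro ⟨p, hp⟩ ⟨q, hq⟩
      obtain ⟨y, hy, a, ha, rfl⟩ := hmem p hp
      obtain ⟨z, hz, b, hb, rfl⟩ := hmem q hq
      refine Subtype.ext ?_
      show y * a * (z * b) = z * b * (y * a)
      have h1 : Commute y z := hYc y hy z hz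
      have h2 : Commute y b := hc y hy b hb
      have h3 : Commute a z := (show Commute z a from hc z hz a ha).symm
      have h4 : Commute a b := el_comm hA.el ha hb
      exact ((h1.mul_right h2).mul_left (h3.mul_right h4)).eq
    · intro p hp
      obtain ⟨y, hy, a, ha, rfl⟩ := hmem p hp
      rw [pow_two, show y * a * (y * a) = y * (a * y) * a by group, ← hc y hy a ha,
        show y * (y * a) * a = (y * y) * (a * a) by group, hsq y hy, el_sq hA.el ha, one_mul]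
  have h1 := Subgroup.eq_of_le_of_card_ge (le_sup_right : A ≤ Y ⊔ A) (hA.max _ (sup_le hY hA.le) hel)
  rw [h1]; exact le_sup_left

/-- Central involutions of `T` lie in `Ω₁(Z(J(T)))`. -/
theorem omegaCenterOf_le (T : Subgroup G) :
    omegaCenterOf T ≤ omegaCenterOf (thompsonSubgroupOf 2 T) := by
  intro e he
  obtain ⟨heT, hec, hesq⟩ := mem_omegaCenterOf.1 he
  obtain ⟨A, hA⟩ := exists_maxEl T
  refine mem_omegaCenterOf.2 ⟨hA.le_thompson (hA.absorb (Y := omegaCenterOf T)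
    (fun y hy => (mem_omegaCenterOf.1 hy).1) (fun y hy => (mem_omegaCenterOf.1 hy).2.2)
    (fun y hy a ha => ((mem_omegaCenterOf.1 hy).2.1 a (hA.le ha)).symm)
    (fun y hy z hz => ((mem_omegaCenterOf.1 hy).2.1 z (mem_omegaCenterOf.1 hz).1).symm) he),
    fun y hy => hec y (thompson_le_self T hy), hesq⟩

omit [Finite G] in
theorem exists_step {R T : Subgroup G} (hR : IsPGroup 2 ↥R) {x₀ : G} (hx₀ : x₀ ∈ R) (hn : x₀ ∉ T) :
    ∃ n : ℕ, x₀ ^ 2 ^ n ∉ T ∧ x₀ ^ 2 ^ (n + 1) ∈ T := by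
  classical
  obtain ⟨m, hm⟩ := hR ⟨x₀, hx₀⟩
  have hex : ∃ n, x₀ ^ 2 ^ n ∈ T := ⟨m, by
    have : x₀ ^ 2 ^ m = 1 := by simpa using congrArg Subtype.val hm
    rw [this]; exact T.one_mem⟩
  have h1 := Nat.find_spec hex
  have h0 : Nat.find hex ≠ 0 := fun h => hn (by rw [h, pow_zero, pow_one] at h1; exact h1)
  obtain ⟨n, hn'⟩ := Nat.exists_eq_succ_of_ne_zero h0
  exact ⟨n, Nat.find_min hex (by omega), by rw [hn'] at h1; exact h1⟩

/-- An element of a 2-group normalising a proper subgroup and squaring into it. -/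
theorem exists_normalizing {R T : Subgroup G} (hR : IsPGroup 2 ↥R) (hTR : T ≤ R) (hne : ¬ R ≤ T) :
    ∃ x ∈ R, x ∉ T ∧ x * x ∈ T ∧ ∀ t ∈ T, x * t * x⁻¹ ∈ T := by
  haveI : Group.IsNilpotent ↥R := by
    haveI : Fact (Nat.Prime 2) := ⟨Nat.prime_two⟩
    exact hR.isNilpotent
  have hlt : T.subgroupOf R < ⊤ := lt_top_iff_ne_top.2 fun h => hne (Subgroup.subgroupOf_eq_top.1 h)
  obtain ⟨x₀, hx₀, hx₀T⟩ := SetLike.exists_of_lt (Group.normalizerCondition_of_isNilpotent (G := ↥R) _ hlt)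
  obtain ⟨n, h1, h2⟩ := exists_step hR x₀.2 hx₀T
  refine ⟨(x₀ : G) ^ 2 ^ n, R.pow_mem x₀.2 _, h1, by rwa [← pow_two, ← pow_mul, ← pow_succ], fun t ht => ?_⟩
  have := (Subgroup.mem_normalizer_iff.1 ((Subgroup.normalizer (T.subgroupOf R : Set ↥R)).pow_mem hx₀ (2 ^ n))
    ⟨t, hTR ht⟩).1 ht
  simpa [Subgroup.mem_subgroupOf] using this

/-- Two components in `L` with independent four-groups centralize each other's four-group. -/
theorem component_cent {L T T' K K' : Subgroup G} (cx : LocalCtx L) (hT : IsSylowTwoIn T L) (hT1 : T ≠ ⊥)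
    (hK : IsJComponent T K) (hKL : K ≤ L) (hT' : IsSylowTwoIn T' L) (hT1' : T' ≠ ⊥)
    (hK' : IsJComponent T' K') (hKL' : K' ≤ L) (hne : K' ≠ K) :
    ∀ v ∈ wOf K', ∀ y ∈ K, v * y = y * v := by
  have hint : wOf K ⊓ wOf K' = ⊥ :=
    Classical.byContradiction fun h => hne (component_unique cx hT hT1 hK hKL hT' hT1' hK' hKL' h)
  intro v hv y hy
  have hvV := wOf_le_vOf cx hT' hT1' hK' hKL' hv
  have hle : K ≤ Subgroup.centralizer ({v} : Set G) := by
    conv_lhs => rw [← hK.1]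
    rw [Subgroup.closure_le]
    rintro k ⟨hk, hko⟩
    refine Subgroup.mem_centralizer_singleton_iff.2 ?_
    by_cases hkQ : k ∈ pCoreOf 2 K
    · exact ((mem_cOf.1 ((component_data cx hT hK hKL).1 k hkQ)).2 v hvV).symm
    have hkn : k ∈ Subgroup.normalizer (wOf K' : Set G) :=
      normalizer_le_normalizer_wOf K' (J_normalizes_component cx hT' hT1' hK' hKL' (component_le_J hT hK hKL hk))
    have h1 : v * (k * v⁻¹ * k⁻¹) ∈ wOf K ⊓ wOf K' :=
      ⟨(comm_mem_wOf cx hT hT1 hK hKL hk hko hkQ hvV).1,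
        (wOf K').mul_mem hv ((Subgroup.mem_normalizer_iff.1 hkn _).1 ((wOf K').inv_mem hv))⟩
    rw [hint, Subgroup.mem_bot] at h1
    calc k * v = v * (k * v⁻¹ * k⁻¹) * (k * v) := by rw [h1, one_mul]
      _ = v * k := by group
  exact (Subgroup.mem_centralizer_singleton_iff.1 (hle hy)).symm

/-- A maximal 2-local subgroup is its own normalizer. -/
theorem normalizer_maximalTwoLocal {L : Subgroup G} (h : IsMaximalTwoLocal L) :
    Subgroup.normalizer (L : Set G) ≤ L := by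
  obtain ⟨P, hP, hP1, hLP⟩ := h.1
  have hO : pCoreOf 2 L ≠ ⊥ := fun e => hP1 (eq_bot_iff.2 (e ▸ hLP ▸ two_le_pCoreOf hP))
  have hle : Subgroup.normalizer (L : Set G) ≤ Subgroup.normalizer (pCoreOf 2 L : Set G) := fun g hg =>
    Subgroup.mem_normalizer_fintype fun y hy =>
      conj_mem_pCoreOf (fun l hl => (Subgroup.mem_normalizer_iff.1 hg l).1 hl) hy
  have := h.2 _ ⟨_, isPGroup_pCoreOf L, hO, rfl⟩ (Subgroup.le_normalizer.trans hle)
  rwa [this] at hle

omit [Finite G] in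
theorem conj_mem_omegaCenterOf {X : Subgroup G} {g e : G} (hg : g ∈ Subgroup.normalizer (X : Set G))
    (he : e ∈ omegaCenterOf X) [Finite G] : g * e * g⁻¹ ∈ omegaCenterOf X := by
  have h := omegaCenterOf_map (MulAut.conj g) X
  rw [show X.map (MulAut.conj g).toMonoidHom = X from Subgroup.mem_normalizer_iff_map_conj_eq.1 hg] at h
  rw [h]
  exact ⟨e, he, rfl⟩

/-- The standing hypotheses. -/
structure StraddleCtx (S : Sylow 2 G) (M T : Subgroup G) : Prop where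
  char2 : IsCharacteristicTwoType G
  sol2 : ∀ N : Subgroup G, IsTwoLocal N → Group.IsSolvable ↥N
  zn : ∀ S : Sylow 2 G, Subgroup.centralizer (omegaCenterOf (S : Subgroup G) : Set G) ≤
    Subgroup.normalizer ((S : Subgroup G) : Set G)
  hMJ : Subgroup.normalizer (thompsonSubgroupOf 2 (S : Subgroup G) : Set G) ≤ M
  max : T ∈ maxStraddlingTwoSubgroups M

/-- `Z₀ = Ω₁(Z(J(T)))`. -/
abbrev z0Of (T : Subgroup G) : Subgroup G := omegaCenterOf (thompsonSubgroupOf 2 T)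

/-- The part of `Z₀` centralized by `K`. -/
abbrev hOf (T K : Subgroup G) : Subgroup G := z0Of T ⊓ Subgroup.centralizer (K : Set G)

namespace StraddleCtx

variable {S : Sylow 2 G} {M T : Subgroup G} (c : StraddleCtx S M T)
include c

theorem two : IsPGroup 2 ↥T := c.max.1.1

theorem T_le_M : T ≤ M := c.max.1.2.2.1

theorem T_ne_bot : T ≠ ⊥ := c.max.1.2.1

theorem normalizer_J_le : Subgroup.normalizer (thompsonSubgroupOf 2 T : Set G) ≤ M :=
  normalizer_thompson_le S c.hMJ c.max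

theorem exists_sylow : ∃ P : Sylow 2 G, T ≤ (P : Subgroup G) ∧ (P : Subgroup G) ≤ M ∧
    Subgroup.normalizer (thompsonSubgroupOf 2 (P : Subgroup G) : Set G) ≤ M := by
  haveI : Fact (Nat.Prime 2) := ⟨Nat.prime_two⟩
  have hSM : (S : Subgroup G) ≤ M :=
    (Subgroup.le_normalizer.trans (normalizer_le_thompson (S : Subgroup G))).trans c.hMJ
  have hS : IsSylowTwoIn (S : Subgroup G) M := by
    refine ⟨hSM, S.isPGroup', ?_⟩
    rw [Nat.odd_iff]
    have : ¬ 2 ∣ (S : Subgroup G).relIndex M := fun h =>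
      S.not_dvd_index (h.trans (Subgroup.relIndex_dvd_index_of_le hSM))
    omega
  obtain ⟨m, hm, hmT⟩ := sylow_conj hS c.two c.T_le_M
  have hcoe : ((m⁻¹ • S : Sylow 2 G) : Subgroup G) = (S : Subgroup G).map (MulAut.conj m⁻¹).toMonoidHom := rfl
  refine ⟨m⁻¹ • S, ?_, ?_, ?_⟩
  · rw [hcoe]
    exact fun t ht => ⟨m * t * m⁻¹, hmT t ht, by simp [MulAut.conj_apply, mul_assoc]⟩
  · rw [hcoe]
    rintro _ ⟨y, hy, rfl⟩
    exact M.mul_mem (M.mul_mem (M.inv_mem hm) (hSM hy)) (M.inv_mem (M.inv_mem hm))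
  · rw [hcoe, thompson_map]
    intro g hg
    set φ := (MulAut.conj m⁻¹).toMonoidHom with hφ
    have h1 : m * g * m⁻¹ ∈ Subgroup.normalizer (thompsonSubgroupOf 2 (S : Subgroup G) : Set G) := by
      refine Subgroup.mem_normalizer_fintype fun y hy => ?_
      obtain ⟨y', hy', e⟩ := (Subgroup.mem_normalizer_iff.1 hg (φ y)).1 ⟨y, hy, rfl⟩
      have e' : m * g * m⁻¹ * y * (m * g * m⁻¹)⁻¹ = y' := by
        calc m * g * m⁻¹ * y * (m * g * m⁻¹)⁻¹ = m * (g * φ y * g⁻¹) * m⁻¹ := by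
              rw [hφ]; simp [mul_assoc]
          _ = m * φ y' * m⁻¹ := by rw [e]
          _ = y' := by rw [hφ]; simp [mul_assoc]
      show m * g * m⁻¹ * y * (m * g * m⁻¹)⁻¹ ∈ thompsonSubgroupOf 2 (S : Subgroup G)
      rw [e']; exact hy'
    have := M.mul_mem (M.mul_mem (M.inv_mem hm) (c.hMJ h1)) hm
    rwa [show m⁻¹ * (m * g * m⁻¹) * m = g by group] at this

theorem ctx {L : Subgroup G} (hL : IsTwoLocal L) : LocalCtx L := isTwoLocal_ctx c.char2 c.sol2 c.zn hL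

variable {K : Subgroup G} (hK : IsJComponent T K) (hKM : ¬ K ≤ M)
include hK hKM

theorem sylow_of_le {L : Subgroup G} (hL : IsTwoLocal L) (hKL : K ≤ L) (hTL : T ≤ L) : IsSylowTwoIn T L := by
  obtain ⟨T₁, hTT₁, hT₁⟩ := exists_sylowTwoIn c.two hTL
  obtain ⟨-, -, -, g4, -⟩ := straddle_main c.char2 c.sol2 c.zn S c.hMJ c.max hL
    (fun h => hKM (hKL.trans h)) hT₁ ((thompson_le_self T).trans hTT₁)
  exact (g4 hTL hTT₁).symm ▸ hT₁

theorem eq_of_maximal {L L' : Subgroup G} (hL : IsMaximalTwoLocal L) (hKL : K ⊔ thompsonSubgroupOf 2 T ≤ L)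
    (hL' : IsMaximalTwoLocal L') (hKL' : K ⊔ thompsonSubgroupOf 2 T ≤ L') : L' = L := by
  rw [(maximal_overgroup c.char2 c.sol2 c.zn S c.hMJ c.max hK hKM hL' hKL').1,
    ← (maximal_overgroup c.char2 c.sol2 c.zn S c.hMJ c.max hK hKM hL hKL).1]

theorem le_of_twoLocal {L N : Subgroup G} (hL : IsMaximalTwoLocal L) (hKL : K ⊔ thompsonSubgroupOf 2 T ≤ L)
    (hN : IsTwoLocal N) (hKN : K ⊔ thompsonSubgroupOf 2 T ≤ N) : N ≤ L := by
  obtain ⟨L', hL', hle⟩ := exists_maximalTwoLocal hN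
  exact c.eq_of_maximal hK hKM hL hKL hL' (hKN.trans hle) ▸ hle

theorem cent_le {L : Subgroup G} (hL : IsMaximalTwoLocal L) (hKL : K ⊔ thompsonSubgroupOf 2 T ≤ L)
    {e : G} (he : e ∈ hOf T K) (he1 : e ≠ 1) : Subgroup.centralizer ({e} : Set G) ≤ L := by
  obtain ⟨-, hec, hesq⟩ := mem_omegaCenterOf.1 he.1
  refine c.le_of_twoLocal hK hKM hL hKL (isTwoLocal_centralizer hesq he1) (sup_le ?_ ?_)
  · exact fun y hy => Subgroup.mem_centralizer_singleton_iff.2 (Subgroup.mem_centralizer_iff.1 he.2 y hy)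
  · exact fun y hy => Subgroup.mem_centralizer_singleton_iff.2 (hec y hy)

omit hKM

theorem card_z0_le : Nat.card ↥(z0Of T) ≤ 2 * Nat.card ↥(hOf T K) := by
  obtain ⟨h2, hs⟩ := Cfsg.Agent.S2946.result c.char2 c.sol2 c.zn T c.two c.T_ne_bot K hK (z0Of T) rfl
  set X := K ⊔ thompsonSubgroupOf 2 T with hX
  set A := z0Of T ⊓ (X ⊓ Subgroup.centralizer ((K : Set G) ⊔ (thompsonSubgroupOf 2 T : Set G))) with hA
  set B := z0Of T ⊓ wOf K with hB
  have hAH : A ≤ hOf T K := fun y hy => ⟨hy.1, Subgroup.mem_centralizer_iff.2 fun z hz =>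
    Subgroup.mem_centralizer_iff.1 hy.2.2 z (Or.inl hz)⟩
  have hn : A ≤ Subgroup.normalizer (B : Set G) := fun y hy => Subgroup.mem_normalizer_fintype fun z hz => by
    show y * z * y⁻¹ ∈ B
    rw [(mem_omegaCenterOf.1 hz.1).2.1 y (mem_omegaCenterOf.1 hy.1).1, mul_inv_cancel_right]; exact hz
  have e := CfsgLib.ZJ.card_sup_mul_card_inf_of_le_normalizer hn
  rw [hs, h2] at e
  calc Nat.card ↥(z0Of T) ≤ Nat.card ↥(z0Of T) * Nat.card ↥(A ⊓ B) := Nat.le_mul_of_pos_right _ Nat.card_pos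
    _ = Nat.card ↥A * 2 := e
    _ ≤ 2 * Nat.card ↥(hOf T K) := by rw [mul_comm]; exact Nat.mul_le_mul_left 2 (Subgroup.card_le_of_le hAH)

theorem exists_w : ∃ w ∈ z0Of T ⊓ wOf K, w ≠ 1 := by
  obtain ⟨h2, -⟩ := Cfsg.Agent.S2946.result c.char2 c.sol2 c.zn T c.two c.T_ne_bot K hK (z0Of T) rfl
  refine (Subgroup.bot_or_exists_ne_one _).resolve_left fun h => ?_
  rw [h, Subgroup.card_bot] at h2
  omega

theorem conj_component {g : G} (hgJ : g ∈ Subgroup.normalizer (thompsonSubgroupOf 2 T : Set G)) :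
    IsJComponent T (K.map (MulAut.conj g).toMonoidHom) := by
  refine IsJComponent.of_J_eq ?_ (IsJComponent.map (MulAut.conj g) hK)
  rw [thompson_map]
  exact (Subgroup.mem_normalizer_iff_map_conj_eq.1 hgJ).symm

omit hK

theorem conj_not_le {g : G} (hgM : g ∈ M) (hKM : ¬ K ≤ M) : ¬ K.map (MulAut.conj g).toMonoidHom ≤ M := by
  intro h
  refine hKM fun y hy => ?_
  have := M.mul_mem (M.mul_mem (M.inv_mem hgM) (h ⟨y, hy, rfl⟩)) hgM
  simpa [mul_assoc] using this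

theorem conj_max_eq (hK : IsJComponent T K) (hKM : ¬ K ≤ M) {L : Subgroup G} (hL : IsMaximalTwoLocal L)
    (hKL : K ⊔ thompsonSubgroupOf 2 T ≤ L) {y : G}
    (hyJ : y ∈ Subgroup.normalizer (thompsonSubgroupOf 2 T : Set G))
    (hyK : K.map (MulAut.conj y).toMonoidHom ≤ L) : L.map (MulAut.conj y).toMonoidHom = L := by
  set φ := (MulAut.conj y).toMonoidHom with hφ
  have hmapN : ∀ (P : Subgroup G) (z : G), (Subgroup.normalizer (P : Set G)).map (MulAut.conj z).toMonoidHom =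
      Subgroup.normalizer (P.map (MulAut.conj z).toMonoidHom : Set G) := fun P z =>
    Subgroup.map_equiv_normalizer_eq P (MulAut.conj z)
  obtain ⟨⟨P, hP, hP1, hLP⟩, hmax⟩ := id hL
  refine c.eq_of_maximal (c.conj_component hK hyJ) (c.conj_not_le (c.normalizer_J_le hyJ) hKM) hL
    (sup_le hyK (le_sup_right.trans hKL)) ⟨⟨P.map φ, hP.map φ, fun h => hP1 ((Subgroup.map_eq_bot_iff_of_injective _
      (MulAut.conj y).injective).1 h), by rw [hLP, hφ, hmapN]⟩, fun N hN hle => ?_⟩ ?_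
  · obtain ⟨Q, hQ, hQ1, rfl⟩ := hN
    have h1 : L ≤ Subgroup.normalizer (Q.map (MulAut.conj y⁻¹).toMonoidHom : Set G) := by
      rw [← hmapN]
      intro l hl
      exact ⟨φ l, hle ⟨l, hl, rfl⟩, by simp [hφ, mul_assoc]⟩
    have h2 := hmax _ ⟨_, hQ.map _, fun h => hQ1 ((Subgroup.map_eq_bot_iff_of_injective _
      (MulAut.conj y⁻¹).injective).1 h), rfl⟩ h1
    refine le_antisymm (fun z hz => ⟨y⁻¹ * z * y, ?_, by simp [hφ, mul_assoc]⟩) hle
    rw [← h2, ← hmapN]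
    exact ⟨z, hz, by simp [mul_assoc]⟩
  · refine sup_le (Subgroup.map_mono (le_sup_left.trans hKL)) fun j hj => ?_
    have hj' : y⁻¹ * j * y⁻¹⁻¹ ∈ thompsonSubgroupOf 2 T :=
      (Subgroup.mem_normalizer_iff.1 (Subgroup.inv_mem _ hyJ) j).1 hj
    exact ⟨y⁻¹ * j * y⁻¹⁻¹, hKL (Subgroup.mem_sup_right hj'), by simp [hφ, mul_assoc]⟩

theorem disjoint_conj (hK : IsJComponent T K) (hKM : ¬ K ≤ M) {K' : Subgroup G} (hK' : IsJComponent T K')
    (hKM' : ¬ K' ≤ M) {L : Subgroup G} (hL : IsMaximalTwoLocal L) (hKL : K ⊔ thompsonSubgroupOf 2 T ≤ L)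
    (hKL' : K' ⊔ thompsonSubgroupOf 2 T ≤ L) {x : G}
    (hxJ : x ∈ Subgroup.normalizer (thompsonSubgroupOf 2 T : Set G)) (hxL : x ∉ L)
    {e : G} (he : e ∈ hOf T K') (he' : x * e * x⁻¹ ∈ hOf T K) : e = 1 := by
  by_contra he1
  have hxM := c.normalizer_J_le hxJ
  have hcle := c.cent_le hK' hKM' hL hKL' he he1
  have hxJ' : x⁻¹ ∈ Subgroup.normalizer (thompsonSubgroupOf 2 T : Set G) := Subgroup.inv_mem _ hxJ
  have hKc : K.map (MulAut.conj x⁻¹).toMonoidHom ≤ L := by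
    rintro _ ⟨y, hy, rfl⟩
    refine hcle (Subgroup.mem_centralizer_singleton_iff.2 ?_)
    have := conj_comm x⁻¹ (Subgroup.mem_centralizer_iff.1 he'.2 y hy)
    rw [show x⁻¹ * (x * e * x⁻¹) * x⁻¹⁻¹ = e by group] at this
    simpa using this
  refine hxL ?_
  have h1 := normalizer_maximalTwoLocal hL
    (Subgroup.mem_normalizer_iff_map_conj_eq.2 (c.conj_max_eq hK hKM hL hKL hxJ' hKc) : x⁻¹ ∈ _)
  simpa using L.inv_mem h1

theorem card_sq_le (hK : IsJComponent T K) (hKM : ¬ K ≤ M) {L : Subgroup G} (hL : IsMaximalTwoLocal L)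
    (hKL : K ⊔ thompsonSubgroupOf 2 T ≤ L) {x : G}
    (hxJ : x ∈ Subgroup.normalizer (thompsonSubgroupOf 2 T : Set G)) (hxL : x ∉ L) :
    Nat.card ↥(hOf T K) ≤ 2 ∧ Nat.card ↥(z0Of T) ≤ 4 := by
  have hinj : Function.Injective (fun p : ↥(hOf T K) × ↥(hOf T K) =>
      (⟨(p.1 : G) * (x * (p.2 : G) * x⁻¹),
        (z0Of T).mul_mem p.1.2.1 (conj_mem_omegaCenterOf hxJ p.2.2.1)⟩ : ↥(z0Of T))) := by
    rintro ⟨⟨a, ha⟩, ⟨b, hb⟩⟩ ⟨⟨a', ha'⟩, ⟨b', hb'⟩⟩ e
    have e' : a * (x * b * x⁻¹) = a' * (x * b' * x⁻¹) := congrArg Subtype.val e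
    have e2 : x * (b * b'⁻¹) * x⁻¹ = a⁻¹ * a' := by
      calc x * (b * b'⁻¹) * x⁻¹ = a⁻¹ * (a * (x * b * x⁻¹)) * (x * b' * x⁻¹)⁻¹ := by group
        _ = a⁻¹ * a' := by rw [e']; group
    have h1 := c.disjoint_conj hK hKM hK hKM hL hKL hKL hxJ hxL
      ((hOf T K).mul_mem hb ((hOf T K).inv_mem hb')) (e2 ▸ (hOf T K).mul_mem ((hOf T K).inv_mem ha) ha')
    rw [h1] at e2
    exact Prod.ext (Subtype.ext (inv_mul_eq_one.1 (by rw [← e2]; group))) (Subtype.ext (mul_inv_eq_one.1 h1))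
  have h1 := Nat.card_le_card_of_injective _ hinj
  rw [Nat.card_prod] at h1
  have h2 := c.card_z0_le hK
  have h3 : Nat.card ↥(hOf T K) ≤ 2 := Nat.le_of_mul_le_mul_right (h1.trans h2) Nat.card_pos
  exact ⟨h3, h2.trans (by omega)⟩

theorem no_two {L : Subgroup G} (hL : IsMaximalTwoLocal L) (hTL : IsSylowTwoIn T L)
    (hK : IsJComponent T K) (hKM : ¬ K ≤ M) (hKL : K ≤ L) {K' : Subgroup G} (hK' : IsJComponent T K')
    (hKM' : ¬ K' ≤ M) (hKL' : K' ≤ L) (hne : K' ≠ K) {x : G}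
    (hxJ : x ∈ Subgroup.normalizer (thompsonSubgroupOf 2 T : Set G)) (hxL : x ∉ L) : False := by
  classical
  have hJL : thompsonSubgroupOf 2 T ≤ L := (thompson_le_self T).trans hTL.1
  have hX := sup_le hKL hJL
  have hX' := sup_le hKL' hJL
  obtain ⟨w, ⟨hwZ, hwW⟩, hw1⟩ := c.exists_w hK
  obtain ⟨w', ⟨hwZ', hwW'⟩, hw1'⟩ := c.exists_w hK'
  have cx := c.ctx hL.1
  have hw' : w' ∈ hOf T K := ⟨hwZ', Subgroup.mem_centralizer_iff.2 fun y hy =>
    (component_cent cx hTL c.T_ne_bot hK hKL hTL c.T_ne_bot hK' hKL' hne w' hwW' y hy).symm⟩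
  have hw : w ∈ hOf T K' := ⟨hwZ, Subgroup.mem_centralizer_iff.2 fun y hy =>
    (component_cent cx hTL c.T_ne_bot hK' hKL' hTL c.T_ne_bot hK hKL (Ne.symm hne) w hwW y hy).symm⟩
  have hww : w ≠ w' := fun e => hne (component_unique cx hTL c.T_ne_bot hK hKL hTL c.T_ne_bot hK' hKL'
    fun h => hw1 (Subgroup.mem_bot.1 (h.le ⟨hwW, e ▸ hwW'⟩)))
  have hn1 : x * w * x⁻¹ ≠ w := fun e =>
    hw1 (c.disjoint_conj hK' hKM' hK' hKM' hL hX' hX' hxJ hxL hw (e.symm ▸ hw))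
  have hn2 : x * w * x⁻¹ ≠ w' := fun e =>
    hw1 (c.disjoint_conj hK hKM hK' hKM' hL hX hX' hxJ hxL hw (e.symm ▸ hw'))
  have hn3 : x * w' * x⁻¹ ≠ w := fun e =>
    hw1' (c.disjoint_conj hK' hKM' hK hKM hL hX' hX hxJ hxL hw' (e.symm ▸ hw))
  have hn4 : x * w' * x⁻¹ ≠ w' := fun e =>
    hw1' (c.disjoint_conj hK hKM hK hKM hL hX hX hxJ hxL hw' (e.symm ▸ hw'))
  have hsub : ({1, w, w', x * w * x⁻¹, x * w' * x⁻¹} : Set G) ⊆ (z0Of T : Set G) := by
    intro y hy
    simp only [Set.mem_insert_iff, Set.mem_singleton_iff] at hy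
    rcases hy with rfl | rfl | rfl | rfl | rfl
    exacts [(z0Of T).one_mem, hwZ, hwZ', conj_mem_omegaCenterOf hxJ hwZ, conj_mem_omegaCenterOf hxJ hwZ']
  have hcard := Set.ncard_le_ncard hsub (Set.toFinite _)
  rw [Set.ncard_insert_of_notMem (by
      simp only [Set.mem_insert_iff, Set.mem_singleton_iff, not_or]
      refine ⟨Ne.symm hw1, Ne.symm hw1', fun e => hw1 ?_, fun e => hw1' ?_⟩
      · calc w = x⁻¹ * (x * w * x⁻¹) * x := by group
          _ = 1 := by rw [← e]; group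
      · calc w' = x⁻¹ * (x * w' * x⁻¹) * x := by group
          _ = 1 := by rw [← e]; group),
    Set.ncard_insert_of_notMem (by
      simp only [Set.mem_insert_iff, Set.mem_singleton_iff, not_or]
      exact ⟨hww, Ne.symm hn1, Ne.symm hn3⟩),
    Set.ncard_insert_of_notMem (by
      simp only [Set.mem_insert_iff, Set.mem_singleton_iff, not_or]
      exact ⟨Ne.symm hn2, Ne.symm hn4⟩),
    Set.ncard_pair (fun e => hww (mul_left_cancel (mul_right_cancel e)))] at hcard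
  have h4 : (z0Of T : Set G).ncard ≤ 4 := (c.card_sq_le hK hKM hL hX hxJ hxL).2
  omega

theorem not_mem_sylow {L : Subgroup G} (hTL : IsSylowTwoIn T L) {P : Subgroup G} (hP : IsPGroup 2 ↥P)
    (hTP : T ≤ P) {x : G} (hx : x ∈ P) (hxT : x ∉ T) : x ∉ L := by
  intro hxL
  obtain ⟨l, hl, hmem⟩ := sylow_conj hTL (hP.to_le (inf_le_left : P ⊓ L ≤ P)) inf_le_right
  have h1 : Nat.card ↥(P ⊓ L) ≤ Nat.card ↥T := by
    rw [← Subgroup.card_map_of_injective (K := P ⊓ L) (f := (MulAut.conj l).toMonoidHom) (MulAut.conj l).injective]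
    refine Subgroup.card_le_of_le ?_
    rintro _ ⟨y, hy, rfl⟩
    exact hmem y hy
  have h2 := Subgroup.eq_of_le_of_card_ge (le_inf hTP hTL.1 : T ≤ P ⊓ L) h1
  exact hxT (h2 ▸ ⟨hx, hxL⟩)

theorem normalizes (hK : IsJComponent T K) (hKM : ¬ K ≤ M) {L : Subgroup G} (hL : IsMaximalTwoLocal L)
    (hTL : IsSylowTwoIn T L) (hKL : K ≤ L) {x : G}
    (hxJ : x ∈ Subgroup.normalizer (thompsonSubgroupOf 2 T : Set G)) (hxL : x ∉ L) :
    T ≤ Subgroup.normalizer (K : Set G) := by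
  intro t ht
  have htJ := normalizer_le_thompson T (Subgroup.le_normalizer ht)
  refine Subgroup.mem_normalizer_iff_map_conj_eq.2 (Classical.byContradiction fun h => ?_)
  refine c.no_two hL hTL hK hKM hKL (c.conj_component hK htJ) (c.conj_not_le (c.T_le_M ht) hKM) ?_ h hxJ hxL
  rintro _ ⟨y, hy, rfl⟩
  exact L.mul_mem (L.mul_mem (hTL.1 ht) (hKL hy)) (L.inv_mem (hTL.1 ht))

/-- The amalgam hypotheses for a component and an element of `N_M(T)` outside `T`. -/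
theorem pairCtx (hK : IsJComponent T K) (hKM : ¬ K ≤ M) {L : Subgroup G} (hL : IsMaximalTwoLocal L)
    (hTL : IsSylowTwoIn T L) (hKL : K ≤ L) {x : G} (hxT : ∀ t ∈ T, x * t * x⁻¹ ∈ T) (hx2 : x * x ∈ T)
    (hxL : x ∉ L) : PairCtx T K x ∧ Nat.card ↥(omegaCenterOf T) ≤ 4 := by
  have hxN : x ∈ Subgroup.normalizer (T : Set G) := Subgroup.mem_normalizer_fintype fun t ht => hxT t ht
  have hxJ := normalizer_le_thompson T hxN
  have hxM := c.normalizer_J_le hxJ
  have hJL : thompsonSubgroupOf 2 T ≤ L := (thompson_le_self T).trans hTL.1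
  have hX := sup_le hKL hJL
  obtain ⟨hH2, hZ4⟩ := c.card_sq_le hK hKM hL hX hxJ hxL
  have hTK := c.normalizes hK hKM hL hTL hKL hxJ hxL
  have hcore : pCoreOf 2 K ≤ T := by
    have hn : T ≤ Subgroup.normalizer (pCoreOf 2 K : Set G) := fun t ht =>
      Subgroup.mem_normalizer_fintype fun y hy =>
        conj_mem_pCoreOf (fun k hk => (Subgroup.mem_normalizer_iff.1 (hTK ht) k).1 hk) hy
    have hp : IsPGroup 2 ↥(T ⊔ pCoreOf 2 K) := c.two.to_sup_of_normal_right' (isPGroup_pCoreOf K) hn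
    intro y hy
    by_contra hne
    exact c.not_mem_sylow hTL hp le_sup_left (Subgroup.mem_sup_right hy) hne (hKL (pCoreOf_le K hy))
  refine ⟨⟨c.two, hK, hTK, hcore, hxT, hx2, fun R hR hKR hTR hxR => ?_, ?_⟩,
    (Subgroup.card_le_of_le (omegaCenterOf_le T)).trans hZ4⟩
  · by_contra hR1
    exact hxL (c.le_of_twoLocal hK hKM hL hX ⟨R, hR, hR1, rfl⟩
      (sup_le hKR ((thompson_le_self T).trans hTR)) hxR)
  intro h hhT hh1 hPh hxh g hg
  set u := x * h * x⁻¹ with hu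
  have hhsq : h * h = 1 := by
    have h1 := hK.2.2.2.2.2 u hxh
    calc h * h = x⁻¹ * (u * u) * x := by rw [hu]; group
      _ = 1 := by rw [h1]; group
  have hhZ : h ∈ z0Of T := omegaCenterOf_le T (mem_omegaCenterOf.2
    ⟨hhT, fun y hy => hPh y (Subgroup.mem_sup_right hy), hhsq⟩)
  have hhH : h ∈ hOf T K := ⟨hhZ, Subgroup.mem_centralizer_iff.2 fun y hy => hPh y (Subgroup.mem_sup_left hy)⟩
  have cx := c.ctx hL.1
  -- the conjugate component
  set K₂ := K.map (MulAut.conj x).toMonoidHom with hK₂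
  have hK₂c := c.conj_component hK hxJ
  have hK₂M := c.conj_not_le hxM hKM
  obtain ⟨L₂, hL₂, hle₂⟩ : ∃ L₂, IsMaximalTwoLocal L₂ ∧ Subgroup.centralizer ({u} : Set G) ≤ L₂ := by
    refine exists_maximalTwoLocal (isTwoLocal_centralizer (hK.2.2.2.2.2 u hxh) fun e => hh1 ?_)
    calc h = x⁻¹ * u * x := by rw [hu]; group
      _ = 1 := by rw [e]; group
  have hK₂L₂ : K₂ ≤ L₂ := by
    rintro _ ⟨y, hy, rfl⟩
    refine hle₂ (Subgroup.mem_centralizer_singleton_iff.2 ?_)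
    show x * y * x⁻¹ * u = u * (x * y * x⁻¹)
    exact conj_comm x (hPh y (Subgroup.mem_sup_left hy))
  have hTu : T ≤ L₂ := fun t ht => hle₂ (Subgroup.mem_centralizer_singleton_iff.2 (by
    have h1 : x⁻¹ * t * x ∈ T := by
      have := T.mul_mem (T.mul_mem (T.inv_mem hx2) (hxT t ht)) hx2
      rwa [show (x * x)⁻¹ * (x * t * x⁻¹) * (x * x) = x⁻¹ * t * x by group] at this
    have := conj_comm x (hPh _ (Subgroup.mem_sup_right h1))
    rwa [show x * (x⁻¹ * t * x) * x⁻¹ = t by group] at this))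
  have hTL₂ := c.sylow_of_le hK₂c hK₂M hL₂.1 hK₂L₂ hTu
  have hW2h : h ∈ wOf K₂ := by
    rw [hK₂, wOf_map]
    refine ⟨u, hxh, ?_⟩
    show x * u * x⁻¹ = h
    rw [hu, show x * (x * h * x⁻¹) * x⁻¹ = (x * x) * h * (x * x)⁻¹ by group,
      hPh _ (Subgroup.mem_sup_right hx2), mul_inv_cancel_right]
  -- `K` is the only component of `L`
  have honly : ∀ K', IsJComponent T K' → K' ≤ L → K' = K := by
    intro K' hK' hKL'
    by_contra hne
    obtain ⟨w', ⟨hwZ', hwW'⟩, hw1'⟩ := c.exists_w hK'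
    have hwH : w' ∈ hOf T K := ⟨hwZ', Subgroup.mem_centralizer_iff.2 fun y hy =>
      (component_cent cx hTL c.T_ne_bot hK hKL hTL c.T_ne_bot hK' hKL' hne w' hwW' y hy).symm⟩
    have hwh : w' = h := by
      by_contra hne'
      have hsub : ({1, h, w'} : Set G) ⊆ (hOf T K : Set G) := by
        intro y hy
        simp only [Set.mem_insert_iff, Set.mem_singleton_iff] at hy
        rcases hy with rfl | rfl | rfl
        exacts [(hOf T K).one_mem, hhH, hwH]
      have h1 := Set.ncard_le_ncard hsub (Set.toFinite _)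
      rw [Set.ncard_insert_of_notMem (by
          simp only [Set.mem_insert_iff, Set.mem_singleton_iff, not_or]
          exact ⟨Ne.symm hh1, Ne.symm hw1'⟩),
        Set.ncard_pair (Ne.symm hne')] at h1
      have h2 : (hOf T K : Set G).ncard ≤ 2 := hH2
      omega
    have hKL₂ : K' ≤ L₂ := fun y hy => hle₂ (Subgroup.mem_centralizer_singleton_iff.2
      (component_cent cx hTL c.T_ne_bot hK' hKL' hTL c.T_ne_bot hK hKL (Ne.symm hne) u hxh y hy).symm)
    have he : K₂ = K' := component_unique (c.ctx hL₂.1) hTL₂ c.T_ne_bot hK' hKL₂ hTL₂ c.T_ne_bot hK₂c hK₂L₂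
      fun hb => hh1 (Subgroup.mem_bot.1 (hb.le ⟨hwh ▸ hwW', hW2h⟩))
    refine hxL ?_
    have hmaxL : L.map (MulAut.conj x).toMonoidHom = L := c.conj_max_eq hK hKM hL hX hxJ (he.le.trans hKL')
    exact normalizer_maximalTwoLocal hL (Subgroup.mem_normalizer_iff_map_conj_eq.2 hmaxL)
  have hLK : L ≤ Subgroup.normalizer (K : Set G) := by
    refine frattini_thompson hTL (J_normalizes_component cx hTL c.T_ne_bot hK hKL) fun y hy => ?_
    refine Subgroup.mem_normalizer_iff_map_conj_eq.2 (honly _ (c.conj_component hK hy.2) ?_)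
    rintro _ ⟨k, hk, rfl⟩
    exact L.mul_mem (L.mul_mem hy.1 (hKL hk)) (L.inv_mem hy.1)
  have hgL : ∀ y ∈ K ⊔ T, g * y * g⁻¹ ∈ L := fun y hy =>
    c.cent_le hK hKM hL hX hhH hh1 (Subgroup.mem_centralizer_singleton_iff.2 (hg y hy))
  obtain ⟨l, hl, hmem⟩ := sylow_conj hTL (c.two.map (MulAut.conj g).toMonoidHom)
    (by rintro _ ⟨t, ht, rfl⟩; exact hgL t (Subgroup.mem_sup_right ht))
  have hmap : T.map (MulAut.conj (l * g)).toMonoidHom = T := by
    refine Subgroup.eq_of_le_of_card_ge ?_ (Subgroup.card_map_of_injective (MulAut.conj (l * g)).injective).ge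
    rintro _ ⟨t, ht, rfl⟩
    simpa [mul_assoc] using hmem _ ⟨t, ht, rfl⟩
  have hlgJ : l * g ∈ Subgroup.normalizer (thompsonSubgroupOf 2 T : Set G) :=
    normalizer_le_thompson T (Subgroup.mem_normalizer_iff_map_conj_eq.2 hmap)
  have h5 : l * g ∈ Subgroup.normalizer (K : Set G) := by
    refine Subgroup.mem_normalizer_iff_map_conj_eq.2 (honly _ (c.conj_component hK hlgJ) ?_)
    rintro _ ⟨k, hk, rfl⟩
    have := L.mul_mem (L.mul_mem hl (hgL k (Subgroup.mem_sup_left hk))) (L.inv_mem hl)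
    simpa [mul_assoc] using this
  have := Subgroup.mul_mem _ (Subgroup.inv_mem _ (hLK hl)) h5
  rwa [inv_mul_cancel_left] at this

end StraddleCtx

end CfsgLib.JComp
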