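import Cfsg.Agent.JComp.Side

/-!
Two components over one 2-group `T`, with no nontrivial 2-group normalised by both: words in the two
subgroups `⟨Kᵢ, T⟩` and the first noncommuting pair of conjugates of the subgroups `Wᵢ`.
-/

set_option autoImplicit false
open Cfsg

namespace CfsgLib.JComp

variable {G : Type*} [Group G] [Finite G]

/-- The side reached after `n` steps. -/
def endAt (s : Bool) : ℕ → Bool
  | 0 => s
  | n + 1 => !(endAt s n)

theorem endAt_not (s : Bool) : ∀ n, endAt (!s) n = !(endAt s n)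
  | 0 => rfl
  | n + 1 => by simp [endAt, endAt_not s n]

theorem endAt_inv (s : Bool) : ∀ n, endAt (endAt s n) n = s
  | 0 => rfl
  | n + 1 => by simp [endAt, endAt_not, endAt_inv s n]

theorem endAt_add (s : Bool) (n : ℕ) : ∀ m, endAt s (n + m) = endAt (endAt s n) m
  | 0 => rfl
  | m + 1 => by
    show (!(endAt s (n + m))) = !(endAt (endAt s n) m)
    rw [endAt_add s n m]

/-- The alternating products starting on side `s`. -/
def walk (T : Subgroup G) (K : Bool → Subgroup G) (s : Bool) : ℕ → Set G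
  | 0 => ((K s ⊔ T : Subgroup G) : Set G)
  | n + 1 => {g | ∃ g₁ ∈ walk T K s n, ∃ p ∈ K (endAt s (n + 1)) ⊔ T, g = g₁ * p}

/-- The subgroups `W` at distance `n` commute. -/
def WalkComm (T : Subgroup G) (K : Bool → Subgroup G) (n : ℕ) : Prop :=
  ∀ (s : Bool), ∀ g ∈ walk T K s n, ∀ a ∈ wOf (K s), ∀ b ∈ wOf (K (endAt s n)),
    a * (g * b * g⁻¹) = g * b * g⁻¹ * a

/-- Two components normalised by `T`, their fixed points, and no common 2-subgroup. -/
structure Pair2 (T : Subgroup G) (K : Bool → Subgroup G) (u : Bool → G) : Prop where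
  side : ∀ i, SideCtx T (K i)
  mem : ∀ i, u i ∈ wOf (K i)
  ne_one : ∀ i, u i ≠ 1
  fixT : ∀ i, ∀ t ∈ T, t * u i = u i * t
  nob : ∀ R : Subgroup G, IsPGroup 2 ↥R → (∀ i, K i ≤ Subgroup.normalizer (R : Set G)) →
    T ≤ Subgroup.normalizer (R : Set G) → R = ⊥

namespace Pair2

variable {T : Subgroup G} {K : Bool → Subgroup G} {u : Bool → G} (c : Pair2 T K u)
include c

theorem W_T {i : Bool} {w : G} (hw : w ∈ wOf (K i)) : w ∈ T := (mem_qOf.1 ((c.side i).W_le_Q hw)).1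

theorem conjWT {i : Bool} {t w : G} (ht : t ∈ T) (hw : w ∈ wOf (K i)) : t * w * t⁻¹ ∈ wOf (K i) :=
  (c.side i).conjW (Subgroup.mem_sup_right ht) hw

theorem cent_u {i : Bool} {t : G} (ht : t ∈ T) : t * u i * t⁻¹ = u i := by
  rw [c.fixT i t ht, mul_inv_cancel_right]

theorem val {i : Bool} {t w : G} (ht : t ∈ T) (hw : w ∈ wOf (K i)) :
    t * w * t⁻¹ * w⁻¹ = 1 ∨ t * w * t⁻¹ * w⁻¹ = u i :=
  (c.side i).comm_val (c.mem i) (c.ne_one i) (c.fixT i) ht hw

theorem val_ne {i : Bool} {t w : G} (ht : t ∈ T) (hw : w ∈ wOf (K i)) (hne : w * t ≠ t * w) :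
    t * w * t⁻¹ * w⁻¹ = u i ∧ w * t * w⁻¹ * t⁻¹ = u i := by
  rcases c.val ht hw with e | e
  · rw [mul_inv_eq_one, mul_inv_eq_iff_eq_mul] at e
    exact absurd e.symm hne
  · exact ⟨e, by rw [show w * t * w⁻¹ * t⁻¹ = (t * w * t⁻¹ * w⁻¹)⁻¹ by group, e, (c.side i).W_inv (c.mem i)]⟩

omit c

theorem walk_one {s : Bool} : (1 : G) ∈ walk T K s 0 := (K s ⊔ T).one_mem

theorem walk_cons {s : Bool} {p : G} (hp : p ∈ K s ⊔ T) : ∀ {n : ℕ} {g : G}, g ∈ walk T K (!s) n →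
    p * g ∈ walk T K s (n + 1)
  | 0, g, hg => ⟨p, hp, g, hg, rfl⟩
  | n + 1, g, hg => by
    obtain ⟨g₁, hg₁, q, hq, rfl⟩ := hg
    refine ⟨p * g₁, walk_cons hp hg₁, q, ?_, by group⟩
    rw [endAt_not] at hq
    exact hq

theorem walk_cons' {s : Bool} {p : G} (hp : p ∈ K (!s) ⊔ T) {n : ℕ} {g : G} (hg : g ∈ walk T K s n) :
    p * g ∈ walk T K (!s) (n + 1) :=
  walk_cons hp (by rwa [Bool.not_not])

theorem walk_right {s : Bool} {n : ℕ} {g p : G} (hp : p ∈ K (endAt s n) ⊔ T) (hg : g ∈ walk T K s n) :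
    g * p ∈ walk T K s n := by
  cases n with
  | zero => exact (K s ⊔ T).mul_mem hg hp
  | succ n =>
    obtain ⟨g₁, hg₁, q, hq, rfl⟩ := hg
    exact ⟨g₁, hg₁, q * p, (K (endAt s (n + 1)) ⊔ T).mul_mem hq hp, by group⟩

theorem walk_left {s : Bool} {p : G} (hp : p ∈ K s ⊔ T) : ∀ {n : ℕ} {g : G}, g ∈ walk T K s n →
    p * g ∈ walk T K s n
  | 0, _, hg => (K s ⊔ T).mul_mem hp hg
  | n + 1, g, hg => by
    obtain ⟨g₁, hg₁, q, hq, rfl⟩ := hg
    exact ⟨p * g₁, walk_left hp hg₁, q, hq, by group⟩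

theorem walk_inv : ∀ {n : ℕ} {s : Bool} {g : G}, g ∈ walk T K s n → g⁻¹ ∈ walk T K (endAt s n) n
  | 0, s, _, hg => (K s ⊔ T).inv_mem hg
  | n + 1, s, g, hg => by
    obtain ⟨g₁, hg₁, q, hq, rfl⟩ := hg
    rw [mul_inv_rev]
    exact walk_cons' (Subgroup.inv_mem _ hq) (walk_inv hg₁)

theorem walk_mul {s : Bool} {n : ℕ} {g : G} (hg : g ∈ walk T K s n) : ∀ {m : ℕ} {g' : G},
    g' ∈ walk T K (endAt s n) m → g * g' ∈ walk T K s (n + m)
  | 0, _, hg' => walk_right hg' hg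
  | m + 1, g', hg' => by
    obtain ⟨g₁, hg₁, q, hq, rfl⟩ := hg'
    refine ⟨g * g₁, walk_mul hg hg₁, q, ?_, by group⟩
    show q ∈ K (endAt s (n + (m + 1))) ⊔ T
    rwa [endAt_add]

theorem walk_split : ∀ {i : ℕ} {s : Bool} {g : G}, g ∈ walk T K s i →
    ∃ g₄, ∃ p ∈ K (endAt s i) ⊔ T, g = g₄ * p ∧ ∀ k ∈ K (!s) ⊔ T, k * g₄ ∈ walk T K s (i + 1)
  | 0, s, g, hg => ⟨1, g, hg, by rw [one_mul], fun k hk => ⟨1, walk_one, k, hk, by group⟩⟩
  | i + 1, s, g, hg => by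
    obtain ⟨g₁, hg₁, q, hq, rfl⟩ := hg
    refine ⟨g₁, q, hq, rfl, fun k hk => ?_⟩
    have := walk_cons (K s ⊔ T).one_mem (walk_cons' hk hg₁)
    rwa [one_mul] at this

theorem walk_head : ∀ {n : ℕ} {s : Bool} {g : G}, g ∈ walk T K s (n + 1) →
    ∃ g', g' ∈ walk T K (!s) n ∧ ∃ r ∈ K s ⊔ T, g = r * g'
  | 0, s, g, hg => by
    obtain ⟨g₁, hg₁, p, hp, rfl⟩ := hg
    exact ⟨p, hp, g₁, hg₁, rfl⟩
  | n + 1, s, g, hg => by
    obtain ⟨g₁, hg₁, p, hp, rfl⟩ := hg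
    obtain ⟨g', hg', r, hr, rfl⟩ := walk_head hg₁
    refine ⟨g' * p, ⟨g', hg', p, ?_, rfl⟩, r, hr, by group⟩
    rw [endAt_not]
    exact hp

include c

theorem not_all_comm : ∃ n, ¬ WalkComm T K n := by
  by_contra h
  push Not at h
  set S₀ : Set G := {y | ∃ n, ∃ g ∈ walk T K false n, ∃ b ∈ wOf (K (endAt false n)), g * b * g⁻¹ = y} with hS₀
  set R := Subgroup.closure S₀ with hR
  have hgen : ∀ y ∈ S₀, ∀ z ∈ S₀, y * z = z * y := by
    rintro _ ⟨n, g, hg, b, hb, rfl⟩ _ ⟨m, g', hg', b', hb', rfl⟩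
    have hg'' : g⁻¹ * g' ∈ walk T K (endAt false n) (n + m) :=
      walk_mul (walk_inv hg) (by rw [endAt_inv]; exact hg')
    have := conj_comm g (h _ _ _ hg'' b hb b' (by rw [endAt_add, endAt_inv]; exact hb'))
    rwa [show g * (g⁻¹ * g' * b' * (g⁻¹ * g')⁻¹) * g⁻¹ = g' * b' * g'⁻¹ by group] at this
  have hR1 : R ≤ Subgroup.centralizer S₀ := by
    rw [hR, Subgroup.closure_le]
    exact fun y hy => Subgroup.mem_centralizer_iff.2 fun z hz => hgen z hz y hy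
  have hR2 : R ≤ Subgroup.centralizer (R : Set G) := by
    conv_lhs => rw [hR]
    rw [Subgroup.closure_le]
    exact fun y hy => Subgroup.mem_centralizer_iff.2 fun z hz =>
      (Subgroup.mem_centralizer_iff.1 (hR1 hz) y hy).symm
  have hsq : ∀ y ∈ R, y * y = 1 := by
    intro y hy
    induction hy using Subgroup.closure_induction with
    | mem y hy =>
      obtain ⟨m, g, hg, b, hb, rfl⟩ := hy
      rw [show g * b * g⁻¹ * (g * b * g⁻¹) = g * (b * b) * g⁻¹ by group, (c.side _).W_sq hb]; group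
    | one => simp
    | mul a b ha hb iha ihb =>
      rw [show a * b * (a * b) = a * (b * a) * b by group, Subgroup.mem_centralizer_iff.1 (hR2 ha) b hb,
        show a * (a * b) * b = (a * a) * (b * b) by group, iha, ihb, mul_one]
    | inv a _ iha => rw [← mul_inv_rev, iha, inv_one]
  have hnorm : ∀ p : G, (∀ n, ∀ g ∈ walk T K false n,
      ∃ m, p * g ∈ walk T K false m ∧ endAt false m = endAt false n) →
      p ∈ Subgroup.normalizer (R : Set G) := by
    intro p hp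
    refine Subgroup.mem_normalizer_fintype fun y hy => ?_
    have hle : R ≤ R.comap (MulAut.conj p).toMonoidHom := by
      conv_lhs => rw [hR]
      rw [Subgroup.closure_le]
      rintro _ ⟨n, g, hg, b, hb, rfl⟩
      obtain ⟨m, hm, he⟩ := hp n g hg
      exact Subgroup.subset_closure ⟨m, p * g, hm, b, by rw [he]; exact hb, by simp [mul_assoc]⟩
    exact hle hy
  refine (c.side false).W_ne_bot (eq_bot_iff.2 ?_)
  rw [← c.nob R (fun y => ⟨1, Subtype.ext (by rw [SubmonoidClass.coe_pow, pow_one, pow_two]; exact hsq y y.2)⟩)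
    (fun i p hp => hnorm p fun n g hg => ?_)
    (fun p hp => hnorm p fun n g hg => ⟨n, walk_left (Subgroup.mem_sup_right hp) hg, rfl⟩)]
  · exact fun w hw => Subgroup.subset_closure ⟨0, 1, walk_one, w, hw, by simp⟩
  · cases i
    · exact ⟨n, walk_left (Subgroup.mem_sup_left hp) hg, rfl⟩
    · have := walk_cons (K false ⊔ T).one_mem
        (walk_cons' (s := false) (Subgroup.mem_sup_left hp : p ∈ K (!false) ⊔ T) hg)
      rw [one_mul] at this
      exact ⟨n + 2, this, by simp [endAt]⟩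

/-- Commutation below distance `n` puts `W` into the conjugates of `Q`. -/
theorem claim {n : ℕ} (hn : ∀ i < n, WalkComm T K i) : ∀ i, i < n → ∀ s, ∀ g ∈ walk T K s i,
    ∀ a ∈ wOf (K s), g⁻¹ * a * g ∈ qOf T (K (endAt s i))
  | 0, _, s, g, hg, a, ha => (c.side s).W_le_Q ((c.side s).conjW' hg ha)
  | i + 1, hi, s, g, hg, a, ha => by
    obtain ⟨g₁, hg₁, p, hp, rfl⟩ := hg
    have h0 := claim hn i (by omega) s g₁ hg₁ a ha
    have h1 : g₁⁻¹ * a * g₁ ∈ qOf T (K (endAt s (i + 1))) := by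
      refine mem_qOf.2 ⟨(mem_qOf.1 h0).1, fun w hw => ?_⟩
      refine (comm_of_conj (g := g₁) ?_).symm
      rw [show g₁ * (g₁⁻¹ * a * g₁) * g₁⁻¹ = a by group]
      exact hn (i + 1) hi s g₁ ⟨g₁, hg₁, 1, Subgroup.one_mem _, by group⟩ a ha w hw
    have := (c.side _).conjQ (Subgroup.inv_mem _ hp) h1
    rwa [show p⁻¹ * (g₁⁻¹ * a * g₁) * p⁻¹⁻¹ = (g₁ * p)⁻¹ * a * (g₁ * p) by group] at this

variable {m : ℕ} (hmin : ∀ i < m + 2, WalkComm T K i) {s : Bool} {g a b : G} (hg : g ∈ walk T K (!s) m)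
  (ha : a ∈ wOf (K s)) (hb : b ∈ wOf (K (!(endAt (!s) m))))
  (hne : a * (g * b * g⁻¹) ≠ g * b * g⁻¹ * a)
include hmin hg ha hb hne

theorem crit_mem : g * b * g⁻¹ ∈ T ∧ g * b * g⁻¹ ∉ qOf T (K s) := by
  have h1 : g * 1 ∈ walk T K (!s) (m + 1) := ⟨g, hg, 1, Subgroup.one_mem _, rfl⟩
  rw [mul_one] at h1
  have h2 := c.claim hmin (m + 1) (by omega) _ _ (walk_inv h1) b hb
  rw [inv_inv] at h2
  exact ⟨(mem_qOf.1 h2).1, fun h3 => hne ((mem_qOf.1 h3).2 a ha)⟩

/-- The two ends of a critical pair have conjugate fixed points. -/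
theorem crit_val : u s = g * u (!(endAt (!s) m)) * g⁻¹ := by
  have h2 := c.crit_mem hmin hg ha hb hne
  have h3 := (c.val_ne h2.1 ha hne).2
  have h4 : g⁻¹ * a * g ∈ T := by
    have hg' : 1 * g ∈ walk T K s (m + 1) := walk_cons (K s ⊔ T).one_mem hg
    rw [one_mul] at hg'
    exact (mem_qOf.1 (c.claim hmin (m + 1) (by omega) _ _ hg' a ha)).1
  have h5 := (c.val_ne h4 hb fun e => hne (by
    have := conj_comm g e
    rw [show g * (g⁻¹ * a * g) * g⁻¹ = a by group] at this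
    exact this.symm)).1
  rw [← h3, ← h5]
  group

/-- `⟨K_s, T⟩` fixes the other fixed point. -/
theorem crit_cent : ∀ y ∈ K s ⊔ T, y * u (!s) = u (!s) * y := by
  obtain ⟨ht₀T, ht₀Q⟩ := c.crit_mem hmin hg ha hb hne
  have hval0 := c.crit_val hmin hg ha hb hne
  set t₀ := g * b * g⁻¹ with ht₀
  set e := endAt (!s) m with he
  obtain ⟨g₄, p, hp, hgp, hg₄⟩ := walk_split hg
  rw [Bool.not_not] at hg₄
  obtain ⟨k, hk, hko, hkQ⟩ := exists_odd_notMem (c.side s).comp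
  have hkP : k ∈ K s ⊔ T := Subgroup.mem_sup_left hk
  suffices hkh : k * u (!s) = u (!s) * k by
    intro y hy
    have hle : K s ⊔ T ≤ Subgroup.centralizer ({u (!s)} : Set G) :=
      sup_le ((c.side s).K_mem_of hk hkQ (Subgroup.mem_centralizer_singleton_iff.2 hkh)
        (fun z hz => Subgroup.mem_centralizer_singleton_iff.2 (c.fixT _ z ((c.side s).coreT hz))))
        (fun z hz => Subgroup.mem_centralizer_singleton_iff.2 (c.fixT _ z hz))
    exact Subgroup.mem_centralizer_singleton_iff.1 (hle hy)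
  by_contra hkh
  -- the middle element of the shifted pairs lies in `T`
  have hmid : ∀ j ∈ K s ⊔ T, ∀ y ∈ wOf (K (!s)), g₄⁻¹ * (j * y * j⁻¹) * g₄ ∈ T := by
    intro j hj y hy
    have := (mem_qOf.1 (c.claim hmin (m + 1) (by omega) _ _ (hg₄ _ (Subgroup.inv_mem _ hj)) y hy)).1
    rwa [show (j⁻¹ * g₄)⁻¹ * y * (j⁻¹ * g₄) = g₄⁻¹ * (j * y * j⁻¹) * g₄ by group] at this
  by_cases hA : ∀ y ∈ wOf (K (!s)), ∀ z ∈ wOf (K e),
      k * y * k⁻¹ * (g * z * g⁻¹) = g * z * g⁻¹ * (k * y * k⁻¹)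
  · -- commuting: `W_s W_!s` is normalised by `k`
    have hs : ∀ y ∈ wOf (K (!s)), g⁻¹ * (k * y * k⁻¹) * g ∈ T := by
      intro y hy
      have ht : g₄⁻¹ * (k * y * k⁻¹) * g₄ ∈ qOf T (K e) := by
        refine mem_qOf.2 ⟨hmid k hkP y hy, fun w hw => ?_⟩
        refine (comm_of_conj (g := g₄) ?_).symm
        rw [show g₄ * (g₄⁻¹ * (k * y * k⁻¹) * g₄) * g₄⁻¹ = k * y * k⁻¹ by group,
          show g₄ * w * g₄⁻¹ = g * (p⁻¹ * w * p) * g⁻¹ by rw [hgp]; group]
        exact hA y hy _ ((c.side e).conjW' hp hw)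
      have h5 := (c.side e).conjQ (Subgroup.inv_mem _ hp) ht
      rw [show p⁻¹ * (g₄⁻¹ * (k * y * k⁻¹) * g₄) * p⁻¹⁻¹ = g⁻¹ * (k * y * k⁻¹) * g by rw [hgp]; group] at h5
      exact (mem_qOf.1 h5).1
    have hkR := (c.side s).normalizes_sup (c.mem s) (c.ne_one s) (c.fixT s) (V := wOf (K (!s))) hk hko hkQ
      ht₀T ht₀Q (fun t ht w hw => c.conjWT ht hw) (fun y hy => by
        have e1 : t₀ * (k * y * k⁻¹) * t₀⁻¹ * (k * y * k⁻¹)⁻¹ = g * ((g⁻¹ * (k * y * k⁻¹) * g) * b *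
            (g⁻¹ * (k * y * k⁻¹) * g)⁻¹ * b⁻¹)⁻¹ * g⁻¹ := by rw [ht₀]; group
        rcases c.val (hs y hy) hb with e2 | e2
        · left; rw [e1, e2]; group
        · right; rw [e1, e2, (c.side _).W_inv (c.mem _), ← hval0])
    set R := wOf (K s) ⊔ wOf (K (!s)) with hR
    have hWW : ∀ x ∈ wOf (K s), ∀ y ∈ wOf (K (!s)), x * y = y * x := fun x hx y hy => by
      have := hmin 1 (by omega) s 1 ⟨1, walk_one, 1, Subgroup.one_mem _, by group⟩ x hx y hy
      simpa using this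
    have hsub : qOf T (K s) ≤ qOf T (K (!s)) := by
      intro q hq
      obtain ⟨hqT, hqW⟩ := mem_qOf.1 hq
      refine mem_qOf.2 ⟨hqT, fun v hv => ?_⟩
      have hv' : k⁻¹ * v * k ∈ R := by
        have := (Subgroup.mem_normalizer_iff.1 (Subgroup.inv_mem _ hkR) v).1 (Subgroup.mem_sup_right hv)
        rwa [inv_inv] at this
      rw [hR, ← SetLike.mem_coe, Subgroup.coe_mul_of_left_le_normalizer_right _ _ (fun x hx =>
        Subgroup.mem_normalizer_fintype fun y hy => c.conjWT (c.W_T hx) hy)] at hv'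
      obtain ⟨w, hw, y, hy, hwy⟩ := hv'
      simp only [] at hwy
      have hv2 : v = (k * w * k⁻¹) * (k * y * k⁻¹) := by
        rw [show (k * w * k⁻¹) * (k * y * k⁻¹) = k * (w * y) * k⁻¹ by group, hwy]; group
      have hw' := (c.side s).conjW hkP hw
      have hqc : q * (k * w * k⁻¹) * q⁻¹ = k * w * k⁻¹ := by rw [← hqW _ hw', mul_inv_cancel_right]
      have hqT' : k⁻¹ * q * k ∈ T := by
        have := (c.side s).conjQ (Subgroup.inv_mem _ hkP) hq
        rw [inv_inv] at this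
        exact (mem_qOf.1 this).1
      rcases c.val hqT hv with e3 | e3
      · rw [mul_inv_eq_one, mul_inv_eq_iff_eq_mul] at e3
        exact e3.symm
      exfalso
      have e4 : q * v * q⁻¹ * v⁻¹ = (k * w * k⁻¹) *
          (k * ((k⁻¹ * q * k) * y * (k⁻¹ * q * k)⁻¹ * y⁻¹) * k⁻¹) * (k * w * k⁻¹)⁻¹ := by
        calc q * v * q⁻¹ * v⁻¹
            = (q * (k * w * k⁻¹) * q⁻¹) * (q * (k * y * k⁻¹) * q⁻¹ * (k * y * k⁻¹)⁻¹) *
              (k * w * k⁻¹)⁻¹ := by rw [hv2]; group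
          _ = _ := by rw [hqc]; group
      rcases c.val hqT' hy with e5 | e5
      · rw [e5, e3, mul_one, mul_inv_cancel, mul_one, mul_inv_cancel] at e4
        exact c.ne_one _ e4
      · rw [e5, e3, conj_comm k (hWW w hw _ (c.mem _)), mul_inv_cancel_right] at e4
        exact hkh (mul_inv_eq_iff_eq_mul.1 e4.symm)
    have hQQ : qOf T (K s) = qOf T (K (!s)) := Subgroup.eq_of_le_of_card_ge hsub (by
      have h1 := (c.side s).card_T
      have h2 := (c.side (!s)).card_T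
      omega)
    refine (c.side s).W_ne_bot (eq_bot_iff.2 ?_)
    rw [← c.nob (qOf T (K s)) ((c.side s).two.to_le inf_le_left) (fun i y hy => ?_)
      (fun t ht => Subgroup.mem_normalizer_fintype fun q hq => (c.side s).conjQ (Subgroup.mem_sup_right ht) hq)]
    · exact (c.side s).W_le_Q
    · refine Subgroup.mem_normalizer_fintype fun q hq => ?_
      by_cases his : i = s
      · subst his
        exact (c.side i).conjQ (Subgroup.mem_sup_left hy) hq
      · have hi : i = !s := by cases i <;> cases s <;> simp_all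
        subst hi
        show y * q * y⁻¹ ∈ qOf T (K s)
        rw [hQQ]
        exact (c.side _).conjQ (Subgroup.mem_sup_left hy) (hQQ ▸ hq)
  -- noncommuting: a point fixed by `K`
  push Not at hA
  obtain ⟨y, hy, z, hz, hne'⟩ := hA
  have hval : ∀ j ∈ K s ⊔ T, ∀ y ∈ wOf (K (!s)),
      j * y * j⁻¹ * (g * z * g⁻¹) ≠ g * z * g⁻¹ * (j * y * j⁻¹) →
      j * u (!s) * j⁻¹ = g₄ * u e * g₄⁻¹ := by
    intro j hj y hy hne2
    -- near end
    have h1 : j⁻¹ * g ∈ walk T K s (m + 1) := walk_cons (Subgroup.inv_mem _ hj) hg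
    have h2 : (j⁻¹ * g) * z * (j⁻¹ * g)⁻¹ ∈ T := by
      have h3 := c.claim hmin (m + 1) (by omega) _ _ (walk_inv h1) z
        (by rw [show endAt s (m + 1) = e by rw [he, endAt_not]; rfl]; exact hz)
      rw [inv_inv] at h3
      exact (mem_qOf.1 h3).1
    have hn1 : y * ((j⁻¹ * g) * z * (j⁻¹ * g)⁻¹) ≠ (j⁻¹ * g) * z * (j⁻¹ * g)⁻¹ * y := fun e1 => hne2 (by
      have := conj_comm j e1
      rwa [show j * (j⁻¹ * g * z * (j⁻¹ * g)⁻¹) * j⁻¹ = g * z * g⁻¹ by group] at this)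
    have v1 := (c.val_ne h2 hy hn1).2
    -- far end
    have hz' : p * z * p⁻¹ ∈ wOf (K e) := (c.side e).conjW hp hz
    have hn2 : p * z * p⁻¹ * (g₄⁻¹ * (j * y * j⁻¹) * g₄) ≠ g₄⁻¹ * (j * y * j⁻¹) * g₄ * (p * z * p⁻¹) :=
      fun e1 => hne2 (by
      have := conj_comm g₄ e1
      rw [show g₄ * (g₄⁻¹ * (j * y * j⁻¹) * g₄) * g₄⁻¹ = j * y * j⁻¹ by group,
        show g₄ * (p * z * p⁻¹) * g₄⁻¹ = g * z * g⁻¹ by rw [hgp]; group] at this
      exact this.symm)
    have v2 := (c.val_ne (hmid j hj y hy) hz' hn2).1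
    rw [← v1, ← v2, hgp]
    group
  have ht₀z : t₀ * (g * z * g⁻¹) = g * z * g⁻¹ * t₀ := by
    have := hmin 1 (by omega) e 1 ⟨1, walk_one, 1, Subgroup.one_mem _, by group⟩ z hz b hb
    simp only [one_mul, inv_one, mul_one] at this
    exact (conj_comm g this).symm
  have h1 := hval k hkP y hy hne'
  have hy₁ := c.conjWT ht₀T hy
  have hj : t₀ * k * t₀⁻¹ ∈ K s ⊔ T :=
    Subgroup.mem_sup_left ((c.side s).conjK (Subgroup.mem_sup_right ht₀T) hk)
  have h2 := hval (t₀ * k * t₀⁻¹) hj _ hy₁ (by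
    intro e1
    refine hne' (comm_of_conj (g := t₀) ?_)
    rw [show t₀ * (g * z * g⁻¹) * t₀⁻¹ = g * z * g⁻¹ by rw [ht₀z, mul_inv_cancel_right],
      show t₀ * (k * y * k⁻¹) * t₀⁻¹ =
        (t₀ * k * t₀⁻¹) * (t₀ * y * t₀⁻¹) * (t₀ * k * t₀⁻¹)⁻¹ by group]
    exact e1)
  obtain ⟨q, hq, hswap⟩ := (c.side s).swap hk hko hkQ ht₀T ht₀Q
  have hq' : (k * k)⁻¹ * q * (k * k) ∈ pCoreOf 2 (K s) := by
    have := (c.side s).conjCore (Subgroup.inv_mem _ ((K s ⊔ T).mul_mem hkP hkP)) hq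
    rwa [inv_inv] at this
  rw [← h1, hswap] at h2
  have h3 : q * (k * k) * u (!s) * (q * (k * k))⁻¹ = k * k * u (!s) * (k * k)⁻¹ := by
    calc q * (k * k) * u (!s) * (q * (k * k))⁻¹
        = k * k * (((k * k)⁻¹ * q * (k * k)) * u (!s) * ((k * k)⁻¹ * q * (k * k))⁻¹) * (k * k)⁻¹ := by group
      _ = k * k * u (!s) * (k * k)⁻¹ := by rw [c.cent_u ((c.side s).coreT hq')]
  rw [h3] at h2
  refine hkh (mul_inv_eq_iff_eq_mul.1 ?_)
  calc k * u (!s) * k⁻¹ = k⁻¹ * (k * k * u (!s) * (k * k)⁻¹) * k := by group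
    _ = k⁻¹ * (k * u (!s) * k⁻¹) * k := by rw [h2]
    _ = u (!s) := by group

omit hmin hg ha hb hne

theorem walkComm_zero : WalkComm T K 0 := fun s g hg a ha b hb =>
  (c.side s).W_comm ha ((c.side s).conjW hg hb)

theorem walkComm_one (h : ∀ i, ∀ x ∈ wOf (K i), ∀ y ∈ wOf (K (!i)), x * y = y * x) : WalkComm T K 1 := by
  intro s g hg x hx y hy
  obtain ⟨g₁, hg₁, p, hp, rfl⟩ := hg
  have := conj_comm g₁ (h s _ ((c.side s).conjW' hg₁ hx) _ ((c.side (!s)).conjW hp hy))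
  rwa [show g₁ * (g₁⁻¹ * x * g₁) * g₁⁻¹ = x by group,
    show g₁ * (p * y * p⁻¹) * g₁⁻¹ = g₁ * p * y * (g₁ * p)⁻¹ by group] at this

/-- If `W₀` and `W₁` do not commute, the fixed points coincide. -/
theorem comm_of_ne (h : u false ≠ u true) :
    ∀ i, ∀ x ∈ wOf (K i), ∀ y ∈ wOf (K (!i)), x * y = y * x := by
  intro i x hx y hy
  by_contra hxy
  have e1 := (c.val_ne (c.W_T hy) hx hxy).1
  have e2 := (c.val_ne (c.W_T hx) hy (fun e => hxy e.symm)).2
  rw [e1] at e2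
  cases i
  · exact h e2
  · exact h e2.symm

theorem exists_min (h : ∀ i, ∀ x ∈ wOf (K i), ∀ y ∈ wOf (K (!i)), x * y = y * x) :
    ∃ m, (∀ i < m + 2, WalkComm T K i) ∧ ∃ s, ∃ g ∈ walk T K (!s) m, ∃ a ∈ wOf (K s),
      ∃ b ∈ wOf (K (!(endAt (!s) m))), a * (g * b * g⁻¹) ≠ g * b * g⁻¹ * a := by
  classical
  have hne := c.not_all_comm
  set n := Nat.find hne with hndef
  have hn : ¬ WalkComm T K n := Nat.find_spec hne
  have hmin : ∀ i < n, WalkComm T K i := fun i hi => not_not.1 (Nat.find_min hne hi)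
  clear_value n
  rcases n with _ | _ | m
  · exact absurd c.walkComm_zero hn
  · exact absurd (c.walkComm_one h) hn
  refine ⟨m, hmin, ?_⟩
  by_contra hcon
  push Not at hcon
  refine hn fun s g hg a ha b hb => ?_
  -- strip the two ends
  obtain ⟨g', hg', q, hq, rfl⟩ := hg
  obtain ⟨g'', hg'', r, hr, rfl⟩ := walk_head hg'
  have hb' : q * b * q⁻¹ ∈ wOf (K (!(endAt (!s) m))) := by
    have h1 := (c.side _).conjW hq hb
    rw [endAt_not, Bool.not_not]
    simpa [endAt] using h1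
  have := conj_comm r (hcon s g'' hg'' _ ((c.side s).conjW' hr ha) _ hb')
  rwa [show r * (r⁻¹ * a * r) * r⁻¹ = a by group,
    show r * (g'' * (q * b * q⁻¹) * g''⁻¹) * r⁻¹ = r * g'' * q * b * (r * g'' * q)⁻¹ by group] at this

/-- A pair at distance at least two: both ends fix the neighbouring fixed points. -/
theorem far (h : ∀ i, ∀ x ∈ wOf (K i), ∀ y ∈ wOf (K (!i)), x * y = y * x) :
    ∃ s f g, ∃ a ∈ wOf (K s), ∃ b ∈ wOf (K f), a * (g * b * g⁻¹) ≠ g * b * g⁻¹ * a ∧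
      u s = g * u f * g⁻¹ ∧ (∀ y ∈ K s ⊔ T, y * u (!s) = u (!s) * y) ∧
      ∀ y ∈ K f ⊔ T, y * u (!f) = u (!f) * y := by
  obtain ⟨m, hmin, s, g, hg, a, ha, b, hb, hne⟩ := c.exists_min h
  refine ⟨s, !(endAt (!s) m), g, a, ha, b, hb, hne, c.crit_val hmin hg ha hb hne,
    c.crit_cent hmin hg ha hb hne, ?_⟩
  have hg' : g⁻¹ ∈ walk T K (!(!(endAt (!s) m))) m := by rw [Bool.not_not]; exact walk_inv hg
  refine c.crit_cent hmin hg' hb (b := a) (by rw [Bool.not_not, endAt_inv, Bool.not_not]; exact ha) fun e => hne ?_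
  have := conj_comm g e
  rw [show g * (g⁻¹ * a * g⁻¹⁻¹) * g⁻¹ = a by group] at this
  exact this.symm

/-- A noncommuting pair at distance two. -/
theorem dist_two (hu : u false ≠ u true) {s : Bool} {p a b : G} (hp : p ∈ K (!s) ⊔ T)
    (ha : a ∈ wOf (K s)) (hb : b ∈ wOf (K s)) (hne : a * (p * b * p⁻¹) ≠ p * b * p⁻¹ * a) :
    ∀ y ∈ K s ⊔ T, y * u (!s) = u (!s) * y := by
  have hmin : ∀ i < 0 + 2, WalkComm T K i := by
    intro i hi
    obtain rfl | rfl : i = 0 ∨ i = 1 := by omega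
    exacts [c.walkComm_zero, c.walkComm_one (c.comm_of_ne hu)]
  refine c.crit_cent hmin (s := s) (g := p) (b := b) hp ha ?_ hne
  show b ∈ wOf (K (!(!s)))
  rwa [Bool.not_not]

/-- With equal fixed points the two subgroups `W` do not commute. -/
theorem noncomm_of_eq (hu : u false = u true) (i : Bool) :
    ∃ a ∈ wOf (K i), ∃ b ∈ wOf (K (!i)), a * b ≠ b * a := by
  by_contra hcon
  push Not at hcon
  have h : ∀ j, ∀ x ∈ wOf (K j), ∀ y ∈ wOf (K (!j)), x * y = y * x := by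
    intro j x hx y hy
    by_cases hj : j = i
    · subst hj; exact hcon x hx y hy
    · have hj' : j = !i := by cases i <;> cases j <;> simp_all
      subst hj'
      rw [Bool.not_not] at hy
      exact (hcon y hy x hx).symm
  obtain ⟨s, -, -, -, -, -, -, -, -, hc, -⟩ := c.far h
  obtain ⟨k, hk, hko, hkQ⟩ := exists_odd_notMem (c.side s).comp
  have hus : u (!s) = u s := by cases s <;> simp [hu]
  have := hc k (Subgroup.mem_sup_left hk)
  rw [hus] at this
  exact c.ne_one s (fpf_wOf (c.side s).comp hk hko hkQ (c.mem s) (by rw [this, mul_inv_cancel_right]))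

end Pair2

end CfsgLib.JComp
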