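import Cfsg.Agent.JComp.Pair2

/-!
Two components with the same fixed point: `T` is tiny.
-/

set_option autoImplicit false
open Cfsg

namespace CfsgLib.JComp

variable {G : Type*} [Group G] [Finite G]

namespace SideCtx

variable {T K : Subgroup G} (cs : SideCtx T K) {u : G} (hu : u ∈ wOf K) (hu1 : u ≠ 1)
  (huT : ∀ t ∈ T, t * u = u * t)
include cs hu hu1 huT

/-- The structure of `T` from an involution outside an elementary abelian `Q`. -/
theorem small_of (hbound : Nat.card ↥(omegaCenterOf T) ≤ 4) (hzero : ∀ q ∈ qOf T K, q * q = 1)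
    {b₁ : G} (hb₁T : b₁ ∈ T) (hb₁sq : b₁ * b₁ = 1) (hb₁Q : b₁ ∉ qOf T K)
    (hbQ : ∀ q ∈ qOf T K, b₁ * q * b₁⁻¹ * q⁻¹ = 1 ∨ b₁ * q * b₁⁻¹ * q⁻¹ = u) :
    (∀ q ∈ qOf T K, q * q = 1) ∧ (∃ t₁ ∈ T, t₁ ∉ qOf T K ∧ t₁ * t₁ = 1) ∧
      Nat.card ↥T = 2 * Nat.card ↥(qOf T K) ∧
      ∃ C : Subgroup G, C ≤ qOf T K ∧ (∀ y ∈ K ⊔ T, ∀ d ∈ C, y * d = d * y) ∧
        C ⊓ wOf K = ⊥ ∧ C ⊔ wOf K = qOf T K ∧ Nat.card ↥(qOf T K) = 4 * Nat.card ↥C ∧
        Nat.card ↥C ≤ 2 := by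
  haveI : Fact (Nat.Prime 2) := ⟨Nat.prime_two⟩
  set Q := qOf T K with hQdef
  have hQT : Q ≤ T := inf_le_left
  have hQc : ∀ p ∈ Q, ∀ q ∈ Q, p * q = q * p := fun p hp q hq => by
    have i1 : p⁻¹ = p := inv_eq_of_mul_eq_one_left (hzero p hp)
    have i2 : q⁻¹ = q := inv_eq_of_mul_eq_one_left (hzero q hq)
    calc p * q = (p * q)⁻¹ := (inv_eq_of_mul_eq_one_left (hzero _ (Q.mul_mem hp hq))).symm
      _ = q * p := by rw [mul_inv_rev, i1, i2]
  have hoff : ∀ t ∈ T, t ∉ Q → t * b₁ ∈ Q := fun t ht htQ =>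
    cs.off_mul hu hu1 huT ht htQ hb₁T hb₁Q
  have hcardT : Nat.card ↥T = 2 * Nat.card ↥Q := cs.card_T
  obtain ⟨k, hk, hko, hkQ⟩ := exists_odd_notMem cs.comp
  have hkP : k ∈ K ⊔ T := Subgroup.mem_sup_left hk
  set C : Subgroup G := Q ⊓ Subgroup.centralizer ({k} : Set G) with hC
  have hcov : ∀ q ∈ Q, ∃ w ∈ wOf K, q * w ∈ C := by
    intro q hq
    obtain ⟨q₁, hq₁, hsw⟩ := cs.swap hk hko hkQ hb₁T hb₁Q
    have hq₁Q := cs.core_le_Q hq₁
    have h1 : k * q * k⁻¹ * q⁻¹ ∈ wOf K := by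
      have hkq : k * q * k⁻¹ ∈ Q := cs.conjQ hkP hq
      have e1 : b₁ * (k * b₁⁻¹ * k⁻¹) * q * (b₁ * (k * b₁⁻¹ * k⁻¹))⁻¹ = k * q * k⁻¹ := by
        calc b₁ * (k * b₁⁻¹ * k⁻¹) * q * (b₁ * (k * b₁⁻¹ * k⁻¹))⁻¹
            = (b₁ * k * b₁⁻¹) * (k⁻¹ * q * k) * (b₁ * k * b₁⁻¹)⁻¹ := by group
          _ = q₁ * (k * q * k⁻¹) * q₁⁻¹ := by rw [hsw]; group
          _ = k * q * k⁻¹ := by rw [hQc _ hq₁Q _ hkq, mul_inv_cancel_right]
      have hq' : k⁻¹ * q * k ∈ Q := by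
        have := cs.conjQ ((K ⊔ T).inv_mem hkP) hq; rwa [inv_inv] at this
      set q₂ := k * b₁⁻¹ * k⁻¹ * q * (k * b₁⁻¹ * k⁻¹)⁻¹ with hq₂
      have h2 : q₂ * q⁻¹ ∈ wOf K := by
        rw [show q₂ * q⁻¹ = k * (b₁⁻¹ * (k⁻¹ * q * k) * b₁ * (k⁻¹ * q * k)⁻¹) * k⁻¹ by rw [hq₂]; group]
        refine cs.conjW hkP ?_
        rw [show b₁⁻¹ * (k⁻¹ * q * k) * b₁ * (k⁻¹ * q * k)⁻¹ =
          b₁⁻¹ * (b₁ * (k⁻¹ * q * k) * b₁⁻¹ * (k⁻¹ * q * k)⁻¹)⁻¹ * b₁⁻¹⁻¹ by group]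
        refine cs.conjW (Subgroup.mem_sup_right (T.inv_mem hb₁T)) ((wOf K).inv_mem ?_)
        rcases hbQ _ hq' with e | e <;> rw [e]
        exacts [(wOf K).one_mem, hu]
      have hq₂Q : q₂ ∈ Q := by
        have := Q.mul_mem (cs.W_le_Q h2) hq
        rwa [inv_mul_cancel_right] at this
      have h3 : b₁ * q₂ * b₁⁻¹ * q₂⁻¹ ∈ wOf K := by
        rcases hbQ _ hq₂Q with e | e <;> rw [e]
        exacts [(wOf K).one_mem, hu]
      rw [← e1, show b₁ * (k * b₁⁻¹ * k⁻¹) * q * (b₁ * (k * b₁⁻¹ * k⁻¹))⁻¹ * q⁻¹ =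
        (b₁ * q₂ * b₁⁻¹ * q₂⁻¹) * (q₂ * q⁻¹) by rw [hq₂]; group]
      exact (wOf K).mul_mem h3 h2
    let f : ↥(wOf K) → ↥(wOf K) := fun w => ⟨k * (w : G) * k⁻¹ * (w : G)⁻¹,
      (wOf K).mul_mem (cs.conjW hkP w.2) ((wOf K).inv_mem w.2)⟩
    have hf : Function.Injective f := by
      intro p r e
      have e' : k * (p : G) * k⁻¹ * (p : G)⁻¹ = k * (r : G) * k⁻¹ * (r : G)⁻¹ := congrArg Subtype.val e
      have h2 : k * ((r : G)⁻¹ * p) * k⁻¹ = (r : G)⁻¹ * p := by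
        calc k * ((r : G)⁻¹ * p) * k⁻¹ = (k * r * k⁻¹)⁻¹ * (k * p * k⁻¹ * (p : G)⁻¹) * p := by group
          _ = (r : G)⁻¹ * p := by rw [e']; group
      exact Subtype.ext (inv_mul_eq_one.1 (fpf_wOf cs.comp hk hko hkQ
        ((wOf K).mul_mem ((wOf K).inv_mem r.2) p.2) h2)).symm
    obtain ⟨⟨w, hw⟩, hfw⟩ := Finite.surjective_of_injective hf ⟨_, h1⟩
    have hfw' : k * w * k⁻¹ * w⁻¹ = k * q * k⁻¹ * q⁻¹ := congrArg Subtype.val hfw
    refine ⟨w, hw, Q.mul_mem hq (cs.W_le_Q hw), Subgroup.mem_centralizer_singleton_iff.2 ?_⟩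
    have h4 : k * (q * w) * k⁻¹ = q * w := by
      have hkq : k * q * k⁻¹ ∈ Q := cs.conjQ hkP hq
      calc k * (q * w) * k⁻¹ = (k * q * k⁻¹) * (k * w * k⁻¹ * w⁻¹) * w := by group
        _ = (k * q * k⁻¹) * (k * q * k⁻¹) * q⁻¹ * w := by rw [hfw']; group
        _ = q * w := by rw [hzero _ hkq, one_mul, inv_eq_of_mul_eq_one_left (hzero q hq)]
    exact (mul_inv_eq_iff_eq_mul.1 h4).symm
  have hCk : ∀ d ∈ C, d * k = k * d := fun d hd => Subgroup.mem_centralizer_singleton_iff.1 hd.2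
  have hdisj : C ⊓ wOf K = ⊥ := eq_bot_iff.2 fun d hd => Subgroup.mem_bot.2
    (fpf_wOf cs.comp hk hko hkQ hd.2 (by rw [← hCk d hd.1, mul_inv_cancel_right]))
  have hCT : ∀ t ∈ T, ∀ d ∈ C, t * d = d * t := by
    have hb : ∀ d ∈ C, b₁ * d = d * b₁ := by
      intro d hd
      rcases hbQ d hd.1 with e | e
      · exact mul_inv_eq_iff_eq_mul.1 (mul_inv_eq_one.1 e)
      exfalso
      obtain ⟨q₁, hq₁, hsw⟩ := cs.swap hk hko hkQ hb₁T hb₁Q
      have e1 : b₁ * d * b₁⁻¹ = u * d := mul_inv_eq_iff_eq_mul.1 e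
      set d' := u * d with hd'
      have hd'Q : d' ∈ Q := Q.mul_mem (cs.W_le_Q hu) hd.1
      have h2 : Commute (k * k) d' := by
        have h3 := conj_comm b₁ (hCk d hd)
        rw [e1, hsw] at h3
        have h4 : Commute (q₁⁻¹ * (q₁ * (k * k))) d' :=
          (Commute.inv_left (show Commute q₁ d' from hQc _ (cs.core_le_Q hq₁) _ hd'Q)).mul_left h3.symm
        rwa [inv_mul_cancel_left] at h4
      have h5 : Commute k d' := by
        have h6 : Commute ((k * k)⁻¹ * (k * k * k)) d' :=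
          h2.inv_left.mul_left (hQc _ (cs.core_le_Q (K_cases cs.comp hk hkQ).1) _ hd'Q)
        rwa [show (k * k)⁻¹ * (k * k * k) = k by group] at h6
      have h7 : Commute k (d' * d⁻¹) := h5.mul_right (show Commute k d from (hCk d hd).symm).inv_right
      rw [hd', mul_inv_cancel_right] at h7
      exact hu1 (fpf_wOf cs.comp hk hko hkQ hu (by rw [h7.eq, mul_inv_cancel_right]))
    intro t ht d hd
    by_cases htQ : t ∈ Q
    · exact hQc t htQ d hd.1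
    · have h1 := hQc _ (hoff t ht htQ) d hd.1
      calc t * d = (t * b₁) * (b₁⁻¹ * d) := by group
        _ = (t * b₁) * (d * b₁⁻¹) := by
            rw [((show Commute b₁ d from hb d hd).inv_left).eq]
        _ = d * t := by rw [← mul_assoc, h1]; group
  have hCP : ∀ y ∈ K ⊔ T, ∀ d ∈ C, y * d = d * y := by
    intro y hy d hd
    have hle : K ⊔ T ≤ Subgroup.centralizer ({d} : Set G) :=
      sup_le (cs.K_mem_of hk hkQ (Subgroup.mem_centralizer_singleton_iff.2 (hCk d hd).symm)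
        (fun z hz => Subgroup.mem_centralizer_singleton_iff.2 (hCT z (cs.coreT hz) d hd)))
        (fun z hz => Subgroup.mem_centralizer_singleton_iff.2 (hCT z hz d hd))
    exact Subgroup.mem_centralizer_singleton_iff.1 (hle hy)
  have hsup : C ⊔ wOf K = Q := by
    refine le_antisymm (sup_le inf_le_left cs.W_le_Q) fun q hq => ?_
    obtain ⟨w, hw, hqw⟩ := hcov q hq
    have := Subgroup.mul_mem (C ⊔ wOf K) (Subgroup.mem_sup_left hqw) (Subgroup.mem_sup_right ((wOf K).inv_mem hw))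
    rwa [mul_inv_cancel_right] at this
  have hcardQ : Nat.card ↥Q = 4 * Nat.card ↥C := by
    have hinj : Function.Injective (fun p : ↥C × ↥(wOf K) =>
        (⟨(p.1 : G) * (p.2 : G), Q.mul_mem p.1.2.1 (cs.W_le_Q p.2.2)⟩ : ↥Q)) := by
      rintro ⟨⟨c1, hc1⟩, ⟨w1, hw1⟩⟩ ⟨⟨c2, hc2⟩, ⟨w2, hw2⟩⟩ e
      have e' : c1 * w1 = c2 * w2 := congrArg Subtype.val e
      have e2 : c2⁻¹ * c1 = w2 * w1⁻¹ := by
        calc c2⁻¹ * c1 = c2⁻¹ * (c1 * w1) * w1⁻¹ := by group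
          _ = w2 * w1⁻¹ := by rw [e']; group
      have h1 : c2⁻¹ * c1 ∈ C ⊓ wOf K :=
        ⟨C.mul_mem (C.inv_mem hc2) hc1, e2 ▸ (wOf K).mul_mem hw2 ((wOf K).inv_mem hw1)⟩
      rw [hdisj, Subgroup.mem_bot] at h1
      rw [h1] at e2
      exact Prod.ext (Subtype.ext (inv_mul_eq_one.1 h1).symm) (Subtype.ext (mul_inv_eq_one.1 e2.symm).symm)
    have hsurj : Function.Surjective (fun p : ↥C × ↥(wOf K) =>
        (⟨(p.1 : G) * (p.2 : G), Q.mul_mem p.1.2.1 (cs.W_le_Q p.2.2)⟩ : ↥Q)) := by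
      rintro ⟨q, hq⟩
      obtain ⟨w, hw, hqw⟩ := hcov q hq
      exact ⟨(⟨q * w, hqw⟩, ⟨w⁻¹, (wOf K).inv_mem hw⟩), Subtype.ext (mul_inv_cancel_right q w)⟩
    rw [← Nat.card_eq_of_bijective _ ⟨hinj, hsurj⟩, Nat.card_prod, cs.comp.2.2.2.2.1, mul_comm]
  refine ⟨hzero, ⟨b₁, hb₁T, hb₁Q, hb₁sq⟩, hcardT, C, inf_le_left, hCP, hdisj, hsup, hcardQ, ?_⟩
  -- two cosets of `C` inside `Ω₁(Z(T))`
  have hinj : Function.Injective (fun p : ↥C × Bool => (⟨(p.1 : G) * (if p.2 then u else 1), by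
      refine mem_omegaCenterOf.2 ⟨?_, fun t ht => ?_, ?_⟩
      · refine T.mul_mem (hQT p.1.2.1) ?_
        split <;> [exact hQT (cs.W_le_Q hu); exact T.one_mem]
      · refine ((show Commute t p.1 from hCT t ht _ p.1.2).mul_right ?_).eq
        split <;> [exact huT t ht; exact Commute.one_right t]
      · exact hzero _ (Q.mul_mem p.1.2.1 (by split <;> [exact cs.W_le_Q hu; exact Q.one_mem]))⟩ :
      ↥(omegaCenterOf T))) := by
    rintro ⟨⟨c1, hc1⟩, i⟩ ⟨⟨c2, hc2⟩, j⟩ e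
    have e' : c1 * (if i then u else 1) = c2 * (if j then u else 1) := congrArg Subtype.val e
    have huC : u ∉ C := fun h => hu1 (Subgroup.mem_bot.1 (hdisj ▸ (⟨h, hu⟩ : u ∈ C ⊓ wOf K)))
    cases i <;> cases j <;> simp at e'
    · subst e'; rfl
    · exact absurd (show u ∈ C by
        have := C.mul_mem (C.inv_mem hc2) hc1
        rwa [e', inv_mul_cancel_left] at this) huC
    · exact absurd (show u ∈ C by
        have := C.mul_mem (C.inv_mem hc1) hc2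
        rwa [← e', inv_mul_cancel_left] at this) huC
    · subst e'; rfl
  have h1 := Nat.card_le_card_of_injective _ hinj
  rw [Nat.card_prod, Nat.card_eq_fintype_card (α := Bool), Fintype.card_bool] at h1
  omega

end SideCtx

namespace Pair2

variable {T : Subgroup G} {K : Bool → Subgroup G} {u : Bool → G} (c : Pair2 T K u)
include c

/-- With equal fixed points `T` is dihedral of order 8, possibly times a group of order 2. -/
theorem small (heq : u false = u true) (hbound : Nat.card ↥(omegaCenterOf T) ≤ 4) (i : Bool) :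
    (∀ q ∈ qOf T (K i), q * q = 1) ∧ (∃ t₁ ∈ T, t₁ ∉ qOf T (K i) ∧ t₁ * t₁ = 1) ∧
      Nat.card ↥T = 2 * Nat.card ↥(qOf T (K i)) ∧
      ∃ C : Subgroup G, C ≤ qOf T (K i) ∧ (∀ y ∈ K i ⊔ T, ∀ d ∈ C, y * d = d * y) ∧
        C ⊓ wOf (K i) = ⊥ ∧ C ⊔ wOf (K i) = qOf T (K i) ∧ Nat.card ↥(qOf T (K i)) = 4 * Nat.card ↥C ∧
        Nat.card ↥C ≤ 2 := by
  haveI : Fact (Nat.Prime 2) := ⟨Nat.prime_two⟩
  have huu : ∀ i, u (!i) = u i := fun i => by cases i <;> simp [heq]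
  obtain ⟨a₀, ha₀, b₁, hb₁, hne⟩ := c.noncomm_of_eq heq i
  have cs := c.side i
  have hu := c.mem i
  have hu1 := c.ne_one i
  have huT := c.fixT i
  have hb₁T : b₁ ∈ T := c.W_T hb₁
  have ha₀T : a₀ ∈ T := c.W_T ha₀
  have hb₁sq : b₁ * b₁ = 1 := (c.side (!i)).W_sq hb₁
  -- squares are the same on both sides
  have hsquares : ∀ j, ∀ q ∈ qOf T (K j), ∃ d ∈ qOf T (K (!j)), q * q = d * d := by
    intro j q hq
    obtain ⟨a, ha, b, hb, hab⟩ := c.noncomm_of_eq heq j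
    have hbT := c.W_T hb
    have haQ := (c.side j).W_le_Q ha
    have huj := c.mem j
    have hb1 : b ≠ 1 := fun e => hab (by rw [e]; simp)
    have hbu : b ≠ u (!j) := fun e => hab (by rw [e]; exact c.fixT _ a (c.W_T ha))
    have hqT := (mem_qOf.1 hq).1
    obtain ⟨-, hba⟩ := c.val_ne (c.W_T ha) hb (fun e => hab e.symm)
    rw [huu] at hba
    rcases c.val hqT hb with e | e
    · rw [mul_inv_eq_one, mul_inv_eq_iff_eq_mul] at e
      exact ⟨q, (c.side (!j)).cent_eq (c.mem _) (c.ne_one _) (c.fixT _) hqT hb hb1 hbu e.symm, rfl⟩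
    · rw [huu] at e
      refine ⟨q * a, (c.side (!j)).cent_eq (c.mem _) (c.ne_one _) (c.fixT _) (T.mul_mem hqT (c.W_T ha)) hb hb1
        hbu ((mul_inv_eq_iff_eq_mul.1 ?_).symm), ?_⟩
      · have e1 : q * b * q⁻¹ = u j * b := mul_inv_eq_iff_eq_mul.1 e
        have e2 : a * b * a⁻¹ = u j * b := by
          have h := (c.val_ne (c.W_T ha) hb (fun e => hab e.symm)).1
          rw [huu] at h
          exact mul_inv_eq_iff_eq_mul.1 h
        calc q * a * b * (q * a)⁻¹ = q * (a * b * a⁻¹) * q⁻¹ := by group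
          _ = (q * u j * q⁻¹) * (q * b * q⁻¹) := by rw [e2]; group
          _ = u j * (u j * b) := by rw [c.cent_u hqT, e1]
          _ = b := by rw [← mul_assoc, (c.side j).W_sq huj, one_mul]
      · rw [show q * a * (q * a) = q * (a * q) * a by group, (mem_qOf.1 hq).2 a ha,
          show q * (q * a) * a = q * q * (a * a) by group, (c.side j).W_sq ha, mul_one]
  set Q := qOf T (K i) with hQdef
  have hQT : Q ≤ T := inf_le_left
  have hb₁Q : b₁ ∉ Q := fun h => hne ((mem_qOf.1 h).2 a₀ ha₀)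
  have hbQ : ∀ q ∈ Q, b₁ * q * b₁⁻¹ * q⁻¹ = 1 ∨ b₁ * q * b₁⁻¹ * q⁻¹ = u i := by
    intro q hq
    have e0 : b₁ * q * b₁⁻¹ * q⁻¹ = (q * b₁ * q⁻¹ * b₁⁻¹)⁻¹ := by group
    rcases c.val (hQT hq) hb₁ with e | e
    · left; rw [e0, e, inv_one]
    · right; rw [e0, e, huu, cs.W_inv hu]
  have hzero : ∀ q ∈ Q, q * q = 1 := by
    set S₀ : Set G := {y | ∃ q ∈ Q, q * q = y} with hS₀
    set R := Subgroup.closure S₀ with hR
    have hnorm : ∀ p : G, (∀ q ∈ Q, ∃ q' ∈ Q, p * (q * q) * p⁻¹ = q' * q') →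
        p ∈ Subgroup.normalizer (R : Set G) := by
      intro p hp
      refine Subgroup.mem_normalizer_fintype fun y hy => ?_
      have hle : R ≤ R.comap (MulAut.conj p).toMonoidHom := by
        conv_lhs => rw [hR]
        rw [Subgroup.closure_le]
        rintro _ ⟨q, hq, rfl⟩
        obtain ⟨q', hq', e⟩ := hp q hq
        exact Subgroup.subset_closure ⟨q', hq', e.symm⟩
      exact hle hy
    have hbot := c.nob R (cs.two.to_le (by
      rw [hR, Subgroup.closure_le]; rintro _ ⟨q, hq, rfl⟩; exact T.mul_mem (hQT hq) (hQT hq))) (fun j p hp => by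
        refine hnorm p fun q hq => ?_
        by_cases hj : j = i
        · subst hj
          exact ⟨_, cs.conjQ (Subgroup.mem_sup_left hp) hq, by group⟩
        · have hj' : j = !i := by cases i <;> cases j <;> simp_all
          subst hj'
          obtain ⟨d, hd, e⟩ := hsquares i q hq
          obtain ⟨d', hd', e'⟩ := hsquares (!i) _ ((c.side (!i)).conjQ (Subgroup.mem_sup_left hp) hd)
          rw [Bool.not_not] at hd'
          exact ⟨d', hd', by rw [← e', e]; group⟩)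
      (fun p hp => hnorm p fun q hq => ⟨_, cs.conjQ (Subgroup.mem_sup_right hp) hq, by group⟩)
    intro q hq
    exact Subgroup.mem_bot.1 (hbot ▸ Subgroup.subset_closure ⟨q, hq, rfl⟩)
  exact cs.small_of hu hu1 huT hbound hzero hb₁T hb₁sq hb₁Q hbQ

end Pair2

end CfsgLib.JComp
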