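import Cfsg.Agent.JComp.Exists

/-!
Maximal straddling 2-subgroups.
-/

set_option autoImplicit false
open Cfsg

namespace CfsgLib.JComp

variable {G : Type*} [Group G] [Finite G]

theorem maxElemAbelianOrder_eq {T A : Subgroup G} (hA : IsMaxEl T A) : maxElemAbelianOrder T = Nat.card A := by
  have himg : (fun B : Subgroup ↥T => Nat.card ↥B) '' maxElementaryAbelianSubgroups 2 ↥T = {Nat.card A} := by
    refine Set.eq_singleton_iff_unique_mem.2 ⟨⟨A.subgroupOf T, ⟨el_subgroupOf hA.le hA.el, fun B hB => ?_⟩,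
      Nat.card_congr (Subgroup.subgroupOfEquivOfLe hA.le).toEquiv⟩, ?_⟩
    · rw [Nat.card_congr (Subgroup.subgroupOfEquivOfLe hA.le).toEquiv,
        ← Subgroup.card_map_of_injective T.subtype_injective]
      exact hA.max _ (Subgroup.map_subtype_le B) (el_map_subtype hB)
    · rintro _ ⟨B, hB, rfl⟩
      have h := isMaxEl_map hB
      show Nat.card ↥B = Nat.card A
      rw [← Subgroup.card_map_of_injective (K := B) T.subtype_injective]
      exact le_antisymm (hA.max _ h.le h.el) (h.max _ hA.le hA.el)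
  rw [maxElemAbelianOrder, himg, csSup_singleton]

theorem thompson_ne_bot_of_ne_bot {T : Subgroup G} (hT : IsPGroup 2 ↥T) (hT1 : T ≠ ⊥) :
    thompsonSubgroupOf 2 T ≠ ⊥ := by
  haveI : Fact (Nat.Prime 2) := ⟨Nat.prime_two⟩
  obtain ⟨k, hk0, hk⟩ := hT.nontrivial_iff_card.mp ((Subgroup.nontrivial_iff_ne_bot T).2 hT1)
  obtain ⟨x, hx⟩ := exists_prime_orderOf_dvd_card' (G := ↥T) 2 (by rw [hk]; exact dvd_pow_self 2 (by omega))
  have hxo : orderOf (x : G) = 2 := by rw [Subgroup.orderOf_coe]; exact hx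
  have hel : IsElementaryAbelian 2 (Subgroup.zpowers (x : G)) := by
    refine ⟨inferInstance, ?_⟩
    rintro _ ⟨n, rfl⟩
    simp only []
    rw [← zpow_natCast, ← zpow_mul, mul_comm, zpow_mul, zpow_natCast,
      show (x : G) ^ 2 = 1 by rw [← hxo, pow_orderOf_eq_one], one_zpow]
  obtain ⟨A, hA⟩ := exists_maxEl T
  intro h
  have h1 := hA.max _ (Subgroup.zpowers_le.2 x.2) hel
  have h2 : A = ⊥ := eq_bot_iff.2 (h ▸ hA.le_thompson)
  rw [h2, Subgroup.card_bot, Nat.card_zpowers, hxo] at h1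
  omega

variable {M T : Subgroup G}

theorem absorb (hT : T ∈ maxStraddlingTwoSubgroups M) {R : Subgroup G} (hR : R ∈ straddlingTwoSubgroups M)
    (hJR : thompsonSubgroupOf 2 T ≤ R) :
    thompsonSubgroupOf 2 R = thompsonSubgroupOf 2 T ∧ Nat.card R ≤ Nat.card T := by
  obtain ⟨A, hA⟩ := exists_maxEl T
  obtain ⟨B, hB⟩ := exists_maxEl R
  obtain ⟨h1, h2⟩ := hT.2 R hR
  rw [maxElemAbelianOrder_eq hA, maxElemAbelianOrder_eq hB] at h1
  have hAB : Nat.card A ≤ Nat.card B := hB.max A (hA.le_thompson.trans hJR) hA.el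
  have heq := le_antisymm h1 hAB
  obtain ⟨h3, h4⟩ := h2 (by rw [maxElemAbelianOrder_eq hA, maxElemAbelianOrder_eq hB]; exact heq)
  have hle : thompsonSubgroupOf 2 T ≤ thompsonSubgroupOf 2 R := thompson_le fun A' hA' =>
    IsMaxEl.le_thompson ⟨hA'.le_thompson.trans hJR, hA'.el, fun D hD hDe =>
      ((hB.max D hD hDe).trans heq.le).trans (hA'.max A hA.le hA.el)⟩
  have hJeq := Subgroup.eq_of_le_of_card_ge hle h3
  exact ⟨hJeq.symm, h4 (le_antisymm h3 (Subgroup.card_le_of_le hle))⟩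

theorem normalizer_thompson_le (S : Sylow 2 G)
    (hMJ : Subgroup.normalizer (thompsonSubgroupOf 2 (S : Subgroup G) : Set G) ≤ M)
    (hT : T ∈ maxStraddlingTwoSubgroups M) :
    Subgroup.normalizer (thompsonSubgroupOf 2 T : Set G) ≤ M := by
  haveI : Fact (Nat.Prime 2) := ⟨Nat.prime_two⟩
  obtain ⟨hTp, hT1, hTM, -⟩ := hT.1
  have hSM : (S : Subgroup G) ≤ M :=
    (Subgroup.le_normalizer.trans (normalizer_le_thompson (S : Subgroup G))).trans hMJ
  have hS : IsSylowTwoIn (S : Subgroup G) M := by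
    refine ⟨hSM, S.isPGroup', ?_⟩
    rw [Nat.odd_iff]
    have h1 : (S : Subgroup G).relIndex M ∣ (S : Subgroup G).index :=
      Subgroup.relIndex_dvd_index_of_le hSM
    have h2 := S.not_dvd_index
    have : ¬ 2 ∣ (S : Subgroup G).relIndex M := fun h => h2 (h.trans h1)
    omega
  obtain ⟨m, hm, hmT⟩ := sylow_conj hS hTp hTM
  set S' := (S : Subgroup G).map (MulAut.conj m⁻¹).toMonoidHom with hS'
  have hTS' : T ≤ S' := fun x hx => ⟨m * x * m⁻¹, hmT x hx, by simp [MulAut.conj_apply, mul_assoc]⟩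
  have hS'M : S' ≤ M := by
    rintro _ ⟨x, hx, rfl⟩
    exact M.mul_mem (M.mul_mem (M.inv_mem hm) (hSM hx)) (M.inv_mem (M.inv_mem hm))
  have hN' : Subgroup.normalizer (thompsonSubgroupOf 2 S' : Set G) ≤ M := by
    intro g hg
    rw [hS', thompson_map] at hg
    have h1 : m * g * m⁻¹ ∈ Subgroup.normalizer (thompsonSubgroupOf 2 (S : Subgroup G) : Set G) := by
      rw [Subgroup.mem_normalizer_iff]
      intro x
      have key := Subgroup.mem_normalizer_iff.1 hg (m⁻¹ * x * m)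
      have hc : ∀ y : G, m⁻¹ * y * m ∈ (thompsonSubgroupOf 2 (S : Subgroup G)).map (MulAut.conj m⁻¹).toMonoidHom ↔
          y ∈ thompsonSubgroupOf 2 (S : Subgroup G) := fun y => by
        rw [show m⁻¹ * y * m = (MulAut.conj m⁻¹).toMonoidHom y by simp [MulAut.conj_apply],
          Subgroup.mem_map_iff_mem (f := (MulAut.conj m⁻¹).toMonoidHom) (MulAut.conj m⁻¹).injective]
      rw [hc] at key
      rw [key, show g * (m⁻¹ * x * m) * g⁻¹ = m⁻¹ * (m * g * m⁻¹ * x * (m * g * m⁻¹)⁻¹) * m by group, hc]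
    have h2 := hMJ h1
    have := M.mul_mem (M.mul_mem (M.inv_mem hm) h2) hm
    rwa [show m⁻¹ * (m * g * m⁻¹) * m = g by group] at this
  by_contra hne
  set T' := S' ⊓ Subgroup.normalizer (thompsonSubgroupOf 2 T : Set G) with hT'
  have hTT' : T ≤ T' := le_inf hTS' (Subgroup.le_normalizer.trans (normalizer_le_thompson T))
  have hS'p : IsPGroup 2 ↥S' := S.isPGroup'.map _
  have hstr : T' ∈ straddlingTwoSubgroups M :=
    ⟨hS'p.to_le inf_le_left, fun e => hT1 (eq_bot_iff.2 (e ▸ hTT')), inf_le_left.trans hS'M,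
      _, ⟨_, isPGroup_thompson hTp, thompson_ne_bot_of_ne_bot hTp hT1, rfl⟩, inf_le_right, hne⟩
  have heq : T = T' := Subgroup.eq_of_le_of_card_ge hTT'
    (absorb hT hstr ((thompson_le_self T).trans hTT')).2
  have hTS : T = S' := by
    by_contra hTne
    haveI : Group.IsNilpotent ↥S' := hS'p.isNilpotent
    have hlt : T.subgroupOf S' < ⊤ := lt_top_iff_ne_top.2 fun h =>
      hTne (le_antisymm hTS' (Subgroup.subgroupOf_eq_top.1 h))
    have h1 := Group.normalizerCondition_of_isNilpotent (G := ↥S') _ hlt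
    obtain ⟨x, hx, hxT⟩ := SetLike.exists_of_lt h1
    refine hxT ?_
    show (x : G) ∈ T
    rw [heq]
    refine ⟨x.2, normalizer_le_thompson T ?_⟩
    rw [Subgroup.mem_normalizer_iff]
    intro y
    refine ⟨fun hy => ?_, fun hy => ?_⟩
    · exact (Subgroup.mem_normalizer_iff.1 hx ⟨y, hTS' hy⟩).1 hy
    · have hy' : y ∈ S' := by
        have := S'.mul_mem (S'.mul_mem (S'.inv_mem x.2) (hTS' hy)) x.2
        rwa [show (x : G)⁻¹ * ((x : G) * y * (x : G)⁻¹) * (x : G) = y by group] at this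
      exact (Subgroup.mem_normalizer_iff.1 hx ⟨y, hy'⟩).2 hy
  exact hne (hTS ▸ hN')

theorem isTwoLocal_ctx (hL : IsCharacteristicTwoType G) (hN : ∀ N : Subgroup G, IsTwoLocal N → Group.IsSolvable ↥N)
    (hZ : ∀ S : Sylow 2 G, Subgroup.centralizer (omegaCenterOf (S : Subgroup G) : Set G) ≤
      Subgroup.normalizer ((S : Subgroup G) : Set G)) {L : Subgroup G} (hL2 : IsTwoLocal L) : LocalCtx L := by
  obtain ⟨P, hP, hP1, rfl⟩ := hL2
  exact ctx_of_normalizer hL hN hZ hP hP1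

theorem straddle_main (hL : IsCharacteristicTwoType G) (hN : ∀ N : Subgroup G, IsTwoLocal N → Group.IsSolvable ↥N)
    (hZ : ∀ S : Sylow 2 G, Subgroup.centralizer (omegaCenterOf (S : Subgroup G) : Set G) ≤
      Subgroup.normalizer ((S : Subgroup G) : Set G)) (S : Sylow 2 G)
    (hMJ : Subgroup.normalizer (thompsonSubgroupOf 2 (S : Subgroup G) : Set G) ≤ M)
    (hT : T ∈ maxStraddlingTwoSubgroups M) {L : Subgroup G} (hL2 : IsTwoLocal L) (hLM : ¬ L ≤ M)
    {T₀ : Subgroup G} (hT₀ : IsSylowTwoIn T₀ L) (hJT₀ : thompsonSubgroupOf 2 T ≤ T₀) :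
    thompsonSubgroupOf 2 T = thompsonSubgroupOf 2 T₀ ∧ T₀ ∈ straddlingTwoSubgroups M ∧ L ∈ jOvergroups T₀ ∧
      (T ≤ L → T ≤ T₀ → T = T₀) ∧
      ∃ K : Subgroup G, IsJComponent T K ∧ K ≤ L ∧ ¬ K ≤ M := by
  haveI : Fact (Nat.Prime 2) := ⟨Nat.prime_two⟩
  obtain ⟨hTp, hT1, hTM, -⟩ := hT.1
  have hnJ := normalizer_thompson_le S hMJ hT
  have hJM : thompsonSubgroupOf 2 T ≤ M := (thompson_le_self T).trans hTM
  have hJ1 := thompson_ne_bot_of_ne_bot hTp hT1
  set R := T₀ ⊓ M with hR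
  have hRs : R ∈ straddlingTwoSubgroups M :=
    ⟨hT₀.2.1.to_le inf_le_left, fun e => hJ1 (eq_bot_iff.2 (e ▸ le_inf hJT₀ hJM)), inf_le_right,
      L, hL2, inf_le_left.trans hT₀.1, hLM⟩
  have hJR := (absorb hT hRs (le_inf hJT₀ hJM)).1
  have hT₀M : T₀ ≤ M := by
    by_contra hne
    haveI : Group.IsNilpotent ↥T₀ := hT₀.2.1.isNilpotent
    have hlt : R.subgroupOf T₀ < ⊤ := lt_top_iff_ne_top.2 fun h =>
      hne ((Subgroup.subgroupOf_eq_top.1 h).trans inf_le_right)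
    obtain ⟨x, hx, hxR⟩ := SetLike.exists_of_lt (Group.normalizerCondition_of_isNilpotent (G := ↥T₀) _ hlt)
    refine hxR ⟨x.2, hnJ (hJR ▸ normalizer_le_thompson R ?_)⟩
    rw [Subgroup.mem_normalizer_iff]
    intro y
    refine ⟨fun hy => (Subgroup.mem_normalizer_iff.1 hx ⟨y, hy.1⟩).1 hy, fun hy => ?_⟩
    have hy' : y ∈ T₀ := by
      have hy1 : (x : G) * y * (x : G)⁻¹ ∈ T₀ := hy.1
      have := T₀.mul_mem (T₀.mul_mem (T₀.inv_mem x.2) hy1) x.2
      rwa [show (x : G)⁻¹ * ((x : G) * y * (x : G)⁻¹) * (x : G) = y by group] at this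
    exact (Subgroup.mem_normalizer_iff.1 hx ⟨y, hy'⟩).2 hy
  have hT₀1 : T₀ ≠ ⊥ := fun e => hJ1 (eq_bot_iff.2 (e ▸ hJT₀))
  have hT₀s : T₀ ∈ straddlingTwoSubgroups M := ⟨hT₀.2.1, hT₀1, hT₀M, L, hL2, hT₀.1, hLM⟩
  obtain ⟨hJeq, hcard⟩ := absorb hT hT₀s hJT₀
  have cx := isTwoLocal_ctx hL hN hZ hL2
  refine ⟨hJeq.symm, hT₀s, ⟨hT₀, fun h => ?_, cx.cent⟩,
    fun _ hle => Subgroup.eq_of_le_of_card_ge hle hcard, ?_⟩
  · have hO : thompsonSubgroupOf 2 (pCoreOf 2 L) = thompsonSubgroupOf 2 T₀ :=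
      thompson_eq_of_le hT₀ (isPGroup_pCoreOf L) (pCoreOf_le L) h
    refine hLM fun g hg => hnJ ?_
    rw [← hJeq, ← hO]
    refine normalizer_le_thompson _ ?_
    rw [Subgroup.mem_normalizer_iff]
    refine fun x => ⟨conj_mem_core hg, fun h => ?_⟩
    have := conj_mem_core (L.inv_mem hg) h
    rwa [show g⁻¹ * (g * x * g⁻¹) * g⁻¹⁻¹ = x by group] at this
  · by_contra hc
    push Not at hc
    refine hLM (frattini_thompson hT₀ (thompson_le_of_components cx hT₀ (hJeq.le.trans hJM) ?_ ?_) ?_)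
    · refine inf_le_left.trans ((cOf_normalizes_thompson cx hT₀).trans ?_)
      rw [hJeq]; exact hnJ
    · intro K hK hKL
      exact hc K (CfsgLib.JComp.IsJComponent.of_J_eq hJeq.symm hK) hKL
    · rw [hJeq]; exact inf_le_right.trans hnJ

end CfsgLib.JComp
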