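import Cfsg.Agent.JComp.Outside
import Cfsg.Agent.S2947
import Cfsg.Agent.S2949
import Cfsg.Agent.S2952
import Cfsg.Agent.Invol.StronglyEmbedded

/-!
A second component over the same maximal straddling 2-group, and the bound on `Ω₁(Z(J(T)))`.
-/

set_option autoImplicit false
open Cfsg

namespace CfsgLib.JComp

variable {G : Type*} [Group G] [Finite G]

theorem PairCtx.inv_elementary_central {T K : Subgroup G} {x : G} (c : PairCtx T K x)
    (hbound : Nat.card ↥(omegaCenterOf T) ≤ 4) {E : Subgroup G} (hET : E ≤ T)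
    (hsq : ∀ e ∈ E, e * e = 1) (hc : ∀ e ∈ E, ∀ f ∈ E, e * f = f * e) (hx : ∀ e ∈ E, x * e * x⁻¹ ∈ E) :
    E ≤ omegaCenterOf T := by
  obtain ⟨u, hu, hu1, huT⟩ := c.exists_fixed
  obtain ⟨hxu, -, -, -, C, hCQ, hCP, -, hsup, -, -⟩ := c.small hu hu1 huT hbound
  obtain ⟨a₀, ha₀, b₀, hb₀, hne⟩ := c.noncomm
  set b := x * b₀ * x⁻¹ with hb
  have hbT : b ∈ T := c.xT _ (mem_qOf.1 (c.W_le_Q hb₀)).1
  have hbQ : b ∉ qOf T K := fun h => hne ((mem_qOf.1 h).2 a₀ ha₀)
  have hdec : ∀ q ∈ qOf T K, ∃ d ∈ C, ∃ w ∈ wOf K, q = d * w := by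
    intro q hq
    rw [← hsup, ← SetLike.mem_coe, Subgroup.coe_mul_of_left_le_normalizer_right C (wOf K) (fun d hd =>
      Subgroup.mem_normalizer_fintype fun w hw => by
        show d * w * d⁻¹ ∈ wOf K
        rw [← (mem_qOf.1 (hCQ hd)).2 w hw, mul_inv_cancel_right]; exact hw)] at hq
    obtain ⟨d, hd, w, hw, rfl⟩ := hq
    exact ⟨d, hd, w, hw, rfl⟩
  have hCT : ∀ d ∈ C, ∀ t ∈ T, t * d = d * t := fun d hd t ht => hCP t (Subgroup.mem_sup_right ht) d hd
  have hxinv : ∀ e ∈ E, x⁻¹ * e * x ∈ E := by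
    intro e he
    have hn : x⁻¹ ∈ Subgroup.normalizer (E : Set G) := Subgroup.inv_mem _ (Subgroup.mem_normalizer_fintype hx)
    have := (Subgroup.mem_normalizer_iff.1 hn e).1 he
    rwa [inv_inv] at this
  have hv : ∀ w ∈ wOf K, ∀ t ∈ T, t ∉ qOf T K → w * t = t * w → w = 1 ∨ w = u := fun w hw t ht htQ e => by
    by_contra h
    push Not at h
    exact htQ (c.cent_eq hu hu1 huT ht hw h.1 h.2 e)
  have hb₀u : b₀ ≠ u := fun e => hne (by rw [hb, e, hxu, huT a₀ (mem_qOf.1 (c.W_le_Q ha₀)).1])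
  have hb₀1 : b₀ ≠ 1 := fun e => hne (by rw [hb, e]; simp)
  have hEQ : E ≤ qOf T K := by
    intro a ha
    by_contra haQ
    have hab : a * b ∈ qOf T K := by
      rcases c.comm_val hu hu1 huT (hET ha) hb₀ with e | e
      · rw [mul_inv_eq_one, mul_inv_eq_iff_eq_mul] at e
        exact absurd (c.cent_eq hu hu1 huT (hET ha) hb₀ hb₀1 hb₀u e.symm) haQ
      · refine c.cent_eq hu hu1 huT (T.mul_mem (hET ha) hbT) hb₀ hb₀1 hb₀u ?_
        have e' : b * b₀ * b⁻¹ * b₀⁻¹ = u := by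
          rcases c.comm_val hu hu1 huT hbT hb₀ with e' | e'
          · rw [mul_inv_eq_one, mul_inv_eq_iff_eq_mul] at e'
            exact absurd (c.cent_eq hu hu1 huT hbT hb₀ hb₀1 hb₀u e'.symm) hbQ
          · exact e'
        refine (mul_inv_eq_iff_eq_mul.1 ?_).symm
        calc a * b * b₀ * (a * b)⁻¹ = a * (b * b₀ * b⁻¹) * a⁻¹ := by group
          _ = a * (u * b₀) * a⁻¹ := by rw [mul_inv_eq_iff_eq_mul.1 e']
          _ = (a * u * a⁻¹) * (a * b₀ * a⁻¹) := by group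
          _ = u * (u * b₀) := by rw [huT a (hET ha), mul_inv_cancel_right, mul_inv_eq_iff_eq_mul.1 e]
          _ = b₀ := by rw [← mul_assoc, c.W_sq hu, one_mul]
    obtain ⟨d, hd, w, hw, hdw⟩ := hdec _ hab
    have hbsq : b * b = 1 := by
      rw [hb, show x * b₀ * x⁻¹ * (x * b₀ * x⁻¹) = x * (b₀ * b₀) * x⁻¹ by group, c.W_sq hb₀]; group
    have ha' : a = d * w * b := by rw [← hdw, mul_assoc, hbsq, mul_one]
    have hdb : b * d = d * b := hCT d hd b hbT
    have hwd : w * d = d * w := hCT d hd w (mem_qOf.1 (c.W_le_Q hw)).1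
    have hwcase : w = 1 ∨ w = u := by
      by_contra h
      push Not at h
      have hsq' := hsq a ha
      rw [ha', show d * w * b * (d * w * b) = d * w * (b * d) * w * b by group, hdb,
        show d * w * (d * b) * w * b = d * (w * d) * b * w * b by group, hwd,
        show d * (d * w) * b * w * b = (d * d) * (w * b * w * b) by group,
        c.W_sq hw |> fun _ => (show d * d = 1 from (c.small hu hu1 huT hbound).2.1 d (hCQ hd)), one_mul] at hsq'
      refine hbQ (c.cent_eq hu hu1 huT hbT hw h.1 h.2 ?_)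
      calc w * b = (w * b * w * b) * (b⁻¹ * w⁻¹) := by group
        _ = b * w := by rw [hsq', one_mul, inv_eq_of_mul_eq_one_left hbsq, c.W_inv hw]
    have hcen : ∀ t ∈ T, t * (d * w) = d * w * t := by
      intro t ht
      refine ((show Commute t d from hCT d hd t ht).mul_right ?_).eq
      rcases hwcase with rfl | rfl
      exacts [Commute.one_right t, huT t ht]
    have hdwT : d * w ∈ T := T.mul_mem (mem_qOf.1 (hCQ hd)).1 (mem_qOf.1 (c.W_le_Q hw)).1
    have h1 := hc a ha _ (hxinv a ha)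
    rw [ha', show x⁻¹ * (d * w * b) * x = (x⁻¹ * (d * w) * x) * b₀ by rw [hb]; group] at h1
    set z := x⁻¹ * (d * w) * x with hz
    have hzc : ∀ t ∈ T, t * z = z * t := fun t ht => by
      have := conj_comm x⁻¹ (hcen _ (c.xT t ht))
      rwa [show x⁻¹ * (x * t * x⁻¹) * x⁻¹⁻¹ = t by group, inv_inv] at this
    have hzT : z ∈ T := c.xT' hdwT
    have hb₀T : b₀ ∈ T := (mem_qOf.1 (c.W_le_Q hb₀)).1
    have h2 : b * b₀ = b₀ * b := by
      have e1 : d * w * b * (z * b₀) = d * w * z * (b * b₀) := by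
        rw [show d * w * b * (z * b₀) = d * w * (b * z) * b₀ by group, hzc b hbT]; group
      have e2 : z * b₀ * (d * w * b) = d * w * z * (b₀ * b) := by
        rw [show z * b₀ * (d * w * b) = z * (b₀ * (d * w)) * b by group, hcen b₀ hb₀T,
          show z * (d * w * b₀) * b = (z * (d * w)) * (b₀ * b) by group, hcen z hzT]
      rw [e1, e2] at h1
      exact mul_left_cancel h1
    exact hbQ (c.cent_eq hu hu1 huT hbT hb₀ hb₀1 hb₀u h2.symm)
  intro e he
  refine mem_omegaCenterOf.2 ⟨hET he, ?_, hsq e he⟩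
  obtain ⟨d, hd, w, hw, rfl⟩ := hdec e (hEQ he)
  have hwb : w * b = b * w := by
    have h1 := conj_comm x ((mem_qOf.1 (hEQ (hxinv _ he))).2 b₀ hb₀)
    rw [show x * (x⁻¹ * (d * w) * x) * x⁻¹ = d * w by group, ← hb] at h1
    refine mul_left_cancel (a := d) ?_
    calc d * (w * b) = d * w * b := (mul_assoc _ _ _).symm
      _ = b * (d * w) := h1.symm
      _ = b * d * w := (mul_assoc _ _ _).symm
      _ = d * (b * w) := by rw [hCT d hd b hbT, mul_assoc]
  intro t ht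
  refine ((show Commute t d from hCT d hd t ht).mul_right ?_).eq
  rcases hv w hw b hbT hbQ hwb with rfl | rfl
  exacts [Commute.one_right t, huT t ht]

theorem maxElemAbelianOrder_map (g : G) (T : Subgroup G) :
    maxElemAbelianOrder (T.map (MulAut.conj g).toMonoidHom) = maxElemAbelianOrder T := by
  obtain ⟨A, hA⟩ := exists_maxEl T
  rw [maxElemAbelianOrder_eq hA, maxElemAbelianOrder_eq (hA.map (MulAut.conj g)),
    Subgroup.card_map_of_injective (f := (MulAut.conj g).toMonoidHom) (MulAut.conj g).injective]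

theorem isTwoLocal_map (g : G) {L : Subgroup G} (h : IsTwoLocal L) :
    IsTwoLocal (L.map (MulAut.conj g).toMonoidHom) := by
  obtain ⟨P, hP, hP1, rfl⟩ := h
  exact ⟨_, hP.map _, fun e => hP1 ((Subgroup.map_eq_bot_iff_of_injective _ (MulAut.conj g).injective).1 e),
    Subgroup.map_equiv_normalizer_eq P (MulAut.conj g)⟩

theorem maxStraddling_map {M T : Subgroup G} (h : T ∈ maxStraddlingTwoSubgroups M) {g : G} (hg : g ∈ M) :
    T.map (MulAut.conj g).toMonoidHom ∈ maxStraddlingTwoSubgroups M := by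
  obtain ⟨⟨hp, hne, hTM, L, hL, hTL, hLM⟩, hmax⟩ := h
  refine ⟨⟨hp.map _, fun e => hne ((Subgroup.map_eq_bot_iff_of_injective _ (MulAut.conj g).injective).1 e),
    ?_, _, isTwoLocal_map g hL, Subgroup.map_mono hTL, fun hle => hLM fun y hy => ?_⟩, fun R hR => ?_⟩
  · rintro _ ⟨y, hy, rfl⟩
    exact M.mul_mem (M.mul_mem hg (hTM hy)) (M.inv_mem hg)
  · have := M.mul_mem (M.mul_mem (M.inv_mem hg) (hle ⟨y, hy, rfl⟩)) hg
    simpa [mul_assoc] using this
  · rw [maxElemAbelianOrder_map, thompson_map,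
      Subgroup.card_map_of_injective (K := thompsonSubgroupOf 2 T) (f := (MulAut.conj g).toMonoidHom) (MulAut.conj g).injective,
      Subgroup.card_map_of_injective (K := T) (f := (MulAut.conj g).toMonoidHom) (MulAut.conj g).injective]
    exact hmax R hR

namespace StraddleCtx

variable {S : Sylow 2 G} {M T K : Subgroup G} (c : StraddleCtx S M T)
include c

theorem exists_local (hK : K ∈ jComponentsOutside M T) :
    ∃ L : Subgroup G, IsMaximalTwoLocal L ∧ K ≤ L ∧ IsSylowTwoIn T L :=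
  Cfsg.Agent.S2952.exists_local c hK

/-- An elementary abelian group normalised by `T` lies in `T` when `T` is not a Sylow 2-subgroup. -/
theorem elementary_le (hK : IsJComponent T K) (hKM : ¬ K ≤ M) {L : Subgroup G} (hL : IsMaximalTwoLocal L)
    (hTL : IsSylowTwoIn T L) (hKL : K ≤ L) {U : Subgroup G} (hUsq : ∀ y ∈ U, y * y = 1)
    (hUc : ∀ y ∈ U, ∀ y' ∈ U, y * y' = y' * y) (hnU : T ≤ Subgroup.normalizer (U : Set G)) : U ≤ T := by
  by_contra hUT
  have hR : IsPGroup 2 ↥(U ⊔ T) := (isPGroup_of_sq hUsq).to_sup_of_normal_left' c.two hnU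
  obtain ⟨x₀, hx₀, hxT, hx2, hxn⟩ := exists_normalizing hR le_sup_right fun h => hUT (le_sup_left.trans h)
  have hx₀' : x₀ ∈ ((U ⊔ T : Subgroup G) : Set G) := hx₀
  rw [Subgroup.coe_mul_of_right_le_normalizer_left _ _ hnU] at hx₀'
  obtain ⟨x, hxU, s, hs, rfl⟩ := hx₀'
  simp only [] at hxT hx2 hxn
  have hxT' : x ∉ T := fun h => hxT (T.mul_mem h hs)
  have hxn' : ∀ y ∈ T, x * y * x⁻¹ ∈ T := fun y hy => by
    have := hxn _ (T.mul_mem (T.mul_mem (T.inv_mem hs) hy) hs)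
    rwa [show x * s * (s⁻¹ * y * s) * (x * s)⁻¹ = x * y * x⁻¹ by group] at this
  obtain ⟨pc, hbd⟩ := c.pairCtx hK hKM hL hTL hKL hxn' (by rw [hUsq x hxU]; exact T.one_mem)
    (c.not_mem_sylow hTL hR le_sup_right (Subgroup.mem_sup_left hxU) hxT')
  obtain ⟨u, hu, hu1, huT⟩ := pc.exists_fixed
  obtain ⟨hxu, -⟩ := pc.small hu hu1 huT hbd
  obtain ⟨a, ha, b, hb, hne'⟩ := pc.noncomm
  have haT : a ∈ T := (mem_qOf.1 (pc.W_le_Q ha)).1
  have hxi : x⁻¹ = x := inv_eq_of_mul_eq_one_left (hUsq x hxU)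
  have hself : a * (x * a * x⁻¹) = x * a * x⁻¹ * a := by
    have hai : a⁻¹ = a := inv_eq_of_mul_eq_one_left (hK.2.2.2.2.2 a ha)
    have h1 := hUc _ ((Subgroup.mem_normalizer_iff.1 (hnU haT) x).1 hxU) x hxU
    rw [hai] at h1
    rw [hxi]
    calc a * (x * a * x) = a * x * a * x := by group
      _ = x * (a * x * a) := h1
      _ = x * a * x * a := by group
  rcases eq_or_ne a u with rfl | hau
  · exact hne' (huT _ (hxn' b (mem_qOf.1 (pc.W_le_Q hb)).1)).symm
  rcases eq_or_ne a 1 with rfl | ha1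
  · exact hne' (by simp)
  rcases four_cases hK.2.2.2.2.1 (fun y hy => hK.2.2.2.2.2 y hy) hu ha hu1 ha1 (Ne.symm hau) hb with
    h | h | h | h
  · subst h; exact hne' (by simp)
  · subst h; exact hne' (by rw [hxu]; exact huT a haT)
  · subst h; exact hne' hself
  · subst h
    refine hne' ?_
    rw [show x * (u * a) * x⁻¹ = (x * u * x⁻¹) * (x * a * x⁻¹) by group, hxu]
    exact ((show Commute a u from huT a haT).mul_right (show Commute a (x * a * x⁻¹) from hself)).eq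

/-- Either `N(T)` leaves `L`, or a component outside `L` is found over the Sylow 2-subgroup `T`. -/
theorem second (hO : pCore 2 G = ⊥) (hK : IsJComponent T K) (hKM : ¬ K ≤ M)
    {L : Subgroup G} (hL : IsMaximalTwoLocal L) (hTL : IsSylowTwoIn T L) (hKL : K ≤ L) :
    (∃ g ∈ Subgroup.normalizer (T : Set G), g ∉ L) ∨
      ∃ (P : Sylow 2 G) (K₂ L₂ : Subgroup G), StraddleCtx P L T ∧ IsJComponent T K₂ ∧ ¬ K₂ ≤ L ∧
        IsMaximalTwoLocal L₂ ∧ IsSylowTwoIn T L₂ ∧ K₂ ≤ L₂ ∧ T ≤ Subgroup.normalizer (K₂ : Set G) ∧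
        Nat.card ↥(hOf T K) ≤ 2 ∧ Nat.card ↥(z0Of T) ≤ 4 := by
  classical
  haveI : Fact (Nat.Prime 2) := ⟨Nat.prime_two⟩
  have hJL : thompsonSubgroupOf 2 T ≤ L := (thompson_le_self T).trans hTL.1
  have hX := sup_le hKL hJL
  have hT1 := c.T_ne_bot
  obtain ⟨P, hTP, -, -⟩ := c.exists_sylow
  by_cases hPT : (P : Subgroup G) ≤ T
  swap
  · obtain ⟨x, hx, hxT, hx2, hxn⟩ := exists_normalizing P.isPGroup' hTP hPT
    exact Or.inl ⟨x, Subgroup.mem_normalizer_fintype fun t ht => hxn t ht,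
      c.not_mem_sylow hTL P.isPGroup' hTP hx hxT⟩
  have hPeq : (P : Subgroup G) = T := le_antisymm hPT hTP
  by_cases hNJ : Subgroup.normalizer (thompsonSubgroupOf 2 T : Set G) ≤ L
  swap
  · -- then `N(J(T)) = N(T)`
    obtain ⟨g, hgJ, hgL⟩ := SetLike.not_le_iff_exists.1 hNJ
    obtain ⟨-, hZ4⟩ := c.card_sq_le hK hKM hL hX hgJ hgL
    have hTK := c.normalizes hK hKM hL hTL hKL hgJ hgL
    obtain ⟨w, ⟨hwZ, hwW⟩, hw1⟩ := c.exists_w hK
    obtain ⟨hw2, -⟩ := Cfsg.Agent.S2946.result c.char2 c.sol2 c.zn T c.two hT1 K hK (z0Of T) rfl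
    -- `T` centralizes `Z₀`
    have hTJ : T ≤ Subgroup.normalizer (thompsonSubgroupOf 2 T : Set G) :=
      Subgroup.le_normalizer.trans (normalizer_le_thompson T)
    have hfix : ∀ (A : Subgroup G), Nat.card ↥A ≤ 2 → ∀ a ∈ A, a ≠ 1 → ∀ b ∈ A, b ≠ 1 → a = b := by
      intro A hA a ha ha1 b hb hb1
      by_contra hab
      have hsub : ({1, a, b} : Set G) ⊆ (A : Set G) := by
        intro y hy
        simp only [Set.mem_insert_iff, Set.mem_singleton_iff] at hy
        rcases hy with rfl | rfl | rfl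
        exacts [A.one_mem, ha, hb]
      have h1 := Set.ncard_le_ncard hsub (Set.toFinite _)
      rw [Set.ncard_insert_of_notMem (by
        simp only [Set.mem_insert_iff, Set.mem_singleton_iff, not_or]
        exact ⟨Ne.symm ha1, Ne.symm hb1⟩), Set.ncard_pair hab] at h1
      have h2 : (A : Set G).ncard ≤ 2 := hA
      omega
    have hconj1 : ∀ {t a : G}, a ≠ 1 → t * a * t⁻¹ ≠ 1 := fun ha e => ha (by simpa using e)
    have hzc : z0Of T ≤ omegaCenterOf T := by
      intro z hz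
      refine mem_omegaCenterOf.2 ⟨thompson_le_self T (mem_omegaCenterOf.1 hz).1, fun t ht => ?_,
        (mem_omegaCenterOf.1 hz).2.2⟩
      have hwt : t * w * t⁻¹ = w := hfix _ hw2.le _ ⟨conj_mem_omegaCenterOf (hTJ ht) hwZ,
        conj_mem_wOf (fun y hy => (Subgroup.mem_normalizer_iff.1 (hTK ht) y).1 hy) hwW⟩ (hconj1 hw1)
        _ ⟨hwZ, hwW⟩ hw1
      obtain ⟨-, hsup⟩ := Cfsg.Agent.S2946.result c.char2 c.sol2 c.zn T c.two hT1 K hK (z0Of T) rfl
      rw [← hsup] at hz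
      have hle : (z0Of T ⊓ ((K ⊔ thompsonSubgroupOf 2 T) ⊓
          Subgroup.centralizer ((K : Set G) ⊔ (thompsonSubgroupOf 2 T : Set G)))) ⊔ (z0Of T ⊓ wOf K) ≤
          Subgroup.centralizer ({t} : Set G) := by
        refine sup_le (fun a ha => ?_) fun a ha => ?_ <;> refine Subgroup.mem_centralizer_singleton_iff.2 ?_
        · by_cases ha1 : a = 1
          · subst ha1; simp
          have haH : a ∈ hOf T K := ⟨ha.1, Subgroup.mem_centralizer_iff.2 fun y hy =>
            Subgroup.mem_centralizer_iff.1 ha.2.2 y (Or.inl hy)⟩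
          have hta : t * a * t⁻¹ ∈ hOf T K := ⟨conj_mem_omegaCenterOf (hTJ ht) ha.1,
            Subgroup.mem_centralizer_iff.2 fun y hy => by
              have := conj_comm t (Subgroup.mem_centralizer_iff.1 haH.2 (t⁻¹ * y * t) (by
                have h := (Subgroup.mem_normalizer_iff.1 (Subgroup.inv_mem _ (hTK ht)) y).1 hy
                rwa [inv_inv] at h))
              rwa [show t * (t⁻¹ * y * t) * t⁻¹ = y by group] at this⟩
          exact (mul_inv_eq_iff_eq_mul.1 (hfix _ (c.card_sq_le hK hKM hL hX hgJ hgL).1 _ hta (hconj1 ha1) _ haH ha1)).symm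
        · by_cases ha1 : a = 1
          · subst ha1; simp
          have : a = w := hfix _ hw2.le _ ha ha1 _ ⟨hwZ, hwW⟩ hw1
          rw [this]
          exact (mul_inv_eq_iff_eq_mul.1 hwt).symm
      exact (Subgroup.mem_centralizer_singleton_iff.1 (hle hz)).symm
    have hzeq : z0Of T = omegaCenterOf T := le_antisymm hzc (omegaCenterOf_le T)
    refine Or.inl ⟨g, ?_, hgL⟩
    -- `T` is the only Sylow subgroup in the centralizer of `Z₀`
    refine Subgroup.mem_normalizer_fintype fun t ht => ?_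
    have hcent : g * t * g⁻¹ ∈ Subgroup.centralizer (omegaCenterOf (P : Subgroup G) : Set G) := by
      refine Subgroup.mem_centralizer_iff.2 fun z hz => ?_
      rw [hPeq, ← hzeq] at hz
      have hz' : g⁻¹ * z * g ∈ z0Of T := by
        have := conj_mem_omegaCenterOf (Subgroup.inv_mem _ hgJ) hz
        rwa [inv_inv] at this
      have := conj_comm g ((mem_omegaCenterOf.1 (hzc hz')).2.1 t ht).symm
      rwa [show g * (g⁻¹ * z * g) * g⁻¹ = z by group] at this
    have hn := c.zn P hcent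
    show g * t * g⁻¹ ∈ T
    set y := g * t * g⁻¹ with hy
    have hyp : IsPGroup 2 ↥((P : Subgroup G) ⊔ Subgroup.zpowers y) := by
      refine P.isPGroup'.to_sup_of_normal_left' ?_ (Subgroup.zpowers_le.2 hn)
      have hle : Subgroup.zpowers y ≤ T.map (MulAut.conj g).toMonoidHom := Subgroup.zpowers_le.2 ⟨t, ht, rfl⟩
      exact (c.two.map _).to_le hle
    rw [← hPeq, ← P.is_maximal' hyp le_sup_left]
    exact Subgroup.mem_sup_right (Subgroup.mem_zpowers y)
  -- `N(J(T)) ≤ L`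
  right
  have cx := c.ctx hL.1
  have hMJ' : Subgroup.normalizer (thompsonSubgroupOf 2 (P : Subgroup G) : Set G) ≤ L := hPeq ▸ hNJ
  have hWV := wOf_le_vOf cx hTL hT1 hK hKL
  obtain ⟨T₁, hT₁⟩ : (maxStraddlingTwoSubgroups L).Nonempty := by
    refine Cfsg.Agent.S2952.exists_max (Set.nonempty_iff_ne_empty.2 fun hemp => ?_)
    have hSE := (Cfsg.Agent.S2947.result c.char2 c.sol2 c.zn hO P L hL.1 hMJ').2 hemp
    obtain ⟨w, hwW, hw1⟩ := (Subgroup.bot_or_exists_ne_one _).resolve_left (wOf_ne_bot hK)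
    obtain ⟨A, hA, a, ha, haW⟩ : ∃ A, IsMaxEl T A ∧ ∃ a ∈ A, a ∉ Subgroup.centralizer (wOf K : Set G) := by
      by_contra h
      push Not at h
      have hJ : thompsonSubgroupOf 2 T ≤ Subgroup.centralizer (wOf K : Set G) :=
        thompson_le fun A hA a ha => h A hA a ha
      obtain ⟨k, hk, hko, hkQ⟩ := exists_odd_notMem hK
      have hKc : ⁅K, thompsonSubgroupOf 2 T⁆ ≤ Subgroup.centralizer (wOf K : Set G) := by
        refine Subgroup.commutator_le.2 fun y hy j hj => Subgroup.mem_centralizer_iff.2 fun v hv => ?_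
        rw [commutatorElement_def]
        have hv' : y⁻¹ * v * y ∈ wOf K := by
          have := conj_mem_wOf (g := y⁻¹) (fun h hh => K.mul_mem (K.mul_mem (K.inv_mem hy) hh) (K.inv_mem (K.inv_mem hy))) hv
          rwa [inv_inv] at this
        have e1 := Subgroup.mem_centralizer_iff.1 (hJ ((thompsonSubgroupOf 2 T).inv_mem hj)) v hv
        have e2 := Subgroup.mem_centralizer_iff.1 (hJ hj) _ hv'
        calc v * (y * j * y⁻¹ * j⁻¹) = y * ((y⁻¹ * v * y) * j) * y⁻¹ * j⁻¹ := by group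
          _ = y * (j * (y⁻¹ * v * y)) * y⁻¹ * j⁻¹ := by rw [e2]
          _ = y * j * y⁻¹ * (v * j⁻¹) := by group
          _ = y * j * y⁻¹ * (j⁻¹ * v) := by rw [e1]
          _ = y * j * y⁻¹ * j⁻¹ * v := by group
      rw [hK.2.1] at hKc
      exact hw1 (fpf_wOf hK hk hko hkQ hwW (by
        rw [← Subgroup.mem_centralizer_iff.1 (hKc hk) w hwW, mul_inv_cancel_right]))
    have hwsq := hK.2.2.2.2.2 w hwW
    have ha1 : a ≠ 1 := fun e => haW (e ▸ Subgroup.one_mem _)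
    have hao : orderOf a = 2 := orderOf_eq_prime (by rw [pow_two, el_sq hA.el ha]) ha1
    have hwo : orderOf w = 2 := orderOf_eq_prime (by rw [pow_two, hwsq]) hw1
    have haL : a ∈ L := hTL.1 (hA.le ha)
    have hwL : w ∈ L := vOf_le (hWV hwW)
    obtain ⟨g, hg⟩ : ∃ g, g ∉ L := by
      by_contra h
      push Not at h
      exact hSE.1 (eq_top_iff.2 fun y _ => h y)
    have hi : g * w * g⁻¹ ∉ L := fun h => hg (CfsgLib.Invol.mem_of_conj_mem hSE hwo hwL h)
    obtain ⟨d₀, hd₀⟩ := isConj_iff.1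
      (CfsgLib.Invol.isConj_inside_outside hSE hao haL (by rw [CfsgLib.Invol.orderOf_conj]; exact hwo) hi)
    have hdw : d₀⁻¹ * g * w * (d₀⁻¹ * g)⁻¹ = a := by
      calc d₀⁻¹ * g * w * (d₀⁻¹ * g)⁻¹ = d₀⁻¹ * (g * w * g⁻¹) * d₀ := by group
        _ = a := by rw [← hd₀]; group
    have hdL : d₀⁻¹ * g ∈ L := CfsgLib.Invol.mem_of_conj_mem hSE hwo hwL (by rw [hdw]; exact haL)
    have haV : a ∈ vOf L := hdw ▸ conj_mem_vOf hdL (hWV hwW)
    exact haW (Subgroup.mem_centralizer_iff.2 fun v hv =>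
      ((mem_omegaCenterOf.1 haV).2.1 v (vOf_le_core (hWV hv))))
  have c₁ : StraddleCtx P L T₁ := ⟨c.char2, c.sol2, c.zn, hMJ', hT₁⟩
  obtain ⟨K₁, hK₁o⟩ := Cfsg.Agent.S2949.result c.char2 c.sol2 c.zn hO P L hL.1 hMJ' T₁ hT₁
  obtain ⟨L₁, hL₁, hKL₁, hTL₁⟩ := c₁.exists_local hK₁o
  have hN₁ := Cfsg.Agent.S2952.result c.char2 c.sol2 c.zn hO P L hL.1 hMJ' T₁ hT₁ K₁ hK₁o
  obtain ⟨⟨hK₁, -⟩, hK₁L, -⟩ := hK₁o
  have hT₁K : T₁ ≤ Subgroup.normalizer (K₁ : Set G) :=
    le_sup_right.trans ((Subgroup.normal_subgroupOf_iff_le_normalizer le_sup_left).1 hN₁)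
  obtain ⟨l, hl, hmem⟩ := sylow_conj hTL c₁.two c₁.T_le_M
  set φ := (MulAut.conj l).toMonoidHom with hφ
  by_cases hcase : Nat.card ↥T ≤ Nat.card ↥T₁
  · -- `T₁` is a Sylow 2-subgroup
    have hmap : T₁.map φ = T := by
      refine Subgroup.eq_of_le_of_card_ge (by rintro _ ⟨y, hy, rfl⟩; exact hmem y hy) ?_
      rwa [hφ, Subgroup.card_map_of_injective (f := (MulAut.conj l).toMonoidHom) (MulAut.conj l).injective]
    have hTmax := maxStraddling_map hT₁ hl
    rw [← hφ, hmap] at hTmax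
    have c₂ : StraddleCtx P L T := ⟨c.char2, c.sol2, c.zn, hMJ', hTmax⟩
    have hK₂ : IsJComponent T (K₁.map φ) := hmap ▸ IsJComponent.map (MulAut.conj l) hK₁
    have hK₂L : ¬ K₁.map φ ≤ L := fun h => hK₁L fun y hy => by
      have := L.mul_mem (L.mul_mem (L.inv_mem hl) (h ⟨y, hy, rfl⟩)) hl
      simpa [hφ, mul_assoc] using this
    obtain ⟨L₂, hL₂, hle₂⟩ := exists_maximalTwoLocal (isTwoLocal_map l hL₁.1)
    have hKL₂ : K₁.map φ ≤ L₂ := (Subgroup.map_mono hKL₁).trans hle₂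
    have hTL₂ : T ≤ L₂ := hmap ▸ (Subgroup.map_mono hTL₁.1).trans hle₂
    have hTK₂ : T ≤ Subgroup.normalizer (K₁.map φ : Set G) := by
      have h1 : T₁.map φ ≤ (Subgroup.normalizer (K₁ : Set G)).map φ := Subgroup.map_mono hT₁K
      rw [hmap] at h1
      exact h1.trans (Subgroup.le_normalizer_map φ)
    have hdis : ∀ e ∈ hOf T (K₁.map φ), e ∈ hOf T K → e = 1 := by
      intro e he1 he2
      by_contra hne1
      exact hK₂L fun y hy => c.cent_le hK hKM hL hX he2 hne1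
        (Subgroup.mem_centralizer_singleton_iff.2 (Subgroup.mem_centralizer_iff.1 he1.2 y hy))
    have hprod : Nat.card ↥(hOf T (K₁.map φ)) * Nat.card ↥(hOf T K) ≤ Nat.card ↥(z0Of T) := by
      rw [← Nat.card_prod]
      refine Nat.card_le_card_of_injective
        (fun p => ⟨(p.1 : G) * (p.2 : G), (z0Of T).mul_mem p.1.2.1 p.2.2.1⟩) ?_
      rintro ⟨⟨a, ha⟩, ⟨b, hb⟩⟩ ⟨⟨a', ha'⟩, ⟨b', hb'⟩⟩ e
      have e' : a * b = a' * b' := congrArg Subtype.val e
      have e2 : a'⁻¹ * a = b' * b⁻¹ := by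
        calc a'⁻¹ * a = a'⁻¹ * (a * b) * b⁻¹ := by group
          _ = b' * b⁻¹ := by rw [e']; group
      have h1 := hdis _ ((hOf T (K₁.map φ)).mul_mem ((hOf T (K₁.map φ)).inv_mem ha') ha)
        (e2 ▸ (hOf T K).mul_mem hb' ((hOf T K).inv_mem hb))
      rw [h1] at e2
      exact Prod.ext (Subtype.ext (inv_mul_eq_one.1 h1).symm) (Subtype.ext (mul_inv_eq_one.1 e2.symm).symm)
    have hH2 : Nat.card ↥(hOf T K) ≤ 2 := by
      have h1 := hprod.trans (c₂.card_z0_le hK₂)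
      rw [mul_comm] at h1
      exact Nat.le_of_mul_le_mul_right h1 Nat.card_pos
    exact ⟨P, _, L₂, c₂, hK₂, hK₂L, hL₂, c₂.sylow_of_le hK₂ hK₂L hL₂.1 hKL₂ hTL₂, hKL₂, hTK₂, hH2,
      (c.card_z0_le hK).trans (by omega)⟩
  · -- otherwise a contradiction
    exfalso
    set P₁ := T.map (MulAut.conj l⁻¹).toMonoidHom with hP₁
    have hTP₁ : T₁ ≤ P₁ := fun y hy => ⟨l * y * l⁻¹, hmem y hy, by simp [mul_assoc]⟩
    have hP₁p : IsPGroup 2 ↥P₁ := c.two.map _
    have hP₁L : P₁ ≤ L := by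
      rintro _ ⟨y, hy, rfl⟩
      exact L.mul_mem (L.mul_mem (L.inv_mem hl) (hTL.1 hy)) (L.inv_mem (L.inv_mem hl))
    have hne : ¬ P₁ ≤ T₁ := fun h => hcase (by
      rw [← Subgroup.card_map_of_injective (K := T) (f := (MulAut.conj l⁻¹).toMonoidHom) (MulAut.conj l⁻¹).injective]
      exact Subgroup.card_le_of_le h)
    obtain ⟨x, hx, hxT, hx2, hxn⟩ := exists_normalizing hP₁p hTP₁ hne
    have hxL₁ := c₁.not_mem_sylow hTL₁ hP₁p hTP₁ hx hxT
    obtain ⟨pc, hbd⟩ := c₁.pairCtx hK₁ hK₁L hL₁ hTL₁ hKL₁ hxn hx2 hxL₁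
    have hVsq : ∀ y ∈ vOf L, y * y = 1 := fun y hy => (mem_omegaCenterOf.1 hy).2.2
    have hVc : ∀ y ∈ vOf L, ∀ y' ∈ vOf L, y * y' = y' * y := fun y hy y' hy' =>
      ((mem_omegaCenterOf.1 hy).2.1 y' (vOf_le_core hy')).symm
    have hVT : vOf L ≤ T₁ := c₁.elementary_le hK₁ hK₁L hL₁ hTL₁ hKL₁ hVsq hVc fun y hy =>
      Subgroup.mem_normalizer_fintype fun v hv => conj_mem_vOf (c₁.T_le_M hy) hv
    have hVD := pc.inv_elementary_central hbd hVT hVsq hVc fun e he => conj_mem_vOf (hP₁L hx) he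
    have hWD : wOf K = omegaCenterOf T₁ := Subgroup.eq_of_le_of_card_ge (hWV.trans hVD) (by
      rw [hK.2.2.2.2.1]; exact hbd)
    set Z := omegaCenterOf P₁ with hZ
    have hZsq : ∀ y ∈ Z, y * y = 1 := fun y hy => (mem_omegaCenterOf.1 hy).2.2
    have hZc : ∀ y ∈ Z, ∀ y' ∈ Z, y * y' = y' * y := fun y hy y' hy' =>
      ((mem_omegaCenterOf.1 hy).2.1 y' (mem_omegaCenterOf.1 hy').1).symm
    have hZT : Z ≤ T₁ := c₁.elementary_le hK₁ hK₁L hL₁ hTL₁ hKL₁ hZsq hZc fun y hy =>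
      Subgroup.mem_normalizer_fintype fun v hv =>
        conj_mem_omegaCenterOf (Subgroup.le_normalizer (hTP₁ hy)) hv
    have hZD := pc.inv_elementary_central hbd hZT hZsq hZc fun e he =>
      conj_mem_omegaCenterOf (Subgroup.le_normalizer hx) he
    have hx' : x ∈ Subgroup.normalizer (thompsonSubgroupOf 2 T₁ : Set G) :=
      normalizer_le_thompson T₁ (Subgroup.mem_normalizer_fintype fun y hy => hxn y hy)
    have hJL₁ : thompsonSubgroupOf 2 T₁ ≤ L₁ := (thompson_le_self T₁).trans hTL₁.1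
    have hX₁ := sup_le hKL₁ hJL₁
    have hZ4 : Nat.card ↥(z0Of T₁) ≤ 4 := (c₁.card_sq_le hK₁ hK₁L hL₁ hX₁ hx' hxL₁).2
    have hzD : z0Of T₁ = wOf K := by
      rw [hWD]
      exact (Subgroup.eq_of_le_of_card_ge (omegaCenterOf_le T₁) (by rw [← hWD, hK.2.2.2.2.1]; exact hZ4)).symm
    obtain ⟨h, hh, hh1⟩ : ∃ h ∈ hOf T₁ K₁, h ≠ 1 := by
      refine (Subgroup.bot_or_exists_ne_one _).resolve_left fun e => ?_
      have h1 := c₁.card_z0_le hK₁
      rw [hzD, hK.2.2.2.2.1, e, Subgroup.card_bot] at h1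
      omega
    have hxh : x * h * x⁻¹ ≠ h := fun e => hh1
      (c₁.disjoint_conj hK₁ hK₁L hK₁ hK₁L hL₁ hX₁ hX₁ hx' hxL₁ hh (e.symm ▸ hh))
    have hhW : h ∈ wOf K := hzD ▸ hh.1
    obtain ⟨z, hz, hz1⟩ : ∃ z ∈ Z, z ≠ 1 := by
      refine (Subgroup.bot_or_exists_ne_one _).resolve_left fun e => ?_
      have hP₁1 : P₁ ≠ ⊥ := fun e' => c₁.T_ne_bot (eq_bot_iff.2 (e' ▸ hTP₁))
      haveI : Nontrivial ↥P₁ := (Subgroup.nontrivial_iff_ne_bot P₁).2 hP₁1
      haveI := hP₁p.center_nontrivial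
      obtain ⟨k, hk0, hk⟩ := (hP₁p.to_subgroup (Subgroup.center ↥P₁)).nontrivial_iff_card.1 inferInstance
      obtain ⟨y, hy⟩ := exists_prime_orderOf_dvd_card' (G := ↥(Subgroup.center ↥P₁)) 2
        (by rw [hk]; exact dvd_pow_self 2 (by omega))
      have hy2 : ((y : ↥P₁) : G) * ((y : ↥P₁) : G) = 1 := by
        have := pow_orderOf_eq_one y
        rw [hy, pow_two] at this
        simpa using congrArg (fun q : ↥(Subgroup.center ↥P₁) => ((q : ↥P₁) : G)) this
      have hyZ : ((y : ↥P₁) : G) ∈ Z := mem_omegaCenterOf.2 ⟨(y : ↥P₁).2,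
        fun q hq => congrArg Subtype.val (Subgroup.mem_center_iff.1 y.2 ⟨q, hq⟩), hy2⟩
      rw [e, Subgroup.mem_bot] at hyZ
      have : y = 1 := Subtype.ext (Subtype.ext hyZ)
      rw [this, orderOf_one] at hy
      omega
    have hzW : z ∈ wOf K := hWD ▸ hZD hz
    have hzx : x * z * x⁻¹ = z := by rw [(mem_omegaCenterOf.1 hz).2.1 x hx, mul_inv_cancel_right]
    have hzh : z ≠ h := fun e => hxh (e ▸ hzx)
    have hWsq : ∀ y ∈ wOf K, y * y = 1 := hK.2.2.2.2.2
    have hZz : ∀ y ∈ Z, y = 1 ∨ y = z := by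
      intro y hy
      have hyx : x * y * x⁻¹ = y := by rw [(mem_omegaCenterOf.1 hy).2.1 x hx, mul_inv_cancel_right]
      rcases four_cases hK.2.2.2.2.1 hWsq hzW hhW hz1 hh1 hzh (hWD ▸ hZD hy) with e | e | e | e
      · exact Or.inl e
      · exact Or.inr e
      · exact absurd (e ▸ hyx) hxh
      · refine absurd ?_ hxh
        rw [e, show x * (z * h) * x⁻¹ = (x * z * x⁻¹) * (x * h * x⁻¹) by group, hzx] at hyx
        exact mul_left_cancel hyx
    obtain ⟨k, hk, hko, hkQ⟩ := exists_odd_notMem hK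
    have hkW : ∀ y ∈ wOf K, k * y * k⁻¹ ∈ wOf K := fun y hy =>
      conj_mem_wOf (fun q hq => K.mul_mem (K.mul_mem hk hq) (K.inv_mem hk)) hy
    have hne' : ∀ {y : G}, y ∈ wOf K → y ≠ 1 → k * y * k⁻¹ ≠ y ∧ k * y * k⁻¹ ≠ 1 := fun hy hy1 =>
      ⟨fun e => hy1 (fpf_wOf hK hk hko hkQ hy e), fun e => hy1 (by simpa using e)⟩
    obtain ⟨y, hy, hyh⟩ : ∃ y ∈ L, y * h * y⁻¹ = z := by
      obtain ⟨n1, n2⟩ := hne' hhW hh1
      rcases four_cases hK.2.2.2.2.1 hWsq hzW hhW hz1 hh1 hzh (hkW h hhW) with e | e | e | e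
      · exact absurd e n2
      · exact ⟨k, hKL hk, e⟩
      · exact absurd e n1
      refine ⟨k * k, L.mul_mem (hKL hk) (hKL hk), ?_⟩
      have hkk : k * k * h * (k * k)⁻¹ = k * (k * h * k⁻¹) * k⁻¹ := by group
      rw [hkk]
      obtain ⟨m1, m2⟩ := hne' (hkW h hhW) n2
      rcases four_cases hK.2.2.2.2.1 hWsq hzW hhW hz1 hh1 hzh (hkW _ (hkW h hhW)) with e' | e' | e' | e'
      · exact absurd e' m2
      · exact e'
      · exfalso
        have h3 : k * (k * (k * h * k⁻¹) * k⁻¹) * k⁻¹ = h := by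
          rw [show k * (k * (k * h * k⁻¹) * k⁻¹) * k⁻¹ = (k * k * k) * h * (k * k * k)⁻¹ by group,
            (mem_omegaCenterOf.1 (wOf_le_omega K hhW)).2.1 _ (K_cases hK hk hkQ).1, mul_inv_cancel_right]
        rw [e'] at h3
        exact n1 h3
      · exact absurd (e'.trans e.symm) m1
    refine hK₁L fun q hq => ?_
    have hq' : y * q * y⁻¹ ∈ Subgroup.centralizer (Z : Set G) := Subgroup.mem_centralizer_iff.2 fun r hr => by
      rcases hZz r hr with rfl | rfl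
      · simp
      · have := conj_comm y (Subgroup.mem_centralizer_iff.1 hh.2 q hq).symm
        rwa [hyh] at this
    have hNP : Subgroup.normalizer (P₁ : Set G) ≤ L := by
      intro n hn
      have h1 : l * n * l⁻¹ ∈ Subgroup.normalizer (T : Set G) := Subgroup.mem_normalizer_fintype fun t ht => by
        obtain ⟨t', ht', e⟩ := (Subgroup.mem_normalizer_iff.1 hn (l⁻¹ * t * l)).1 ⟨t, ht, by simp [mul_assoc]⟩
        have e2 : l * n * l⁻¹ * t * (l * n * l⁻¹)⁻¹ = t' := by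
          calc l * n * l⁻¹ * t * (l * n * l⁻¹)⁻¹ = l * (n * (l⁻¹ * t * l) * n⁻¹) * l⁻¹ := by group
            _ = l * (MulAut.conj l⁻¹).toMonoidHom t' * l⁻¹ := by rw [e]
            _ = t' := by simp [mul_assoc]
        show l * n * l⁻¹ * t * (l * n * l⁻¹)⁻¹ ∈ T
        rw [e2]; exact ht'
      have := L.mul_mem (L.mul_mem (L.inv_mem hl) (hNJ (normalizer_le_thompson T h1))) hl
      rwa [show l⁻¹ * (l * n * l⁻¹) * l = n by group] at this
    have hzn : Subgroup.centralizer (Z : Set G) ≤ Subgroup.normalizer (P₁ : Set G) := by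
      have := c.zn (l⁻¹ • P)
      rw [show ((l⁻¹ • P : Sylow 2 G) : Subgroup G) = P₁ from by rw [hP₁, ← hPeq]; rfl] at this
      exact this
    have := L.mul_mem (L.mul_mem (L.inv_mem hy) (hNP (hzn hq'))) hy
    rwa [show y⁻¹ * (y * q * y⁻¹) * y = q by group] at this

/-- `Ω₁(Z(J(T)))` has order at most four. -/
theorem bound (hO : pCore 2 G = ⊥) (hK : IsJComponent T K) (hKM : ¬ K ≤ M) {L : Subgroup G}
    (hL : IsMaximalTwoLocal L) (hTL : IsSylowTwoIn T L) (hKL : K ≤ L) :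
    Nat.card ↥(hOf T K) ≤ 2 ∧ Nat.card ↥(z0Of T) ≤ 4 := by
  rcases c.second hO hK hKM hL hTL hKL with ⟨g, hg, hgL⟩ | ⟨P, K₂, L₂, -, -, -, -, -, -, -, h1, h2⟩
  · exact c.card_sq_le hK hKM hL (sup_le hKL ((thompson_le_self T).trans hTL.1))
      (normalizer_le_thompson T hg) hgL
  · exact ⟨h1, h2⟩

end StraddleCtx

end CfsgLib.JComp
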