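import Cfsg.Agent.JComp.Transport
import Cfsg.Agent.JComp.FFCore
import Cfsg.Agent.PLocalBasics.ActModel
import Cfsg.Agent.PCore.PSolvable
import Cfsg.Agent.PReduced.Basic
import Cfsg.Agent.S2941

/-!
J(T)-components inside a solvable subgroup with self-centralizing 2-core.
-/

set_option autoImplicit false
open scoped commutatorElement
open Cfsg

namespace CfsgLib.JComp

variable {G : Type*} [Group G] [Finite G]

/-- The standing hypotheses: a ZN-group and a solvable subgroup `L` with self-centralizing 2-core. -/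
structure LocalCtx (L : Subgroup G) : Prop where
  char2 : IsCharacteristicTwoType G
  sol2 : ∀ N : Subgroup G, IsTwoLocal N → Group.IsSolvable ↥N
  zn : ∀ S : Sylow 2 G, Subgroup.centralizer (omegaCenterOf (S : Subgroup G) : Set G) ≤
    Subgroup.normalizer ((S : Subgroup G) : Set G)
  sol : Group.IsSolvable ↥L
  cent : Subgroup.centralizer (pCoreOf 2 L : Set G) ≤ pCoreOf 2 L

variable {L : Subgroup G}

/-- `V = Ω₁ Z(O₂(L))`. -/
abbrev vOf (L : Subgroup G) : Subgroup G := omegaCenterOf (pCoreOf 2 L)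

/-- `C = C_L(V)`. -/
abbrev cOf (L : Subgroup G) : Subgroup G := L ⊓ Subgroup.centralizer (vOf L : Set G)

theorem conj_mem_core {g x : G} (hg : g ∈ L) (hx : x ∈ pCoreOf 2 L) : g * x * g⁻¹ ∈ pCoreOf 2 L :=
  conj_mem_pCoreOf (fun _ hh => L.mul_mem (L.mul_mem hg hh) (L.inv_mem hg)) hx

theorem vOf_le_core : vOf L ≤ pCoreOf 2 L := fun _ hx => (mem_omegaCenterOf.1 hx).1

theorem vOf_le : vOf L ≤ L := vOf_le_core.trans (pCoreOf_le L)

theorem conj_mem_vOf {g x : G} (hg : g ∈ L) (hx : x ∈ vOf L) : g * x * g⁻¹ ∈ vOf L := by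
  obtain ⟨h1, h2, h3⟩ := mem_omegaCenterOf.1 hx
  refine mem_omegaCenterOf.2 ⟨conj_mem_core hg h1, fun y hy => ?_, ?_⟩
  · have hy' := conj_mem_core (L.inv_mem hg) hy
    calc y * (g * x * g⁻¹) = g * ((g⁻¹ * y * g⁻¹⁻¹) * x) * g⁻¹ := by group
      _ = g * (x * (g⁻¹ * y * g⁻¹⁻¹)) * g⁻¹ := by rw [h2 _ hy']
      _ = g * x * g⁻¹ * y := by group
  · rw [show g * x * g⁻¹ * (g * x * g⁻¹) = g * (x * x) * g⁻¹ by group, h3]; group

theorem vOf_el : IsElementaryAbelian 2 (vOf L) :=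
  ⟨⟨⟨fun a b => Subtype.ext (((mem_omegaCenterOf.1 a.2).2.1 b (vOf_le_core b.2)).symm)⟩⟩,
    fun a ha => by rw [pow_two]; exact (mem_omegaCenterOf.1 ha).2.2⟩

theorem mem_cOf {c : G} : c ∈ cOf L ↔ c ∈ L ∧ ∀ v ∈ vOf L, v * c = c * v := by
  rw [cOf, Subgroup.mem_inf, Subgroup.mem_centralizer_iff]
  rfl

theorem conj_mem_cOf {g c : G} (hg : g ∈ L) (hc : c ∈ cOf L) : g * c * g⁻¹ ∈ cOf L := by
  obtain ⟨h1, h2⟩ := mem_cOf.1 hc
  refine mem_cOf.2 ⟨L.mul_mem (L.mul_mem hg h1) (L.inv_mem hg), fun v hv => ?_⟩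
  have hv' := conj_mem_vOf (L.inv_mem hg) hv
  calc v * (g * c * g⁻¹) = g * ((g⁻¹ * v * g⁻¹⁻¹) * c) * g⁻¹ := by group
    _ = g * (c * (g⁻¹ * v * g⁻¹⁻¹)) * g⁻¹ := by rw [h2 _ hv']
    _ = g * c * g⁻¹ * v := by group

theorem core_le_cOf : pCoreOf 2 L ≤ cOf L := fun x hx =>
  mem_cOf.2 ⟨pCoreOf_le L hx, fun _ hv => ((mem_omegaCenterOf.1 hv).2.1 x hx).symm⟩

theorem sylow_conj {X : Subgroup G} (hX : IsSylowTwoIn X L) {Y : Subgroup G} (hY : IsPGroup 2 ↥Y) (hYL : Y ≤ L) :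
    ∃ g ∈ L, ∀ y ∈ Y, g * y * g⁻¹ ∈ X := by
  haveI : Fact (Nat.Prime 2) := ⟨Nat.prime_two⟩
  have hXp : IsPGroup 2 ↥(X.subgroupOf L) := hX.2.1.comap_subtype
  have hidx : ¬ 2 ∣ (X.subgroupOf L).index := by
    have := hX.2.2
    rw [Subgroup.relIndex, Nat.odd_iff] at this
    omega
  obtain ⟨Q, hQ⟩ := (hY.comap_subtype (K := L)).exists_le_sylow
  obtain ⟨g, hg⟩ := MulAction.exists_smul_eq ↥L Q (hXp.toSylow hidx)
  refine ⟨g, g.2, fun y hy => ?_⟩
  have h1 : (⟨y, hYL hy⟩ : ↥L) ∈ (Q : Subgroup ↥L) := hQ hy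
  have h2 : MulAut.conj g • (⟨y, hYL hy⟩ : ↥L) ∈ ((g • Q : Sylow 2 ↥L) : Subgroup ↥L) :=
    Subgroup.smul_mem_pointwise_smul _ _ _ h1
  rw [hg] at h2
  exact h2

theorem core_le_sylow {X : Subgroup G} (hX : IsSylowTwoIn X L) : pCoreOf 2 L ≤ X := by
  intro x hx
  obtain ⟨g, hg, hgx⟩ := sylow_conj hX (isPGroup_pCoreOf L) (pCoreOf_le L)
  have := hgx _ (conj_mem_core (L.inv_mem hg) hx)
  rwa [show g * (g⁻¹ * x * g⁻¹⁻¹) * g⁻¹ = x by group] at this

theorem cOf_normalizes (cx : LocalCtx L) {X : Subgroup G} (hX : IsSylowTwoIn X L) {c : G} (hc : c ∈ cOf L)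
    {x : G} (hx : x ∈ X) : c * x * c⁻¹ ∈ X := by
  haveI : Fact (Nat.Prime 2) := ⟨Nat.prime_two⟩
  obtain ⟨S, hS⟩ := hX.2.1.exists_le_sylow
  have hcS : c ∈ Subgroup.normalizer ((S : Subgroup G) : Set G) := by
    refine cx.zn S (Subgroup.mem_centralizer_iff.2 fun z hz => ?_)
    obtain ⟨h1, h2, h3⟩ := mem_omegaCenterOf.1 hz
    refine (mem_cOf.1 hc).2 z (mem_omegaCenterOf.2 ⟨cx.cent (Subgroup.mem_centralizer_iff.2 fun y hy => ?_), ?_, h3⟩)
    · exact h2 y (hS (core_le_sylow hX hy))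
    · exact fun y hy => h2 y (hS (core_le_sylow hX hy))
  have hY : IsPGroup 2 ↥((S : Subgroup G) ⊓ L) := S.isPGroup'.to_le inf_le_left
  obtain ⟨e, he⟩ := IsPGroup.iff_card.1 hY
  have hXY : X ≤ (S : Subgroup G) ⊓ L := le_inf hS hX.1
  have hd1 : X.relIndex ((S : Subgroup G) ⊓ L) ∣ 2 ^ e := he ▸ Subgroup.index_dvd_card _
  have hd2 : X.relIndex ((S : Subgroup G) ⊓ L) ∣ X.relIndex L :=
    Dvd.intro _ (Subgroup.relIndex_mul_relIndex X _ L hXY inf_le_right)
  have h1 := Nat.eq_one_of_dvd_coprimes ((Nat.coprime_two_right.2 hX.2.2).pow_right e) hd2 hd1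
  exact (Subgroup.relIndex_eq_one.1 h1) ⟨(Subgroup.mem_normalizer_iff.1 hcS x).1 (hS hx),
    L.mul_mem (L.mul_mem (mem_cOf.1 hc).1 (hX.1 hx)) (L.inv_mem (mem_cOf.1 hc).1)⟩

theorem cOf_normalizes_thompson (cx : LocalCtx L) {X : Subgroup G} (hX : IsSylowTwoIn X L) :
    cOf L ≤ Subgroup.normalizer (thompsonSubgroupOf 2 X : Set G) := by
  refine le_trans (fun c hc => ?_) (normalizer_le_thompson X)
  rw [Subgroup.mem_normalizer_iff]
  refine fun x => ⟨cOf_normalizes cx hX hc, fun h => ?_⟩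
  have := cOf_normalizes cx hX ((cOf L).inv_mem hc) h
  rwa [show c⁻¹ * (c * x * c⁻¹) * c⁻¹⁻¹ = x by group] at this

theorem two_elem_mem_core (cx : LocalCtx L) {c : G} (hc : c ∈ cOf L) {n : ℕ} (hn : c ^ 2 ^ n = 1) :
    c ∈ pCoreOf 2 L := by
  haveI : Fact (Nat.Prime 2) := ⟨Nat.prime_two⟩
  have hp : IsPGroup 2 ↥(Subgroup.zpowers c) := by
    refine IsPGroup.iff_card.2 ?_
    obtain ⟨m, -, hm⟩ := (Nat.dvd_prime_pow Nat.prime_two).1 (orderOf_dvd_of_pow_eq_one hn)
    exact ⟨m, by rw [Nat.card_zpowers, hm]⟩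
  obtain ⟨X, hcX, hX⟩ := exists_sylowTwoIn hp (Subgroup.zpowers_le.2 (mem_cOf.1 hc).1 : _ ≤ L)
  set D := cOf L ⊓ X with hD
  have hDn : cOf L ≤ Subgroup.normalizer (D : Set G) := by
    intro a ha
    rw [Subgroup.mem_normalizer_iff]
    intro x
    refine ⟨fun h => ⟨(cOf L).mul_mem ((cOf L).mul_mem ha h.1) ((cOf L).inv_mem ha),
      cOf_normalizes cx hX ha h.2⟩, fun h => ?_⟩
    have h' := cOf_normalizes cx hX ((cOf L).inv_mem ha) h.2
    rw [show a⁻¹ * (a * x * a⁻¹) * a⁻¹⁻¹ = x by group] at h'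
    refine ⟨?_, h'⟩
    have := (cOf L).mul_mem ((cOf L).mul_mem ((cOf L).inv_mem ha) h.1) ha
    rwa [show a⁻¹ * (a * x * a⁻¹) * a = x by group] at this
  haveI hCn : ((cOf L).subgroupOf L).Normal := ⟨fun x hx g => conj_mem_cOf g.2 hx⟩
  have hDs : (D.subgroupOf L).IsSubnormal := by
    refine Components.subnormal_of_normal_le (K := (cOf L).subgroupOf L) (fun x hx => hx.1) (fun a ha => ?_)
      hCn.isSubnormal
    rw [Subgroup.mem_normalizer_iff]
    exact fun x => Subgroup.mem_normalizer_iff.1 (hDn ha) (x : G)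
  have hDp : IsPGroup 2 ↥(D.subgroupOf L) := (hX.2.1.to_le inf_le_right).comap_subtype
  exact ⟨⟨c, (mem_cOf.1 hc).1⟩, Components.subnormal_le_pCore hDs hDp ⟨hc, hcX (Subgroup.mem_zpowers c)⟩, rfl⟩

theorem comm_sylow_mem_core (cx : LocalCtx L) {X : Subgroup G} (hX : IsSylowTwoIn X L) {c : G} (hc : c ∈ cOf L)
    {x : G} (hx : x ∈ X) : c * x * c⁻¹ * x⁻¹ ∈ pCoreOf 2 L := by
  have hm : c * x * c⁻¹ * x⁻¹ ∈ cOf L ⊓ X := by
    refine ⟨?_, X.mul_mem (cOf_normalizes cx hX hc hx) (X.inv_mem hx)⟩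
    rw [show c * x * c⁻¹ * x⁻¹ = c * (x * c⁻¹ * x⁻¹) by group]
    exact (cOf L).mul_mem hc (conj_mem_cOf (hX.1 hx) ((cOf L).inv_mem hc))
  obtain ⟨n, hn⟩ := hX.2.1 ⟨_, hm.2⟩
  exact two_elem_mem_core cx hm.1 (n := n) (by simpa using congrArg Subtype.val hn)

theorem maxEl_conj {T : Subgroup G} (hT : IsSylowTwoIn T L) {A : Subgroup G} (hA : IsMaxEl T A) : IsMaxEl L A := by
  refine ⟨hA.le.trans hT.1, hA.el, fun B hB hBe => ?_⟩
  have hBp : IsPGroup 2 ↥B := fun b => ⟨1, Subtype.ext (by simpa using hBe.2 b b.2)⟩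
  obtain ⟨g, hg, hgB⟩ := sylow_conj hT hBp hB
  have := hA.max (B.map (MulAut.conj g).toMonoidHom) (by rintro _ ⟨b, hb, rfl⟩; exact hgB b hb) (el_map _ hBe)
  rwa [Subgroup.card_map_of_injective (MulAut.conj g).injective] at this

theorem thompson_sylow_le {T : Subgroup G} (hT : IsSylowTwoIn T L) :
    thompsonSubgroupOf 2 T ≤ thompsonSubgroupOf 2 L :=
  thompson_le fun _ hA => (maxEl_conj hT hA).le_thompson

/-- `C` centralizes `J(L)` modulo `O₂(L)`. -/
theorem cOf_comm_J (cx : LocalCtx L) {c : G} (hc : c ∈ cOf L) {j : G} (hj : j ∈ thompsonSubgroupOf 2 L) :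
    c * j * c⁻¹ * j⁻¹ ∈ pCoreOf 2 L := by
  let D : Subgroup G :=
    { carrier := {j | j ∈ L ∧ ∀ c ∈ cOf L, c * j * c⁻¹ * j⁻¹ ∈ pCoreOf 2 L}
      one_mem' := ⟨L.one_mem, fun c _ => by simp⟩
      mul_mem' := by
        rintro p q ⟨hp, hp'⟩ ⟨hq, hq'⟩
        refine ⟨L.mul_mem hp hq, fun c hc => ?_⟩
        rw [show c * (p * q) * c⁻¹ * (p * q)⁻¹ = (c * p * c⁻¹ * p⁻¹) * (p * (c * q * c⁻¹ * q⁻¹) * p⁻¹) by group]
        exact (pCoreOf 2 L).mul_mem (hp' c hc) (conj_mem_core hp (hq' c hc))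
      inv_mem' := by
        rintro p ⟨hp, hp'⟩
        refine ⟨L.inv_mem hp, fun c hc => ?_⟩
        have := conj_mem_core (L.inv_mem hp) ((pCoreOf 2 L).inv_mem (hp' c hc))
        rwa [show p⁻¹ * (c * p * c⁻¹ * p⁻¹)⁻¹ * p⁻¹⁻¹ = c * p⁻¹ * c⁻¹ * p⁻¹⁻¹ by group] at this }
  have hle : thompsonSubgroupOf 2 L ≤ D := thompson_le fun B hB b hb => by
    have hBp : IsPGroup 2 ↥B := fun b => ⟨1, Subtype.ext (by simpa using hB.el.2 b b.2)⟩
    obtain ⟨X, hBX, hX⟩ := exists_sylowTwoIn hBp hB.le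
    exact ⟨hB.le hb, fun c hc => comm_sylow_mem_core cx hX hc (hBX hb)⟩
  exact (hle hj).2 c hc

/-- The structure forced by failure of factorization. -/
theorem ff_structure (cx : LocalCtx L) :
    (∀ x ∈ thompsonSubgroupOf 2 L, ∀ y ∈ thompsonSubgroupOf 2 L, Odd (orderOf x) → Odd (orderOf y) →
      x * y * x⁻¹ * y⁻¹ ∈ pCoreOf 2 L) ∧
    (∀ x ∈ thompsonSubgroupOf 2 L, Odd (orderOf x) →
      ((Subgroup.zpowers x ⊔ cOf L).subgroupOf L).IsSubnormal) ∧
    (∀ T : Subgroup G, IsSylowTwoIn T L → ∀ N : Subgroup G, thompsonSubgroupOf 2 T ≤ N →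
      (∀ x ∈ thompsonSubgroupOf 2 L, Odd (orderOf x) → x ∈ N) → cOf L ⊓ thompsonSubgroupOf 2 L ≤ N →
      thompsonSubgroupOf 2 L ≤ N) ∧
    (∀ T : Subgroup G, IsSylowTwoIn T L → ∀ N : Subgroup G, thompsonSubgroupOf 2 T ≤ N →
      cOf L ⊓ thompsonSubgroupOf 2 L ≤ N →
      (∀ k ∈ thompsonSubgroupOf 2 L, k ^ 3 = 1 → k ∉ cOf L →
        (∀ b ∈ thompsonSubgroupOf 2 T, b * k * b⁻¹ ∈ Subgroup.zpowers k ⊔ pCoreOf 2 L) →
        (∃ A, IsMaxEl T A ∧ ∃ a ∈ A, a * k * a⁻¹ * k ∈ pCoreOf 2 L) → k ∈ N) →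
      thompsonSubgroupOf 2 L ≤ N) := by
  haveI : Fact (Nat.Prime 2) := ⟨Nat.prime_two⟩
  set V := (vOf L).subgroupOf L with hV
  haveI hVn : V.Normal := ⟨fun x hx g => conj_mem_vOf g.2 hx⟩
  have hVe : IsElementaryAbelian 2 V := el_subgroupOf vOf_le vOf_el
  haveI := cx.sol
  set C := Subgroup.centralizer (V : Set ↥L) with hC
  have hCmem : ∀ x : ↥L, x ∈ C ↔ (x : G) ∈ cOf L := by
    intro x
    rw [hC, Subgroup.mem_centralizer_iff, mem_cOf]
    refine ⟨fun h => ⟨x.2, fun v hv => congrArg Subtype.val (h ⟨v, vOf_le hv⟩ hv)⟩,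
      fun h v hv => Subtype.ext (h.2 v hv)⟩
  set O := pCore 2 ↥L with hO
  haveI := Components.pCore_characteristic (G := ↥L) 2
  have hOmem : ∀ x : ↥L, x ∈ O ↔ (x : G) ∈ pCoreOf 2 L := fun x =>
    ⟨fun h => ⟨x, h, rfl⟩, fun ⟨y, hy, e⟩ => Subtype.ext e ▸ hy⟩
  -- the 2-core of L / C is trivial
  have hbot : pCore 2 (↥L ⧸ C) = ⊥ := by
    set q := QuotientGroup.mk' C with hq
    haveI := Components.pCore_characteristic (G := ↥L ⧸ C) 2
    obtain ⟨S, hS0⟩ := (IsPGroup.of_bot (p := 2) (G := ↥L)).exists_le_sylow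
    have hXp : IsPGroup 2 ↥((S : Subgroup ↥L).map L.subtype) := S.isPGroup'.map _
    have hX : IsSylowTwoIn ((S : Subgroup ↥L).map L.subtype) L := by
      refine ⟨Subgroup.map_subtype_le _, hXp, ?_⟩
      rw [Subgroup.relIndex, Subgroup.subgroupOf, Subgroup.comap_map_eq_self_of_injective L.subtype_injective,
        Nat.odd_iff]
      have := S.not_dvd_index
      omega
    set M := (pCore 2 (↥L ⧸ C)).comap q with hM
    have hCS : C ≤ Subgroup.normalizer ((S : Subgroup ↥L) : Set ↥L) := by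
      intro c hc
      rw [Subgroup.mem_normalizer_iff]
      intro x
      constructor
      · intro hx
        obtain ⟨y, hy, e⟩ := cOf_normalizes cx hX ((hCmem c).1 hc) ⟨x, hx, rfl⟩
        rwa [show c * x * c⁻¹ = y from Subtype.ext e.symm]
      · intro hx
        obtain ⟨y, hy, e⟩ := cOf_normalizes cx hX ((cOf L).inv_mem ((hCmem c).1 hc)) ⟨_, hx, rfl⟩
        have e' : y = c⁻¹ * (c * x * c⁻¹) * c⁻¹⁻¹ := Subtype.ext e
        rw [show x = c⁻¹ * (c * x * c⁻¹) * c⁻¹⁻¹ by group, ← e']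
        exact hy
    have hMS : M ≤ C ⊔ (S : Subgroup ↥L) := by
      have hSi : ¬ 2 ∣ ((S : Subgroup ↥L).map q).index := fun h => S.not_dvd_index
        (h.trans (Subgroup.index_map_dvd _ (QuotientGroup.mk'_surjective C)))
      set SQ := (S.isPGroup'.map q).toSylow hSi
      have hle : pCore 2 (↥L ⧸ C) ≤ (S : Subgroup ↥L).map q := by
        obtain ⟨P, hP⟩ := ((Components.pCore_isPGroup (G := ↥L ⧸ C) 2).to_sup_of_normal_left
          (S.isPGroup'.map q)).exists_le_sylow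
        have h1 : SQ = P := Sylow.ext (SQ.is_maximal' P.isPGroup' (le_sup_right.trans hP)).symm
        intro x hx
        exact h1.ge (hP (Subgroup.mem_sup_left hx))
      intro x hx
      obtain ⟨s, hs, e⟩ := hle hx
      have : x * s⁻¹ ∈ C := (QuotientGroup.eq_one_iff _).1 (show q (x * s⁻¹) = 1 by
        rw [map_mul, map_inv, e, mul_inv_cancel])
      rw [show x = x * s⁻¹ * s by group]
      exact Subgroup.mul_mem _ (Subgroup.mem_sup_left this) (Subgroup.mem_sup_right hs)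
    have hMn : M ≤ Subgroup.normalizer ((M ⊓ (S : Subgroup ↥L) : Subgroup ↥L) : Set ↥L) := by
      intro a ha
      have hall : M ≤ Subgroup.normalizer ((S : Subgroup ↥L) : Set ↥L) :=
        hMS.trans (sup_le hCS Subgroup.le_normalizer)
      rw [Subgroup.mem_normalizer_iff]
      intro x
      exact and_congr (Subgroup.mem_normalizer_iff.1 (Subgroup.le_normalizer ha) x)
        (Subgroup.mem_normalizer_iff.1 (hall ha) x)
    have hO' : M ⊓ (S : Subgroup ↥L) ≤ O :=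
      Components.subnormal_le_pCore (Components.subnormal_of_normal_le inf_le_left hMn
        (inferInstance : M.Normal).isSubnormal) (S.isPGroup'.to_le inf_le_right)
    rw [eq_bot_iff]
    intro y hy
    obtain ⟨x, rfl⟩ := QuotientGroup.mk'_surjective C y
    obtain ⟨c, hc, s, hs, e⟩ : ∃ c ∈ C, ∃ s ∈ (S : Subgroup ↥L), c * s = x := by
      obtain ⟨c, hc, s, hs, e⟩ := Subgroup.mem_sup_of_normal_left.1 (hMS hy)
      exact ⟨c, hc, s, hs, e⟩
    have hsM : s ∈ M := by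
      rw [show s = c⁻¹ * x by rw [← e]; group]
      refine M.mul_mem (M.inv_mem ?_) hy
      show q c ∈ pCore 2 (↥L ⧸ C)
      rw [show q c = 1 from (QuotientGroup.eq_one_iff c).2 hc]
      exact one_mem _
    have hsC : s ∈ C := (hCmem s).2 (core_le_cOf ((hOmem s).1 (hO' ⟨hsM, hs⟩)))
    rw [Subgroup.mem_bot, ← e]
    exact (QuotientGroup.eq_one_iff _).2 (C.mul_mem hc hsC)
  set f := PLocalBasics.actι V with hf
  obtain ⟨c, hgen⟩ := PLocalBasics.model_faithCtx (p := 2) V f (PLocalBasics.actV V)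
    CfsgLib.PCore.isPSolvable_of_isSolvable hVe hbot (PLocalBasics.actV_injective V) (PLocalBasics.actι_conj V)
    (PLocalBasics.actι_faith V)
  have hker : f.ker = C := PLocalBasics.ker_eq_centralizer V f (PLocalBasics.actV V)
    (PLocalBasics.actV_injective V) (PLocalBasics.actι_conj V) (PLocalBasics.actι_faith V)
  set V' := (PLocalBasics.actV V).range with hV'
  set J := thompsonSubgroup 2 ↥L with hJ
  haveI : J.Characteristic := PLocalBasics.thompson_characteristic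
  haveI : J.Normal := inferInstance
  set H := J.map f with hH
  have hJmem : ∀ x : G, x ∈ thompsonSubgroupOf 2 L ↔ ∃ y ∈ J, (y : G) = x := fun x => Subgroup.mem_map
  set π := QuotientGroup.mk' O with hπ
  have hπ1 : ∀ x : ↥L, π x = 1 ↔ x ∈ O := fun x => QuotientGroup.eq_one_iff x
  have hCJ : ∀ a ∈ C, ∀ j ∈ J, Commute (π a) (π j) := by
    intro a ha j hj
    show π a * π j = π j * π a
    rw [← commutatorElement_eq_one_iff_mul_comm, ← map_commutatorElement, hπ1, hOmem]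
    exact cOf_comm_J cx ((hCmem a).1 ha) ((hJmem j).2 ⟨j, hj, rfl⟩)
  have htwo : ∀ a ∈ C, ∀ n : ℕ, a ^ 2 ^ n ∈ O → a ∈ O := by
    intro a ha n hn
    obtain ⟨m, hm⟩ := (Components.pCore_isPGroup (G := ↥L) 2) ⟨_, hn⟩
    have h1 : ((a : G) ^ 2 ^ n) ^ 2 ^ m = 1 := by
      simpa using congrArg (fun z : ↥O => ((z : ↥L) : G)) hm
    rw [← pow_mul, ← pow_add] at h1
    exact (hOmem a).2 (two_elem_mem_core cx ((hCmem a).1 ha) h1)
  set Sg : Set ↥L := {g | g ∈ J ∧ f g ∈ three V' H} with hSg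
  have himg : (Subgroup.closure Sg).map f = Subgroup.closure (three V' H) := by
    rw [MonoidHom.map_closure]
    congr 1
    ext r
    constructor
    · rintro ⟨g, hg, rfl⟩; exact hg.2
    · intro hr
      obtain ⟨g, hg, rfl⟩ := (closure_three_le c) (Subgroup.subset_closure hr)
      exact ⟨g, ⟨hg, hr⟩, rfl⟩
  have hdec : ∀ g ∈ J, f g ∈ Subgroup.closure (three V' H) → ∃ s ∈ Subgroup.closure Sg, s⁻¹ * g ∈ C ⊓ J := by
    intro g hg hfg
    rw [← himg] at hfg
    obtain ⟨s, hs, e⟩ := hfg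
    refine ⟨s, hs, ?_, J.mul_mem (J.inv_mem ((Subgroup.closure_le J).2 (fun x hx => hx.1) hs)) hg⟩
    show s⁻¹ * g ∈ C
    rw [← hker, MonoidHom.mem_ker, map_mul, map_inv, e, inv_mul_cancel]
  have hpair : ∀ r ∈ Sg, ∀ s ∈ Sg, Commute (π r) (π s) := by
    rintro r ⟨hrJ, A, hA, hrA, hr3⟩ s ⟨hsJ, B, hB, hsB, hs3⟩
    by_cases he : PLocalBasics.factE 2 H B = PLocalBasics.factE 2 H A
    · by_cases hr1 : f r = 1
      · exact hCJ r (hker ▸ MonoidHom.mem_ker.2 hr1) s hsJ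
      rcases (factE_facts c hA (f r) hrA (f s) (he ▸ hsB)).2.2.2 hr3 hr1 hs3 with h | h | h
      · exact (hCJ s (hker ▸ MonoidHom.mem_ker.2 h) r hrJ).symm
      · have hc' : r⁻¹ * s ∈ C := by
          rw [← hker, MonoidHom.mem_ker, map_mul, map_inv, h, inv_mul_cancel]
        rw [show s = r * (r⁻¹ * s) by group, map_mul]
        exact (Commute.refl (π r)).mul_right (hCJ _ hc' r hrJ).symm
      · have hc' : r * s ∈ C := by
          rw [← hker, MonoidHom.mem_ker, map_mul, h, mul_inv_cancel]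
        rw [show s = r⁻¹ * (r * s) by group, map_mul, map_inv]
        exact ((Commute.refl (π r)).inv_right).mul_right (hCJ _ hc' r hrJ).symm
    · obtain ⟨a, haA, ha2, hainv⟩ := exists_transv c hA
      obtain ⟨b₀, hb₀, hb₀a⟩ := (hA.factData c).leH haA
      obtain ⟨n, m, hm, hnm⟩ := Nat.exists_eq_two_pow_mul_odd (orderOf_pos b₀).ne'
      set b := b₀ ^ m with hb
      have hbJ : b ∈ J := J.pow_mem hb₀ m
      have hbn : b ^ 2 ^ n = 1 := by rw [hb, ← pow_mul, mul_comm, ← hnm, pow_orderOf_eq_one]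
      have hfb : f b = a := by
        obtain ⟨i, rfl⟩ := hm
        rw [hb, map_pow, hb₀a, pow_succ, pow_mul, pow_two, ha2, one_pow, one_mul]
      set c₁ := r * (b * r * b⁻¹) with hc₁
      set c₂ := (b * s * b⁻¹) * s⁻¹ with hc₂
      have hc₁C : c₁ ∈ C := by
        rw [← hker, MonoidHom.mem_ker, hc₁]
        simp only [map_mul, map_inv, hfb, hainv (f r) hrA hr3, mul_inv_cancel]
      have hc₂C : c₂ ∈ C := by
        rw [← hker, MonoidHom.mem_ker, hc₂]
        simp only [map_mul, map_inv, hfb]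
        rw [factE_commute c hA hB he a haA (f s) hsB]; group
      have hsc : Commute (π c₂) (π b) := hCJ c₂ hc₂C b hbJ
      have hiter : ∀ i : ℕ, π b ^ i * π s * (π b ^ i)⁻¹ = π c₂ ^ i * π s := by
        intro i
        induction i with
        | zero => simp
        | succ i ih =>
          have e : π b * π s * (π b)⁻¹ = π c₂ * π s := by
            rw [hc₂]; simp only [map_mul, map_inv]; group
          calc π b ^ (i + 1) * π s * (π b ^ (i + 1))⁻¹ = π b * (π b ^ i * π s * (π b ^ i)⁻¹) * (π b)⁻¹ := by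
                rw [pow_succ']; group
            _ = (π b * π c₂ ^ i * (π b)⁻¹) * (π b * π s * (π b)⁻¹) := by rw [ih]; group
            _ = π c₂ ^ i * (π c₂ * π s) := by rw [(hsc.symm.pow_right i).eq, mul_inv_cancel_right, e]
            _ = π c₂ ^ (i + 1) * π s := by rw [pow_succ]; group
      have hc₂O : c₂ ∈ O := by
        refine htwo c₂ hc₂C n ((hπ1 _).1 ?_)
        have := hiter (2 ^ n)
        rw [← map_pow π b, hbn, map_one, one_mul, inv_one, mul_one, eq_comm, mul_eq_right] at this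
        rw [map_pow]; exact this
      have hbs : π b * π s * (π b)⁻¹ = π s := by
        have := hiter 1
        rwa [pow_one, pow_one, (hπ1 c₂).2 hc₂O, one_mul] at this
      set d := r * s * r⁻¹ * s⁻¹ with hd
      have hdC : d ∈ C := by
        rw [← hker, MonoidHom.mem_ker, hd]
        simp only [map_mul, map_inv]
        rw [factE_commute c hA hB he (f r) hrA (f s) hsB]; group
      have hdJ : d ∈ J := J.mul_mem (J.mul_mem (J.mul_mem hrJ hsJ) (J.inv_mem hrJ)) (J.inv_mem hsJ)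
      have hbr : π b * π r * (π b)⁻¹ = (π r)⁻¹ * π c₁ := by
        rw [hc₁]; simp only [map_mul, map_inv]; group
      have hcs : Commute (π c₁) (π s) := hCJ c₁ hc₁C s hsJ
      have hdfix : π b * π d * (π b)⁻¹ = π d := by
        rw [(hCJ d hdC b hbJ).symm.eq, mul_inv_cancel_right]
      have hdr : Commute (π d) (π r) := hCJ d hdC r hrJ
      have hdd : π d = (π d)⁻¹ := by
        calc π d = π b * π d * (π b)⁻¹ := hdfix.symm
          _ = (π b * π r * (π b)⁻¹) * (π b * π s * (π b)⁻¹) * (π b * π r * (π b)⁻¹)⁻¹ *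
              (π b * π s * (π b)⁻¹)⁻¹ := by rw [hd]; simp only [map_mul, map_inv]; group
          _ = (π r)⁻¹ * (π c₁ * π s * (π c₁)⁻¹) * π r * (π s)⁻¹ := by rw [hbs, hbr]; group
          _ = (π r)⁻¹ * (π d)⁻¹ * π r := by
            rw [hcs.eq, mul_inv_cancel_right, hd]; simp only [map_mul, map_inv]; group
          _ = (π d)⁻¹ := by rw [mul_assoc, (hdr.inv_left).eq, inv_mul_cancel_left]
      have hdO : d ∈ O := htwo d hdC 1 ((hπ1 _).1 (by
        rw [pow_one, map_pow, pow_two]; exact eq_inv_iff_mul_eq_one.1 hdd))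
      show π r * π s = π s * π r
      rw [← commutatorElement_eq_one_iff_mul_comm, ← map_commutatorElement, hπ1]
      exact hdO
  have hgensJ : ∀ a ∈ Subgroup.closure Sg, a ∈ J := (Subgroup.closure_le J).2 fun x hx => hx.1
  have hcl : ∀ a ∈ Subgroup.closure Sg, ∀ b ∈ Subgroup.closure Sg, Commute (π a) (π b) := by
    haveI := Subgroup.isMulCommutative_closure (G := ↥L ⧸ O) (k := π '' Sg) (by
      rintro _ ⟨x, hx, rfl⟩ _ ⟨y, hy, rfl⟩; exact hpair x hx y hy)
    intro a ha b hb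
    have hm : ∀ x ∈ Subgroup.closure Sg, π x ∈ Subgroup.closure (π '' Sg) := fun x hx =>
      MonoidHom.map_closure π Sg ▸ Subgroup.mem_map_of_mem π hx
    exact setLike_mul_comm (hm a ha) (hm b hb)
  have hodd : ∀ x : ↥L, x ∈ J → Odd (orderOf x) → f x ∈ Subgroup.closure (three V' H) := fun x hx ho =>
    odd_mem_closure_three c hgen ⟨x, hx, rfl⟩ (Odd.of_dvd_nat ho (orderOf_map_dvd f x))
  have part3 : ∀ T : Subgroup G, IsSylowTwoIn T L → ∀ N : Subgroup G, thompsonSubgroupOf 2 T ≤ N →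
      (∀ x ∈ thompsonSubgroupOf 2 L, Odd (orderOf x) → x ∈ N) → cOf L ⊓ thompsonSubgroupOf 2 L ≤ N →
      thompsonSubgroupOf 2 L ≤ N := by
    intro T hT N hJTN hoddN hCN
    set JT := (thompsonSubgroupOf 2 T).subgroupOf L
    obtain ⟨Q, hQ⟩ := CfsgLib.PReduced.exists_sylow_inf
      ((hT.2.1.comap_subtype (K := L)).toSylow (show ¬ 2 ∣ (T.subgroupOf L).index by
        have := hT.2.2
        rw [Subgroup.relIndex, Nat.odd_iff] at this
        omega)) J
    have hSgN : ∀ a ∈ Subgroup.closure Sg, (a : G) ∈ N := by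
      intro a ha
      induction ha using Subgroup.closure_induction with
      | mem g hg =>
        obtain ⟨n, m, hm, hnm⟩ := Nat.exists_eq_two_pow_mul_odd (orderOf_pos g).ne'
        obtain ⟨u, hu⟩ := exists_pow_eq_self_of_coprime (x := f g) (n := 2 ^ n) (by
          obtain ⟨A, -, -, h3⟩ := hg.2
          exact ((by norm_num : Nat.Coprime 2 3).pow_left n).coprime_dvd_right (orderOf_dvd_of_pow_eq_one h3))
        set g' := (g ^ 2 ^ n) ^ u with hg'
        have hg'J : g' ∈ J := J.pow_mem (J.pow_mem hg.1 _) _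
        have hg'o : Odd (orderOf g') := by
          refine Odd.of_dvd_nat hm (orderOf_dvd_of_pow_eq_one ?_)
          rw [hg', ← pow_mul, mul_comm u, pow_mul, ← pow_mul g, ← hnm, pow_orderOf_eq_one, one_pow]
        have h1 : g'⁻¹ * g ∈ C ⊓ J := by
          refine ⟨?_, J.mul_mem (J.inv_mem hg'J) hg.1⟩
          show g'⁻¹ * g ∈ C
          rw [← hker, MonoidHom.mem_ker, map_mul, map_inv, hg', map_pow, map_pow, hu, inv_mul_cancel]
        have h2 := N.mul_mem (hoddN g' ((hJmem _).2 ⟨g', hg'J, rfl⟩) (by rwa [Subgroup.orderOf_coe]))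
          (hCN ⟨(hCmem _).1 h1.1, (hJmem _).2 ⟨_, h1.2, rfl⟩⟩)
        simpa using h2
      | one => exact N.one_mem
      | mul a b _ _ ha hb => exact N.mul_mem ha hb
      | inv a _ ha => exact N.inv_mem ha
    have hDN : ∀ g ∈ J, f g ∈ Subgroup.closure (three V' H) → (g : G) ∈ N := by
      intro g hg hfg
      obtain ⟨s, hs, hsc⟩ := hdec g hg hfg
      have := N.mul_mem (hSgN s hs) (hCN ⟨(hCmem _).1 hsc.1, (hJmem _).2 ⟨_, hsc.2, rfl⟩⟩)
      simpa using this
    refine thompson_le fun B hB b hb => ?_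
    have hBp : IsPGroup 2 ↥B := fun b => ⟨1, Subtype.ext (by simpa using hB.el.2 b b.2)⟩
    have hBJ : ∀ y ∈ B, ∀ hy : y ∈ L, (⟨y, hy⟩ : ↥L) ∈ J := fun y hy hyL => by
      obtain ⟨z, hz, e⟩ := (hJmem y).1 (hB.le_thompson hy)
      rwa [show (⟨y, hyL⟩ : ↥L) = z from Subtype.ext e.symm]
    obtain ⟨Q', hQ'⟩ := ((hBp.comap_subtype (K := L)).comap_subtype (K := J)).exists_le_sylow
    obtain ⟨g, hg⟩ := MulAction.exists_smul_eq ↥J Q' Q
    have hconj : ∀ y ∈ B, ((g : ↥L) : G) * y * ((g : ↥L) : G)⁻¹ ∈ T := by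
      intro y hy
      have h1 : (⟨⟨y, hB.le hy⟩, hBJ y hy _⟩ : ↥J) ∈ (Q' : Subgroup ↥J) := hQ' hy
      have h2 : MulAut.conj g • (⟨⟨y, hB.le hy⟩, hBJ y hy _⟩ : ↥J) ∈ ((g • Q' : Sylow 2 ↥J) : Subgroup ↥J) :=
        Subgroup.smul_mem_pointwise_smul _ _ _ h1
      rw [hg, hQ] at h2
      exact h2.1
    have hA : IsMaxEl T (B.map (MulAut.conj ((g : ↥L) : G)).toMonoidHom) := by
      refine ⟨?_, el_map _ hB.el, fun D hD hDe => ?_⟩
      · rintro _ ⟨y, hy, rfl⟩; exact hconj y hy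
      · rw [Subgroup.card_map_of_injective (MulAut.conj ((g : ↥L) : G)).injective]
        exact hB.max D (hD.trans hT.1) hDe
    set a := ((g : ↥L) : G) * b * ((g : ↥L) : G)⁻¹ with ha
    have haJ : a ∈ thompsonSubgroupOf 2 T := hA.le_thompson ⟨b, hb, rfl⟩
    set bL : ↥L := ⟨b, hB.le hb⟩
    set d : ↥L := (g : ↥L) * bL * (g : ↥L)⁻¹ * bL⁻¹ with hd
    have hdJ : d ∈ J := J.mul_mem (J.mul_mem (J.mul_mem g.2 (hBJ b hb _)) (J.inv_mem g.2)) (J.inv_mem (hBJ b hb _))
    have hdN : (d : G) ∈ N := hDN d hdJ (by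
      have := (sq_and_comm_mem c hgen).2 (f g) ⟨g, g.2, rfl⟩ (f bL) ⟨bL, hBJ b hb _, rfl⟩
      simpa [hd, commutatorElement_def] using this)
    have e : b = (d : G)⁻¹ * a := by rw [hd, ha]; simp [bL, mul_assoc]
    rw [e]
    exact N.mul_mem (N.inv_mem hdN) (hJTN haJ)
  refine ⟨?_, ?_, part3, ?_⟩
  · intro x hx₀ y hy₀ hox hoy
    obtain ⟨x, hx, rfl⟩ := (hJmem x).1 hx₀
    obtain ⟨y, hy, rfl⟩ := (hJmem y).1 hy₀
    rw [Subgroup.orderOf_coe] at hox hoy
    obtain ⟨s, hs, hsc⟩ := hdec x hx (hodd x hx hox)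
    obtain ⟨t, ht, htc⟩ := hdec y hy (hodd y hy hoy)
    have h1 : Commute (π x) (π y) := by
      rw [show x = s * (s⁻¹ * x) by group, show y = t * (t⁻¹ * y) by group, map_mul π, map_mul π]
      exact ((hcl s hs t ht).mul_right (hCJ _ htc.1 s (hgensJ s hs)).symm).mul_left
        ((hCJ _ hsc.1 t (hgensJ t ht)).mul_right (hCJ _ hsc.1 _ htc.2))
    refine (hOmem (x * y * x⁻¹ * y⁻¹)).1 ((hπ1 _).1 ?_)
    rw [map_mul, map_mul, map_mul, map_inv, map_inv, h1.eq]; group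
  · intro x hx₀ hox
    obtain ⟨x, hx, rfl⟩ := (hJmem x).1 hx₀
    rw [Subgroup.orderOf_coe] at hox
    have hsub : (Subgroup.zpowers (x : G) ⊔ cOf L).subgroupOf L = (Subgroup.zpowers (f x)).comap f := by
      rw [show Subgroup.zpowers (x : G) ⊔ cOf L = (Subgroup.zpowers x ⊔ C).map L.subtype by
        rw [Subgroup.map_sup, MonoidHom.map_zpowers]
        congr 1
        ext a
        refine ⟨fun ha => ⟨⟨a, (mem_cOf.1 ha).1⟩, (hCmem _).2 ha, rfl⟩, ?_⟩
        rintro ⟨b, hb, rfl⟩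
        exact (hCmem b).1 hb]
      rw [Subgroup.subgroupOf, Subgroup.comap_map_eq_self_of_injective L.subtype_injective,
        ← MonoidHom.map_zpowers, Subgroup.comap_map_eq, hker]
    rw [hsub]
    set D := Subgroup.closure (three V' H)
    have hJC : H.comap f = J ⊔ C := by rw [hH, Subgroup.comap_map_eq, hker]
    haveI : (J ⊔ C).Normal := inferInstance
    have h1 : (D.comap f).IsSubnormal := by
      refine Components.subnormal_of_normal_le (K := J ⊔ C)
        ((Subgroup.comap_mono (closure_three_le c)).trans hJC.le) (fun a ha => ?_)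
        (inferInstance : (J ⊔ C).Normal).isSubnormal
      have haH : f a ∈ H := hJC.ge ha
      rw [Subgroup.mem_normalizer_iff]
      intro y
      simp only [Subgroup.mem_comap, map_mul, map_inv]
      refine ⟨closure_three_conj c hgen _ haH _, fun h => ?_⟩
      have := closure_three_conj c hgen _ (inv_mem haH) _ h
      rwa [show (f a)⁻¹ * (f a * f y * (f a)⁻¹) * (f a)⁻¹⁻¹ = f y by group] at this
    refine Components.subnormal_of_normal_le
      (Subgroup.comap_mono (Subgroup.zpowers_le.2 (hodd x hx hox))) (fun a ha => ?_) h1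
    rw [Subgroup.mem_normalizer_iff]
    intro y
    simp only [Subgroup.mem_comap, map_mul, map_inv]
    have hcomm : ∀ z ∈ Subgroup.zpowers (f x), f a * z * (f a)⁻¹ = z := fun z hz => by
      rw [closure_three_comm c (f a) ha z ((Subgroup.zpowers_le.2 (hodd x hx hox)) hz), mul_inv_cancel_right]
    refine ⟨fun h => by rw [hcomm _ h]; exact h, fun h => ?_⟩
    have := hcomm _ h
    have e : f a * f y * (f a)⁻¹ = f y := by simpa using this
    rwa [e] at h
  · intro T hT N hJTN hCN hgood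
    have hJTL : ∀ x ∈ thompsonSubgroupOf 2 T, ∃ y ∈ J, (y : G) = x := fun x hx =>
      (hJmem x).1 (thompson_sylow_le hT hx)
    have hSgN : ∀ g ∈ Sg, (g : G) ∈ N := by
      intro g hg
      obtain ⟨hgJ, A, hA, hgA, hg3⟩ := hg
      by_cases hg1 : f g = 1
      · exact hCN ⟨(hCmem g).1 (hker ▸ MonoidHom.mem_ker.2 hg1), (hJmem _).2 ⟨g, hgJ, rfl⟩⟩
      -- some maximal elementary abelian element moves `f g`
      obtain ⟨B, hB, b, hbB, hbmove⟩ : ∃ B, IsMaxEl T B ∧ ∃ b : ↥L, (b : G) ∈ B ∧ f b * f g ≠ f g * f b := by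
        by_contra hc
        push Not at hc
        set N₀ := ((Subgroup.centralizer ({f g} : Set _)).comap f).map L.subtype with hN₀
        have hmem0 : ∀ x : ↥L, f x * f g = f g * f x → (x : G) ∈ N₀ := fun x hx =>
          ⟨x, Subgroup.mem_centralizer_singleton_iff.2 hx, rfl⟩
        have hgD : f g ∈ Subgroup.closure (three V' H) := Subgroup.subset_closure ⟨A, hA, hgA, hg3⟩
        have h3 := part3 T hT N₀ (thompson_le fun B hB y hy => by
            obtain ⟨z, -, rfl⟩ := hJTL y (hB.le_thompson hy)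
            exact hmem0 z (hc B hB z hy))
          (fun x hx hxo => by
            obtain ⟨z, hz, rfl⟩ := (hJmem x).1 hx
            rw [Subgroup.orderOf_coe] at hxo
            exact hmem0 z (closure_three_comm c (f z) (hodd z hz hxo) _ hgD))
          (fun x hx => by
            obtain ⟨z, -, rfl⟩ := (hJmem x).1 hx.2
            refine hmem0 z ?_
            rw [MonoidHom.mem_ker.1 (hker.ge ((hCmem z).2 hx.1)), one_mul, mul_one])
        obtain ⟨a, haA, ha2, hainv⟩ := exists_transv c hA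
        obtain ⟨b₀, hb₀, hb₀a⟩ := (hA.factData c).leH haA
        obtain ⟨z, hz, e⟩ := h3 ((hJmem _).2 ⟨b₀, hb₀, rfl⟩)
        obtain rfl : z = b₀ := Subtype.ext e
        have hz' : f z * f g = f g * f z := Subgroup.mem_centralizer_singleton_iff.1 hz
        rw [hb₀a, ← mul_inv_eq_iff_eq_mul, hainv (f g) hgA hg3] at hz'
        have h2 : f g * f g = 1 := inv_eq_iff_mul_eq_one.1 hz'
        exact hg1 (by rwa [pow_succ, pow_two, h2, one_mul] at hg3)
      have hbJ : b ∈ J := by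
        obtain ⟨z, hz, e⟩ := (hJmem _).1 (thompson_sylow_le hT (hB.le_thompson hbB))
        rwa [← Subtype.ext e]
      have hfb : f b * f g * (f b)⁻¹ = (f g)⁻¹ := by
        have hE : f b * f g * (f b)⁻¹ ∈ PLocalBasics.factE 2 H A :=
          (Subgroup.mem_normalizer_iff.1 (PLocalBasics.le_normalizer_factE c hgen hA ⟨b, hbJ, rfl⟩) _).1 hgA
        have h3 : (f b * f g * (f b)⁻¹) ^ 3 = 1 := by rw [conj_pow, hg3]; group
        rcases (factE_facts c hA (f g) hgA _ hE).2.2.2 hg3 hg1 h3 with h | h | h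
        · exact absurd (conj_eq_one_iff.1 h) hg1
        · exact absurd (mul_inv_eq_iff_eq_mul.1 h) hbmove
        · exact h
      have hb2 : b * b = 1 := Subtype.ext (el_sq hB.el hbB)
      set k₁ := g * b * g⁻¹ * b⁻¹ with hk₁
      have hk₁J : k₁ ∈ J := J.mul_mem (J.mul_mem (J.mul_mem hgJ hbJ) (J.inv_mem hgJ)) (J.inv_mem hbJ)
      have hfk₁ : f k₁ = (f g)⁻¹ := by
        have h4 : f b * (f g)⁻¹ * (f b)⁻¹ = f g := by
          have := congrArg Inv.inv hfb
          rwa [mul_inv_rev, mul_inv_rev, inv_inv, inv_inv, ← mul_assoc] at this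
        rw [hk₁]; simp only [map_mul, map_inv]
        calc f g * f b * (f g)⁻¹ * (f b)⁻¹ = f g * (f b * (f g)⁻¹ * (f b)⁻¹) := by group
          _ = f g * f g := by rw [h4]
          _ = (f g)⁻¹ := by rw [eq_inv_iff_mul_eq_one, ← pow_two, ← pow_succ]; exact hg3
      have hk₁3 : π (k₁ ^ 3) = 1 := by
        have hg3C : g * g * g ∈ C := by
          rw [← hker, MonoidHom.mem_ker, map_mul, map_mul, ← pow_two, ← pow_succ]; exact hg3
        set c₀ := b * g * b⁻¹ * g with hc₀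
        have hc₀C : c₀ ∈ C := by
          rw [← hker, MonoidHom.mem_ker, hc₀]
          simp only [map_mul, map_inv, hfb, inv_mul_cancel]
        have h1 := hCJ c₀ hc₀C g hgJ
        have h2 := hCJ _ hg3C b hbJ
        have e1 : π b * π g * (π b)⁻¹ = π c₀ * (π g)⁻¹ := by
          rw [hc₀]; simp only [map_mul, map_inv]; group
        have e2 : π b * (π g * π g * π g) * (π b)⁻¹ = π g * π g * π g := by
          rw [← map_mul, ← map_mul, h2.symm.eq, mul_inv_cancel_right]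
        have e3 : π k₁ = π g * (π g * (π c₀)⁻¹) := by
          calc π k₁ = π g * (π b * π g * (π b)⁻¹)⁻¹ := by rw [hk₁]; simp only [map_mul, map_inv]; group
            _ = _ := by rw [e1]; group
        have hx : Commute (π c₀) (π g) := h1
        have e4 : (π c₀) ^ 3 = π g ^ 6 := by
          have e5 : (π b * π g * (π b)⁻¹) ^ 3 = π g ^ 3 := by
            rw [conj_pow, pow_succ, pow_two]
            exact e2
          rw [e1, hx.inv_right.mul_pow, inv_pow] at e5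
          rw [show π g ^ 6 = π g ^ 3 * π g ^ 3 by rw [← pow_add]]
          exact mul_inv_eq_iff_eq_mul.1 e5
        calc π (k₁ ^ 3) = (π g ^ 2 * (π c₀)⁻¹) ^ 3 := by rw [map_pow, e3, pow_two, mul_assoc]
          _ = π g ^ 6 * ((π c₀) ^ 3)⁻¹ := by rw [((hx.symm.pow_left 2).inv_right).mul_pow, ← pow_mul, inv_pow]
          _ = 1 := by rw [e4, mul_inv_cancel]
      obtain ⟨n, hn⟩ := (Components.pCore_isPGroup (G := ↥L) 2) ⟨k₁ ^ 3, (hπ1 _).1 hk₁3⟩
      obtain ⟨u, hu⟩ := exists_pow_eq_self_of_coprime (x := π k₁) (n := 2 ^ n)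
        (((by norm_num : Nat.Coprime 2 3).pow_left n).coprime_dvd_right
          (orderOf_dvd_of_pow_eq_one (by rw [← map_pow]; exact hk₁3)))
      set k := (k₁ ^ 2 ^ n) ^ u with hk
      have hπk : π k = π k₁ := by rw [hk, map_pow, map_pow, hu]
      have hk3 : k ^ 3 = 1 := by
        rw [hk, ← pow_mul, ← pow_mul, show 2 ^ n * (u * 3) = 3 * 2 ^ n * u by ring, pow_mul, pow_mul,
          show (k₁ ^ 3) ^ 2 ^ n = 1 from congrArg Subtype.val hn, one_pow]
      have hkJ : k ∈ J := J.pow_mem (J.pow_mem hk₁J _) _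
      have hOC : ∀ x ∈ O, f x = 1 := fun x hx =>
        MonoidHom.mem_ker.1 (hker.ge ((hCmem x).2 (core_le_cOf ((hOmem x).1 hx))))
      have hfk : f k = (f g)⁻¹ := by
        have h1 : k * k₁⁻¹ ∈ O := (hπ1 _).1 (by rw [map_mul, map_inv, hπk, mul_inv_cancel])
        have := hOC _ h1
        rw [map_mul, map_inv, mul_inv_eq_one] at this
        rw [this, hfk₁]
      have hbk : π b * π k * (π b)⁻¹ = (π k)⁻¹ := by
        rw [hπk, ← map_inv π b, ← map_mul, ← map_mul, ← map_inv π k₁]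
        congr 1
        have hbi : b⁻¹ = b := inv_eq_of_mul_eq_one_left hb2
        rw [hk₁]
        simp [mul_assoc, hbi, hb2]
      have hkC : k ∉ C := fun h => hg1 (by
        rw [← hker, MonoidHom.mem_ker, hfk] at h
        exact inv_eq_one.1 h)
      have hkN : (k : G) ∈ N := by
        refine hgood _ ((hJmem _).2 ⟨k, hkJ, rfl⟩) (by simpa using congrArg Subtype.val hk3)
          (fun h => hkC ((hCmem k).2 h)) (fun x hx => ?_) ⟨B, hB, (b : G), hbB, ?_⟩
        · obtain ⟨y, hy, rfl⟩ := hJTL x hx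
          have hfy : f y * f k * (f y)⁻¹ = f k ∨ f y * f k * (f y)⁻¹ = (f k)⁻¹ := by
            have hE : f y * f k * (f y)⁻¹ ∈ PLocalBasics.factE 2 H A :=
              (Subgroup.mem_normalizer_iff.1 (PLocalBasics.le_normalizer_factE c hgen hA ⟨y, hy, rfl⟩) _).1
                (hfk ▸ inv_mem hgA)
            have hk3' : f k ^ 3 = 1 := by rw [← map_pow, hk3, map_one]
            have h3 : (f y * f k * (f y)⁻¹) ^ 3 = 1 := by rw [conj_pow, hk3']; group
            have hk1' : f k ≠ 1 := by rw [hfk]; exact fun h => hg1 (inv_eq_one.1 h)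
            rcases (factE_facts c hA (f k) (hfk ▸ inv_mem hgA) _ hE).2.2.2 hk3' hk1' h3 with h | h | h
            · exact absurd (conj_eq_one_iff.1 h) hk1'
            · exact Or.inl h
            · exact Or.inr h
          have hfix : ∀ m : ↥L, m ∈ J → (m : G) ∈ thompsonSubgroupOf 2 T → f m * f k * (f m)⁻¹ = f k →
              π m * π k * (π m)⁻¹ = π k := by
            intro m hm hmT hfm
            set d := m * k * m⁻¹ * k⁻¹ with hd
            have hdC : d ∈ C := by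
              rw [← hker, MonoidHom.mem_ker, hd]
              simp only [map_mul, map_inv, hfm, mul_inv_cancel]
            obtain ⟨i, hi⟩ := (hT.2.1.to_le (thompson_le_self T)) ⟨_, hmT⟩
            have hmi : m ^ 2 ^ i = 1 := Subtype.ext (by simpa using congrArg Subtype.val hi)
            have hcm : Commute (π d) (π m) := hCJ d hdC m hm
            have e : π m * π k * (π m)⁻¹ = π d * π k := by rw [hd]; simp only [map_mul, map_inv]; group
            have hiter : ∀ i : ℕ, π m ^ i * π k * (π m ^ i)⁻¹ = π d ^ i * π k := by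
              intro i
              induction i with
              | zero => simp
              | succ i ih =>
                calc π m ^ (i + 1) * π k * (π m ^ (i + 1))⁻¹ = π m * (π m ^ i * π k * (π m ^ i)⁻¹) * (π m)⁻¹ := by
                      rw [pow_succ']; group
                  _ = (π m * π d ^ i * (π m)⁻¹) * (π m * π k * (π m)⁻¹) := by rw [ih]; group
                  _ = π d ^ i * (π d * π k) := by rw [(hcm.symm.pow_right i).eq, mul_inv_cancel_right, e]
                  _ = π d ^ (i + 1) * π k := by rw [pow_succ]; group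
            have hdO : d ∈ O := by
              refine htwo d hdC i ((hπ1 _).1 ?_)
              have := hiter (2 ^ i)
              rw [← map_pow π m, hmi, map_one, one_mul, inv_one, mul_one, eq_comm, mul_eq_right] at this
              rw [map_pow]; exact this
            rw [e, (hπ1 d).2 hdO, one_mul]
          have hconc : π y * π k * (π y)⁻¹ = π k ∨ π y * π k * (π y)⁻¹ = (π k)⁻¹ := by
            rcases hfy with h | h
            · exact Or.inl (hfix y hy hx h)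
            · right
              have h1 := hfix (b * y) (J.mul_mem hbJ hy)
                ((thompsonSubgroupOf 2 T).mul_mem (hB.le_thompson hbB) hx) (by
                  rw [map_mul, show f b * f y * f k * (f b * f y)⁻¹ = f b * (f y * f k * (f y)⁻¹) * (f b)⁻¹ by group,
                    h, hfk, inv_inv, hfb])
              rw [map_mul] at h1
              calc π y * π k * (π y)⁻¹ = (π b)⁻¹ * (π b * π y * π k * (π b * π y)⁻¹) * π b := by group
                _ = (π b)⁻¹ * π k * π b := by rw [h1]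
                _ = π b * π k * (π b)⁻¹ := by
                  rw [inv_eq_of_mul_eq_one_left (show π b * π b = 1 by rw [← map_mul, hb2, map_one])]
                _ = _ := hbk
          rcases hconc with h | h
          · have h1 : y * k * y⁻¹ * k⁻¹ ∈ O := (hπ1 _).1 (by simp only [map_mul, map_inv, h, mul_inv_cancel])
            have h2 := (hOmem _).1 h1
            have := Subgroup.mul_mem _ (Subgroup.mem_sup_right (S := Subgroup.zpowers (k : G)) h2)
              (Subgroup.mem_sup_left (Subgroup.mem_zpowers (k : G)))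
            simpa [mul_assoc] using this
          · have h1 : y * k * y⁻¹ * k ∈ O := (hπ1 _).1 (by simp only [map_mul, map_inv, h, inv_mul_cancel])
            have h2 := (hOmem _).1 h1
            have := Subgroup.mul_mem _ (Subgroup.mem_sup_right (S := Subgroup.zpowers (k : G)) h2)
              (Subgroup.mem_sup_left ((Subgroup.zpowers (k : G)).inv_mem (Subgroup.mem_zpowers (k : G))))
            simpa [mul_assoc] using this
        · exact (hOmem (b * k * b⁻¹ * k)).1 ((hπ1 _).1 (by simp only [map_mul, map_inv, hbk, inv_mul_cancel]))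
      have h5 : k * g ∈ C ⊓ J := by
        refine ⟨?_, J.mul_mem hkJ hgJ⟩
        show k * g ∈ C
        rw [← hker, MonoidHom.mem_ker, map_mul, hfk, inv_mul_cancel]
      have := N.mul_mem (N.inv_mem hkN) (hCN ⟨(hCmem _).1 h5.1, (hJmem _).2 ⟨_, h5.2, rfl⟩⟩)
      simpa using this
    refine part3 T hT N hJTN (fun x hx hxo => ?_) hCN
    obtain ⟨z, hz, rfl⟩ := (hJmem x).1 hx
    rw [Subgroup.orderOf_coe] at hxo
    obtain ⟨s, hs, hsc⟩ := hdec z hz (hodd z hz hxo)
    have hsN : (s : G) ∈ N := by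
      clear hsc
      induction hs using Subgroup.closure_induction with
      | mem a ha => exact hSgN a ha
      | one => exact N.one_mem
      | mul a b _ _ ha hb => exact N.mul_mem ha hb
      | inv a _ ha => exact N.inv_mem ha
    have := N.mul_mem hsN (hCN ⟨(hCmem _).1 hsc.1, (hJmem _).2 ⟨_, hsc.2, rfl⟩⟩)
    simpa using this


section components

variable {T K : Subgroup G}

theorem cOf_normalizes_component (cx : LocalCtx L) (hT : IsSylowTwoIn T L) (hT1 : T ≠ ⊥)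
    (hK : IsJComponent T K) (hKL : K ≤ L) : cOf L ≤ Subgroup.normalizer (K : Set G) := by
  refine Cfsg.Agent.S2941.result cx.char2 cx.sol2 cx.zn T hT.2.1 hT1 K hK (cOf L) ?_
    (cOf_normalizes_thompson cx hT)
  refine sup_le ?_ ?_ <;> intro g hg <;> rw [Subgroup.mem_normalizer_iff] <;> intro x
  all_goals
    have hgL : g ∈ L := by first | exact hKL hg | exact hT.1 (thompson_le_self T hg)
    refine ⟨conj_mem_cOf hgL, fun h => ?_⟩
    have := conj_mem_cOf (L.inv_mem hgL) h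
    rwa [show g⁻¹ * (g * x * g⁻¹) * g⁻¹⁻¹ = x by group] at this

theorem component_le_J (hT : IsSylowTwoIn T L) (hK : IsJComponent T K) (hKL : K ≤ L) :
    K ≤ thompsonSubgroupOf 2 L := by
  have hn : ∀ g ∈ L, ∀ x ∈ thompsonSubgroupOf 2 L, g * x * g⁻¹ ∈ thompsonSubgroupOf 2 L := fun g hg x hx =>
    conj_mem_thompson (fun _ hs => L.mul_mem (L.mul_mem hg hs) (L.inv_mem hg)) hx
  rw [← hK.2.1, Subgroup.commutator_le]
  intro k hk j hj
  rw [commutatorElement_def]
  exact (thompsonSubgroupOf 2 L).mul_mem (hn k (hKL hk) j (thompson_sylow_le hT hj))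
    ((thompsonSubgroupOf 2 L).inv_mem (thompson_sylow_le hT hj))

theorem exists_notMem_cOf (cx : LocalCtx L) (hT : IsSylowTwoIn T L) (hK : IsJComponent T K) :
    ∃ x ∈ K, x ∉ cOf L := by
  by_contra h
  push Not at h
  have hle : K ≤ pCoreOf 2 L := by
    rw [← hK.2.1, Subgroup.commutator_le]
    intro k hk j hj
    rw [commutatorElement_def]
    exact comm_sylow_mem_core cx hT (h k hk) (thompson_le_self T hj)
  obtain ⟨k, hk, hko, hkQ⟩ := exists_odd_notMem hK
  obtain ⟨n, hn⟩ := isPGroup_pCoreOf L ⟨k, hle hk⟩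
  have h1 : k = 1 := orderOf_eq_one_iff.1 (Nat.eq_one_of_dvd_coprimes ((Nat.coprime_two_right.2 hko).pow_right n)
    dvd_rfl (orderOf_dvd_of_pow_eq_one (by simpa using congrArg Subtype.val hn)))
  exact hkQ (h1 ▸ (pCoreOf 2 K).one_mem)

/-- The data attached to a component inside `L`. -/
theorem component_data (cx : LocalCtx L) (hT : IsSylowTwoIn T L) (hK : IsJComponent T K) (hKL : K ≤ L) :
    (∀ x ∈ pCoreOf 2 K, x ∈ cOf L) ∧
    ∀ k ∈ K, Odd (orderOf k) → k ∉ pCoreOf 2 K → k ∉ cOf L := by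
  have hKJ := component_le_J hT hK hKL
  have hcomm : ∀ x ∈ K, ∀ y ∈ K, x * y * x⁻¹ * y⁻¹ ∈ cOf L := by
    intro x hx y hy
    let N : Subgroup G :=
      { carrier := {g | g ∈ K ∧ ∀ y ∈ K, Odd (orderOf y) → g * y * g⁻¹ * y⁻¹ ∈ cOf L}
        one_mem' := ⟨K.one_mem, fun y _ _ => by simp⟩
        mul_mem' := by
          rintro p q ⟨hp, hp'⟩ ⟨hq, hq'⟩
          refine ⟨K.mul_mem hp hq, fun y hy ho => ?_⟩
          rw [show p * q * y * (p * q)⁻¹ * y⁻¹ = (p * (q * y * q⁻¹ * y⁻¹) * p⁻¹) * (p * y * p⁻¹ * y⁻¹) by group]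
          exact (cOf L).mul_mem (conj_mem_cOf (hKL hp) (hq' y hy ho)) (hp' y hy ho)
        inv_mem' := by
          rintro p ⟨hp, hp'⟩
          refine ⟨K.inv_mem hp, fun y hy ho => ?_⟩
          have := conj_mem_cOf (L.inv_mem (hKL hp)) ((cOf L).inv_mem (hp' y hy ho))
          rwa [show p⁻¹ * (p * y * p⁻¹ * y⁻¹)⁻¹ * p⁻¹⁻¹ = p⁻¹ * y * p⁻¹⁻¹ * y⁻¹ by group] at this }
    have hN : K ≤ N := by
      conv_lhs => rw [← hK.1]
      rw [Subgroup.closure_le]
      exact fun g hg => ⟨hg.1, fun y hy ho => core_le_cOf ((ff_structure cx).1 g (hKJ hg.1) y (hKJ hy) hg.2 ho)⟩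
    let M : Subgroup G :=
      { carrier := {g | g ∈ K ∧ x * g * x⁻¹ * g⁻¹ ∈ cOf L}
        one_mem' := ⟨K.one_mem, by simp⟩
        mul_mem' := by
          rintro p q ⟨hp, hp'⟩ ⟨hq, hq'⟩
          refine ⟨K.mul_mem hp hq, ?_⟩
          rw [show x * (p * q) * x⁻¹ * (p * q)⁻¹ = (x * p * x⁻¹ * p⁻¹) * (p * (x * q * x⁻¹ * q⁻¹) * p⁻¹) by group]
          exact (cOf L).mul_mem hp' (conj_mem_cOf (hKL hp) hq')
        inv_mem' := by
          rintro p ⟨hp, hp'⟩
          refine ⟨K.inv_mem hp, ?_⟩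
          have := conj_mem_cOf (L.inv_mem (hKL hp)) ((cOf L).inv_mem hp')
          rwa [show p⁻¹ * (x * p * x⁻¹ * p⁻¹)⁻¹ * p⁻¹⁻¹ = x * p⁻¹ * x⁻¹ * p⁻¹⁻¹ by group] at this }
    have hM : K ≤ M := by
      conv_lhs => rw [← hK.1]
      rw [Subgroup.closure_le]
      exact fun g hg => ⟨hg.1, (hN hx).2 g hg.1 hg.2⟩
    exact (hM hy).2
  -- K / (K ∩ C) is an abelian group generated by elements of odd order
  set C' := (cOf L).subgroupOf K with hC'
  haveI : C'.Normal := ⟨fun x hx g => conj_mem_cOf (hKL g.2) hx⟩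
  set q := QuotientGroup.mk' C' with hq
  have hab : ∀ a b : ↥K ⧸ C', Commute a b := by
    intro a b
    obtain ⟨x, rfl⟩ := QuotientGroup.mk'_surjective C' a
    obtain ⟨y, rfl⟩ := QuotientGroup.mk'_surjective C' b
    show q x * q y = q y * q x
    rw [← commutatorElement_eq_one_iff_mul_comm, ← map_commutatorElement]
    exact (QuotientGroup.eq_one_iff _).2 (hcomm x x.2 y y.2)
  have hallodd : ∀ x ∈ K, ∃ hx : x ∈ K, Odd (orderOf (q ⟨x, hx⟩)) := by
    intro x hx
    have h : x ∈ Subgroup.closure {g : G | g ∈ K ∧ Odd (orderOf g)} := hK.1.ge hx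
    induction h using Subgroup.closure_induction with
    | mem g hg => exact ⟨hg.1, Odd.of_dvd_nat (by rw [← Subgroup.orderOf_coe] at *; exact hg.2) (orderOf_map_dvd q _)⟩
    | one =>
      refine ⟨K.one_mem, ?_⟩
      rw [show (⟨1, K.one_mem⟩ : ↥K) = 1 from rfl, map_one, orderOf_one]; exact odd_one
    | mul a b ha hb iha ihb =>
      obtain ⟨ha', iha⟩ := iha (hK.1.le ha)
      obtain ⟨hb', ihb⟩ := ihb (hK.1.le hb)
      refine ⟨hx, ?_⟩
      rw [show (⟨a * b, hx⟩ : ↥K) = ⟨a, ha'⟩ * ⟨b, hb'⟩ from rfl, map_mul]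
      exact Odd.of_dvd_nat (iha.mul ihb) (hab _ _).orderOf_mul_dvd_mul_orderOf
    | inv a ha iha =>
      obtain ⟨ha', iha⟩ := iha (hK.1.le ha)
      refine ⟨hx, ?_⟩
      rw [show (⟨a⁻¹, hx⟩ : ↥K) = ⟨a, ha'⟩⁻¹ from rfl, map_inv, orderOf_inv]
      exact iha
  have hQC : ∀ x ∈ pCoreOf 2 K, x ∈ cOf L := by
    intro x hx
    obtain ⟨hxK, ho⟩ := hallodd x (pCoreOf_le K hx)
    obtain ⟨n, hn⟩ := isPGroup_pCoreOf K ⟨x, hx⟩
    have hd : orderOf (q ⟨x, hxK⟩) ∣ 2 ^ n := orderOf_dvd_of_pow_eq_one (by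
      rw [← map_pow]
      have : (⟨x, hxK⟩ : ↥K) ^ 2 ^ n = 1 := Subtype.ext (by simpa using congrArg Subtype.val hn)
      rw [this, map_one])
    exact (QuotientGroup.eq_one_iff (N := C') ⟨x, hxK⟩).1 (orderOf_eq_one_iff.1
      (Nat.eq_one_of_dvd_coprimes ((Nat.coprime_two_right.2 ho).pow_right n) dvd_rfl hd))
  refine ⟨hQC, fun k hk _ hkQ hkC => ?_⟩
  obtain ⟨x, hx, hxC⟩ := exists_notMem_cOf cx hT hK
  rcases (K_cases hK hk hkQ).2 x hx with h | h | h
  · exact hxC (hQC x h)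
  · exact hxC (by simpa using (cOf L).mul_mem (hQC _ h) hkC)
  · refine hxC ?_
    have := (cOf L).mul_mem (hQC _ h) ((cOf L).mul_mem hkC hkC)
    rwa [inv_mul_cancel_right] at this

theorem component_le_zpowers_sup (cx : LocalCtx L) (hT : IsSylowTwoIn T L) (hK : IsJComponent T K) (hKL : K ≤ L)
    {k : G} (hk : k ∈ K) (hkQ : k ∉ pCoreOf 2 K) : K ≤ Subgroup.zpowers k ⊔ cOf L := by
  intro x hx
  have hQ := (component_data cx hT hK hKL).1
  have hm : k ∈ Subgroup.zpowers k := Subgroup.mem_zpowers k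
  rcases (K_cases hK hk hkQ).2 x hx with h | h | h
  · exact Subgroup.mem_sup_right (hQ x h)
  · rw [show x = x * k⁻¹ * k by group]
    exact Subgroup.mul_mem _ (Subgroup.mem_sup_right (hQ _ h)) (Subgroup.mem_sup_left hm)
  · rw [show x = x * (k * k)⁻¹ * (k * k) by group]
    exact Subgroup.mul_mem _ (Subgroup.mem_sup_right (hQ _ h))
      (Subgroup.mem_sup_left ((Subgroup.zpowers k).mul_mem hm hm))

theorem odd_mem_of_sup (cx : LocalCtx L) (hT : IsSylowTwoIn T L) (hT1 : T ≠ ⊥) (hK : IsJComponent T K)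
    (hKL : K ≤ L) {y : G} (hy : y ∈ K ⊔ pCoreOf 2 L) (ho : Odd (orderOf y)) : y ∈ K := by
  have hn : pCoreOf 2 L ≤ Subgroup.normalizer (K : Set G) :=
    core_le_cOf.trans (cOf_normalizes_component cx hT hT1 hK hKL)
  rw [← SetLike.mem_coe, Subgroup.coe_mul_of_right_le_normalizer_left _ _ hn] at hy
  obtain ⟨x, hx, j, hj, rfl⟩ := hy
  simp only [] at ho ⊢
  obtain ⟨n, hn'⟩ := isPGroup_pCoreOf L ⟨j, hj⟩
  have hjn : j ^ 2 ^ n = 1 := by simpa using congrArg Subtype.val hn'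
  have hpw : ∀ m : ℕ, ∃ x' ∈ K, (x * j) ^ m = x' * j ^ m := by
    intro m
    induction m with
    | zero => exact ⟨1, K.one_mem, by simp⟩
    | succ m ih =>
      obtain ⟨x', hx', he⟩ := ih
      refine ⟨x' * (j ^ m * x * (j ^ m)⁻¹), K.mul_mem hx' ?_, ?_⟩
      · exact (Subgroup.mem_normalizer_iff.1 ((Subgroup.normalizer (K : Set G)).pow_mem (hn hj) m) x).1 hx
      · rw [pow_succ, he, pow_succ]; simp [mul_assoc]
  obtain ⟨x', hx', he⟩ := hpw (2 ^ n)
  rw [hjn, mul_one] at he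
  obtain ⟨m, hm⟩ := exists_pow_eq_self_of_coprime
    (show Nat.Coprime (2 ^ n) (orderOf (x * j)) from ho.coprime_two_left.pow_left n)
  rw [← hm, he]; exact K.pow_mem hx' m

theorem J_normalizes_component (cx : LocalCtx L) (hT : IsSylowTwoIn T L) (hT1 : T ≠ ⊥) (hK : IsJComponent T K)
    (hKL : K ≤ L) : thompsonSubgroupOf 2 L ≤ Subgroup.normalizer (K : Set G) := by
  refine (ff_structure cx).2.2.1 T hT _ (J_normalizes hK) (fun g hg hgo => ?_)
    (inf_le_left.trans (cOf_normalizes_component cx hT hT1 hK hKL))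
  have hmain : ∀ g ∈ thompsonSubgroupOf 2 L, Odd (orderOf g) → ∀ y ∈ K, g * y * g⁻¹ ∈ K := by
    intro g hg hgo y hy
    have hy' : y ∈ Subgroup.closure {a : G | a ∈ K ∧ Odd (orderOf a)} := hK.1.ge hy
    clear hy
    induction hy' using Subgroup.closure_induction with
    | mem a ha =>
      refine odd_mem_of_sup cx hT hT1 hK hKL ?_ (by rw [← MulAut.conj_apply, MulEquiv.orderOf_eq]; exact ha.2)
      have h1 := (ff_structure cx).1 g hg a (component_le_J hT hK hKL ha.1) hgo ha.2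
      rw [show g * a * g⁻¹ = (g * a * g⁻¹ * a⁻¹) * a by group]
      exact Subgroup.mul_mem _ (Subgroup.mem_sup_right h1) (Subgroup.mem_sup_left ha.1)
    | one => simp
    | mul a b _ _ iha ihb =>
      rw [show g * (a * b) * g⁻¹ = (g * a * g⁻¹) * (g * b * g⁻¹) by group]; exact K.mul_mem iha ihb
    | inv a _ iha => rw [show g * a⁻¹ * g⁻¹ = (g * a * g⁻¹)⁻¹ by group]; exact K.inv_mem iha
  rw [Subgroup.mem_normalizer_iff]
  refine fun y => ⟨hmain g hg hgo y, fun h => ?_⟩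
  have := hmain g⁻¹ ((thompsonSubgroupOf 2 L).inv_mem hg) (by rwa [orderOf_inv]) _ h
  rwa [show g⁻¹ * (g * y * g⁻¹) * g⁻¹⁻¹ = y by group] at this

/-- The key relation between `W` and `V`. -/
theorem comm_mem_wOf (cx : LocalCtx L) (hT : IsSylowTwoIn T L) (hT1 : T ≠ ⊥) (hK : IsJComponent T K)
    (hKL : K ≤ L) {k : G} (hk : k ∈ K) (hko : Odd (orderOf k)) (hkQ : k ∉ pCoreOf 2 K) {v : G} (hv : v ∈ vOf L) :
    v * (k * v⁻¹ * k⁻¹) ∈ wOf K ∧ v * (k * v⁻¹ * k⁻¹) ∈ vOf L := by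
  obtain ⟨hQC, hnC⟩ := component_data cx hT hK hKL
  set e := v * (k * v⁻¹ * k⁻¹) with he
  have heV : e ∈ vOf L := (vOf L).mul_mem hv (conj_mem_vOf (hKL hk) ((vOf L).inv_mem hv))
  refine ⟨?_, heV⟩
  have hvC : v ∈ cOf L := core_le_cOf (vOf_le_core hv)
  have heK : e ∈ K := by
    rw [he, show v * (k * v⁻¹ * k⁻¹) = (v * k * v⁻¹) * k⁻¹ by group]
    exact K.mul_mem ((Subgroup.mem_normalizer_iff.1 (cOf_normalizes_component cx hT hT1 hK hKL hvC) k).1 hk)
      (K.inv_mem hk)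
  obtain ⟨hk3, hcases⟩ := K_cases hK hk hkQ
  have heQ : e ∈ pCoreOf 2 K := by
    rcases hcases e heK with h | h | h
    · exact h
    · exfalso
      refine hnC k hk hko hkQ ?_
      have := (cOf L).mul_mem ((cOf L).inv_mem (hQC _ h)) (core_le_cOf (vOf_le_core heV))
      simpa using this
    · exfalso
      refine hnC k hk hko hkQ ?_
      have h2 : k * k ∈ cOf L := by
        have := (cOf L).mul_mem ((cOf L).inv_mem (hQC _ h)) (core_le_cOf (vOf_le_core heV))
        simpa using this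
      have := (cOf L).mul_mem ((cOf L).inv_mem h2) (hQC _ hk3)
      simpa [mul_assoc] using this
  have hVcomm : ∀ a ∈ vOf L, ∀ b ∈ vOf L, a * b = b * a := fun a ha b hb => el_comm vOf_el ha hb
  have heU : e ∈ omegaCenterOf (pCoreOf 2 K) :=
    mem_omegaCenterOf.2 ⟨heQ, fun y hy => ((mem_cOf.1 (hQC y hy)).2 e heV).symm, el_sq vOf_el heV⟩
  -- split e = c * w with w ∈ W and c fixed by k
  set u := k * e * k⁻¹ * e⁻¹ with hu
  have huW : u ∈ wOf K := by
    have h1 := (wOf K).inv_mem (show ⁅e, k⁆ ∈ wOf K from Subgroup.commutator_mem_commutator heU hk)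
    rwa [commutatorElement_inv, commutatorElement_def] at h1
  obtain ⟨w, hw, hwu⟩ : ∃ w ∈ wOf K, k * w * k⁻¹ * w⁻¹ = u := by
    have hW : ∀ w ∈ wOf K, k * w * k⁻¹ ∈ wOf K := fun w hw =>
      conj_mem_wOf (fun h hh => K.mul_mem (K.mul_mem hk hh) (K.inv_mem hk)) hw
    let f : ↥(wOf K) → ↥(wOf K) := fun w =>
      ⟨k * (w : G) * k⁻¹ * (w : G)⁻¹, (wOf K).mul_mem (hW w w.2) ((wOf K).inv_mem w.2)⟩
    have hf : Function.Injective f := by
      intro p q e'
      have e2 : k * p * k⁻¹ * (p : G)⁻¹ = k * q * k⁻¹ * (q : G)⁻¹ := congrArg Subtype.val e'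
      have h1 : k * ((q : G)⁻¹ * p) * k⁻¹ = (q : G)⁻¹ * p := by
        calc k * ((q : G)⁻¹ * p) * k⁻¹ = (k * q * k⁻¹)⁻¹ * ((k * p * k⁻¹ * (p : G)⁻¹) * p) := by group
          _ = (q : G)⁻¹ * p := by rw [e2]; group
      exact Subtype.ext (inv_mul_eq_one.1 (fpf_wOf hK hk hko hkQ ((wOf K).mul_mem ((wOf K).inv_mem q.2) p.2) h1)).symm
    obtain ⟨w, hw⟩ := Finite.surjective_of_injective hf ⟨u, huW⟩
    exact ⟨w, w.2, congrArg Subtype.val hw⟩
  have hwU := wOf_le_omega K hw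
  have hUcomm : ∀ a ∈ omegaCenterOf (pCoreOf 2 K), ∀ b ∈ omegaCenterOf (pCoreOf 2 K), a * b = b * a :=
    fun a ha b hb => ((mem_omegaCenterOf.1 hb).2.1 a (mem_omegaCenterOf.1 ha).1)
  have hwsq : w * w = 1 := hK.2.2.2.2.2 w hw
  set c := e * w with hc
  have hck : k * c * k⁻¹ = c := by
    have huU : u ∈ omegaCenterOf (pCoreOf 2 K) := wOf_le_omega K huW
    have e1 : k * c * k⁻¹ = (u * e) * (u * w) := by
      calc k * c * k⁻¹ = (k * e * k⁻¹ * e⁻¹ * e) * (k * w * k⁻¹ * w⁻¹ * w) := by rw [hc]; group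
        _ = (u * e) * (u * w) := by rw [← hu, hwu]
    rw [e1, hc, show (u * e) * (u * w) = u * (e * u) * w by group, hUcomm e heU u huU,
      show u * (u * e) * w = (u * u) * (e * w) by group,
      show u * u = 1 from hK.2.2.2.2.2 u huW, one_mul]
  -- the product of the three translates of e is trivial
  have hprod : e * (k * e * k⁻¹) * (k * k * e * (k * k)⁻¹) = 1 := by
    calc e * (k * e * k⁻¹) * (k * k * e * (k * k)⁻¹)
        = v * (k * k * k * v⁻¹ * (k * k * k)⁻¹) := by rw [he]; group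
      _ = 1 := by
        have := (mem_cOf.1 (hQC _ hk3)).2 v⁻¹ ((vOf L).inv_mem hv)
        rw [← this, mul_inv_cancel_right, mul_inv_cancel]
  have hwi : w⁻¹ = w := inv_eq_of_mul_eq_one_left hwsq
  have hec : e = c * w := by rw [hc, mul_assoc, hwsq, mul_one]
  have hkk : k * k * c * (k * k)⁻¹ = c := by
    rw [show k * k * c * (k * k)⁻¹ = k * (k * c * k⁻¹) * k⁻¹ by group, hck, hck]
  have hW' : ∀ g ∈ K, g * w * g⁻¹ ∈ omegaCenterOf (pCoreOf 2 K) := fun g hg => wOf_le_omega K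
    (conj_mem_wOf (fun h hh => K.mul_mem (K.mul_mem hg hh) (K.inv_mem hg)) hw)
  have hcU : c ∈ omegaCenterOf (pCoreOf 2 K) := mul_mem heU hwU
  set w1 := k * w * k⁻¹ with hw1
  set w2 := k * k * w * (k * k)⁻¹ with hw2
  have hw3 : w * w1 * w2 = 1 := by
    have hWm : ∀ g ∈ K, g * w * g⁻¹ ∈ wOf K := fun g hg =>
      conj_mem_wOf (fun h hh => K.mul_mem (K.mul_mem hg hh) (K.inv_mem hg)) hw
    refine fpf_wOf hK hk hko hkQ ((wOf K).mul_mem ((wOf K).mul_mem hw (hWm k hk)) (hWm _ (K.mul_mem hk hk))) ?_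
    have e3 : k * k * k * w * (k * k * k)⁻¹ = w := by
      rw [(mem_omegaCenterOf.1 hwU).2.1 _ hk3, mul_inv_cancel_right]
    rw [show k * (w * w1 * w2) * k⁻¹ = w1 * w2 * (k * k * k * w * (k * k * k)⁻¹) by rw [hw1, hw2]; group, e3,
      mul_assoc w w1 w2]
    exact (hUcomm w hwU _ ((omegaCenterOf (pCoreOf 2 K)).mul_mem (hW' k hk) (hW' _ (K.mul_mem hk hk)))).symm
  have hc1 : c = 1 := by
    have e1 : k * e * k⁻¹ = c * w1 := by
      rw [hec, show k * (c * w) * k⁻¹ = (k * c * k⁻¹) * (k * w * k⁻¹) by group, hck]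
    have e2 : k * k * e * (k * k)⁻¹ = c * w2 := by
      rw [hec, show k * k * (c * w) * (k * k)⁻¹ = (k * k * c * (k * k)⁻¹) * (k * k * w * (k * k)⁻¹) by group, hkk]
    rw [e1, e2, hec] at hprod
    have hc2 : c * c = 1 := (mem_omegaCenterOf.1 hcU).2.2
    have hw1U : w1 ∈ omegaCenterOf (pCoreOf 2 K) := hW' k hk
    calc c = c * (w * w1 * w2) := by rw [hw3, mul_one]
      _ = c * (c * c) * (w * w1 * w2) := by rw [hc2, mul_one]
      _ = c * w * (c * w1) * (c * w2) := by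
        rw [show c * w * (c * w1) * (c * w2) = c * (w * c) * (w1 * c) * w2 by group, hUcomm w hwU c hcU,
          hUcomm w1 hw1U c hcU, show c * (c * w) * (c * w1) * w2 = c * c * (w * c) * w1 * w2 by group,
          hUcomm w hwU c hcU]
        group
      _ = 1 := hprod
  rw [hec, hc1, one_mul]
  exact hw

theorem wOf_le_vOf (cx : LocalCtx L) (hT : IsSylowTwoIn T L) (hT1 : T ≠ ⊥) (hK : IsJComponent T K)
    (hKL : K ≤ L) : wOf K ≤ vOf L := by
  obtain ⟨k, hk, hko, hkQ⟩ := exists_odd_notMem hK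
  have hnC := (component_data cx hT hK hKL).2 k hk hko hkQ
  obtain ⟨v, hv, hne⟩ : ∃ v ∈ vOf L, v * (k * v⁻¹ * k⁻¹) ≠ 1 := by
    by_contra h
    push Not at h
    refine hnC (mem_cOf.2 ⟨hKL hk, fun v hv => ?_⟩)
    have h1 := h v hv
    calc v * k = v * (k * v⁻¹ * k⁻¹) * (k * v) := by group
      _ = k * v := by rw [h1, one_mul]
  obtain ⟨he, heV⟩ := comm_mem_wOf cx hT hT1 hK hKL hk hko hkQ hv
  set e := v * (k * v⁻¹ * k⁻¹)
  have hcov : (wOf K : Set G) = {1, e, k * e * k⁻¹, k * (k * e * k⁻¹) * k⁻¹} := by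
    have hW : ∀ w ∈ wOf K, k * w * k⁻¹ ∈ wOf K := fun w hw =>
      conj_mem_wOf (fun h hh => K.mul_mem (K.mul_mem hk hh) (K.inv_mem hk)) hw
    have hinj : ∀ {p q : G}, k * p * k⁻¹ = k * q * k⁻¹ → p = q := fun h => by simpa using h
    have n1 : k * e * k⁻¹ ≠ e := fun h => hne (fpf_wOf hK hk hko hkQ he h)
    have n2 : k * e * k⁻¹ ≠ 1 := fun h => hne (by simpa using h)
    have n3 : k * (k * e * k⁻¹) * k⁻¹ ≠ 1 := fun h => n2 (hinj (by rw [h]; group))
    have n4 : k * (k * e * k⁻¹) * k⁻¹ ≠ k * e * k⁻¹ := fun h => n1 (hinj h)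
    have n5 : k * (k * e * k⁻¹) * k⁻¹ ≠ e := by
      intro h
      refine n1 ?_
      have h3 : k * (k * (k * e * k⁻¹) * k⁻¹) * k⁻¹ = e := by
        rw [show k * (k * (k * e * k⁻¹) * k⁻¹) * k⁻¹ = (k * k * k) * e * (k * k * k)⁻¹ by group,
          (mem_omegaCenterOf.1 (wOf_le_omega K he)).2.1 _ (K_cases hK hk hkQ).1, mul_inv_cancel_right]
      rwa [h] at h3
    refine (Set.eq_of_subset_of_ncard_le ?_ ?_ (Set.toFinite _)).symm
    · intro x hx
      simp only [Set.mem_insert_iff, Set.mem_singleton_iff] at hx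
      rcases hx with rfl | rfl | rfl | rfl
      exacts [(wOf K).one_mem, he, hW e he, hW _ (hW e he)]
    · rw [show (wOf K : Set G).ncard = 4 from hK.2.2.2.2.1,
        Set.ncard_insert_of_notMem (by simp [Ne.symm hne, Ne.symm n2, Ne.symm n3]),
        Set.ncard_insert_of_notMem (by simp [Ne.symm n1, Ne.symm n5]),
        Set.ncard_pair (Ne.symm n4)]
  intro w hw
  have hw' : w ∈ ({1, e, k * e * k⁻¹, k * (k * e * k⁻¹) * k⁻¹} : Set G) := hcov ▸ hw
  simp only [Set.mem_insert_iff, Set.mem_singleton_iff] at hw'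
  rcases hw' with rfl | rfl | rfl | rfl
  exacts [(vOf L).one_mem, heV, conj_mem_vOf (hKL hk) heV, conj_mem_vOf (hKL hk) (conj_mem_vOf (hKL hk) heV)]

/-- The odd elements acting like `k` on `V`. -/
theorem eq_mod_cOf (cx : LocalCtx L) (hT : IsSylowTwoIn T L) (hT1 : T ≠ ⊥) (hK : IsJComponent T K) (hKL : K ≤ L)
    {T' K' : Subgroup G} (hT' : IsSylowTwoIn T' L) (hT1' : T' ≠ ⊥) (hK' : IsJComponent T' K') (hKL' : K' ≤ L)
    (hint : wOf K ⊓ wOf K' ≠ ⊥) : K' ≤ K := by
  obtain ⟨k, hk, hko, hkQ⟩ := exists_odd_notMem hK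
  obtain ⟨k', hk', hko', hkQ'⟩ := exists_odd_notMem hK'
  obtain ⟨z, hz, hz1⟩ := (Subgroup.bot_or_exists_ne_one _).resolve_left hint
  have hkL := hKL hk
  have hkL' := hKL' hk'
  have hc : k * k' * k⁻¹ * k'⁻¹ ∈ cOf L := core_le_cOf
    ((ff_structure cx).1 k (component_le_J hT hK hKL hk) k' (component_le_J hT' hK' hKL' hk') hko hko')
  -- conjugation by k and k' commute on V
  have hswap : ∀ v ∈ vOf L, k * (k' * v * k'⁻¹) * k⁻¹ = k' * (k * v * k⁻¹) * k'⁻¹ := by
    intro v hv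
    have hv' := conj_mem_vOf hkL' (conj_mem_vOf hkL hv)
    calc k * (k' * v * k'⁻¹) * k⁻¹
        = (k * k' * k⁻¹ * k'⁻¹) * (k' * (k * v * k⁻¹) * k'⁻¹) * (k * k' * k⁻¹ * k'⁻¹)⁻¹ := by group
      _ = k' * (k * v * k⁻¹) * k'⁻¹ := by
        rw [← (mem_cOf.1 hc).2 _ hv', mul_inv_cancel_right]
  have hWV := wOf_le_vOf cx hT hT1 hK hKL
  have hWV' := wOf_le_vOf cx hT' hT1' hK' hKL'
  have hsq : ∀ v ∈ vOf L, v⁻¹ = v := fun v hv => inv_eq_of_mul_eq_one_left (el_sq vOf_el hv)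
  -- k' preserves W
  have hk'W : ∀ w ∈ wOf K, k' * w * k'⁻¹ ∈ wOf K := by
    intro w hw
    -- w = x * (k x⁻¹ k⁻¹) with x ∈ W
    have hW : ∀ w ∈ wOf K, k * w * k⁻¹ ∈ wOf K := fun w hw =>
      conj_mem_wOf (fun h hh => K.mul_mem (K.mul_mem hk hh) (K.inv_mem hk)) hw
    let f : ↥(wOf K) → ↥(wOf K) := fun x =>
      ⟨(x : G) * (k * (x : G)⁻¹ * k⁻¹), (wOf K).mul_mem x.2 (hW _ ((wOf K).inv_mem x.2))⟩
    have hf : Function.Injective f := by
      intro p q e'
      have e2 : (p : G) * (k * (p : G)⁻¹ * k⁻¹) = q * (k * (q : G)⁻¹ * k⁻¹) := congrArg Subtype.val e'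
      have h1 : k * ((q : G)⁻¹ * p) * k⁻¹ = (q : G)⁻¹ * p := by
        calc k * ((q : G)⁻¹ * p) * k⁻¹ = (q : G)⁻¹ * (q * (k * (q : G)⁻¹ * k⁻¹)) * (k * p * k⁻¹) := by group
          _ = (q : G)⁻¹ * p := by rw [← e2]; group
      exact Subtype.ext (inv_mul_eq_one.1 (fpf_wOf hK hk hko hkQ ((wOf K).mul_mem ((wOf K).inv_mem q.2) p.2) h1)).symm
    obtain ⟨x, hx⟩ := Finite.surjective_of_injective hf ⟨w, hw⟩
    have e : w = (x : G) * (k * (x : G)⁻¹ * k⁻¹) := (congrArg Subtype.val hx).symm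
    have hv' := conj_mem_vOf hkL' (hWV x.2)
    have := (comm_mem_wOf cx hT hT1 hK hKL hk hko hkQ hv').1
    rw [e]
    have e2 : k' * ((x : G) * (k * (x : G)⁻¹ * k⁻¹)) * k'⁻¹ =
        (k' * x * k'⁻¹) * (k * (k' * x * k'⁻¹)⁻¹ * k⁻¹) := by
      rw [show (k' * (x : G) * k'⁻¹)⁻¹ = k' * (x : G)⁻¹ * k'⁻¹ by group,
        hswap _ ((vOf L).inv_mem (hWV x.2))]
      group
    rwa [e2]
  have hfp' : ∀ w ∈ wOf K', k' * w * k'⁻¹ = w → w = 1 := fun w hw e => fpf_wOf hK' hk' hko' hkQ' hw e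
  -- W = W'
  set z₁ := k' * z * k'⁻¹ with hz₁
  have hz₁' : z₁ ∈ wOf K' := conj_mem_wOf (fun h hh => K'.mul_mem (K'.mul_mem hk' hh) (K'.inv_mem hk')) hz.2
  have hz₁W : z₁ ∈ wOf K := hk'W z hz.1
  have hne : z₁ ≠ z := fun e => hz1 (hfp' z hz.2 e)
  have hz₁1 : z₁ ≠ 1 := fun e => hz1 (by simpa [hz₁] using e)
  have hWset : (wOf K : Set G) = {1, z, z₁, z * z₁} := by
    refine (Set.eq_of_subset_of_ncard_le ?_ ?_ (Set.toFinite _)).symm
    · intro x hx
      simp only [Set.mem_insert_iff, Set.mem_singleton_iff] at hx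
      rcases hx with rfl | rfl | rfl | rfl
      exacts [(wOf K).one_mem, hz.1, hz₁W, (wOf K).mul_mem hz.1 hz₁W]
    · have m1 : z * z₁ ≠ 1 := fun e => hne ((eq_inv_of_mul_eq_one_right e).trans
        (inv_eq_of_mul_eq_one_left (hK.2.2.2.2.2 z hz.1)))
      rw [show (wOf K : Set G).ncard = 4 from hK.2.2.2.2.1,
        Set.ncard_insert_of_notMem (by simp [Ne.symm hz1, Ne.symm hz₁1, Ne.symm m1]),
        Set.ncard_insert_of_notMem (by simp [Ne.symm hne, hz₁1]),
        Set.ncard_pair (by simp [hz1])]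
  -- m = k' k^i fixes z for a suitable i
  obtain ⟨m, ε, hεeq, hm, hmz⟩ : ∃ m ε : G, (ε = k ∨ ε = k * k) ∧ m = ε⁻¹ * k' ∧ m * z * m⁻¹ = z := by
    have hW : ∀ w ∈ wOf K, k * w * k⁻¹ ∈ wOf K := fun w hw =>
      conj_mem_wOf (fun h hh => K.mul_mem (K.mul_mem hk hh) (K.inv_mem hk)) hw
    have hfp : ∀ w ∈ wOf K, k * w * k⁻¹ = w → w = 1 := fun w hw e => fpf_wOf hK hk hko hkQ hw e
    have h3 : k * (k * (k * z * k⁻¹) * k⁻¹) * k⁻¹ = z := by
      rw [show k * (k * (k * z * k⁻¹) * k⁻¹) * k⁻¹ = (k * k * k) * z * (k * k * k)⁻¹ by group,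
        (mem_omegaCenterOf.1 (wOf_le_omega K hz.1)).2.1 _ (K_cases hK hk hkQ).1, mul_inv_cancel_right]
    have hor : z₁ = k * z * k⁻¹ ∨ z₁ = k * (k * z * k⁻¹) * k⁻¹ := by
      have hmem : ∀ {x : G}, x ∈ wOf K → x = 1 ∨ x = z ∨ x = z₁ ∨ x = z * z₁ := fun {x} hx => by
        have hx' : x ∈ ({1, z, z₁, z * z₁} : Set G) := hWset ▸ hx
        simpa using hx'
      have n1 : k * z * k⁻¹ ≠ z := fun e => hz1 (hfp z hz.1 e)
      have n2 : k * z * k⁻¹ ≠ 1 := fun e => hz1 (by simpa using e)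
      have n3 : k * (k * z * k⁻¹) * k⁻¹ ≠ 1 := fun e => n2 (by simpa using e)
      have n4 : k * (k * z * k⁻¹) * k⁻¹ ≠ k * z * k⁻¹ := fun e => n1 (by simpa using e)
      have n5 : k * (k * z * k⁻¹) * k⁻¹ ≠ z := fun e => n1 (by rwa [e] at h3)
      rcases (hmem (hW z hz.1)) with h | h | h | h
      · exact absurd h n2
      · exact absurd h n1
      · exact Or.inl h.symm
      · rcases (hmem (hW _ (hW z hz.1))) with h' | h' | h' | h'
        · exact absurd h' n3
        · exact absurd h' n5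
        · exact Or.inr h'.symm
        · exact absurd (h'.trans h.symm) n4
    rcases hor with h | h
    · refine ⟨_, k, Or.inl rfl, rfl, ?_⟩
      rw [show k⁻¹ * k' * z * (k⁻¹ * k')⁻¹ = k⁻¹ * z₁ * k by rw [hz₁]; group, h]; group
    · refine ⟨_, k * k, Or.inr rfl, rfl, ?_⟩
      rw [show (k * k)⁻¹ * k' * z * ((k * k)⁻¹ * k')⁻¹ = (k * k)⁻¹ * z₁ * (k * k) by rw [hz₁]; simp [mul_assoc], h]; simp [mul_assoc]
  have hεL : ε ∈ L := by rcases hεeq with rfl | rfl; exacts [hkL, L.mul_mem hkL hkL]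
  have hεK : ε ∈ K := by rcases hεeq with rfl | rfl; exacts [hk, K.mul_mem hk hk]
  have hmL : m ∈ L := by rw [hm]; exact L.mul_mem (L.inv_mem hεL) hkL'
  -- m commutes with k on V
  have hswap' : ∀ v ∈ vOf L, k * (m * v * m⁻¹) * k⁻¹ = m * (k * v * k⁻¹) * m⁻¹ := by
    intro v hv
    have hεc : ε⁻¹ * k = k * ε⁻¹ := by rcases hεeq with rfl | rfl <;> group
    calc k * (m * v * m⁻¹) * k⁻¹ = (k * ε⁻¹) * (k' * v * k'⁻¹) * (k * ε⁻¹)⁻¹ := by rw [hm]; group
      _ = ε⁻¹ * (k * (k' * v * k'⁻¹) * k⁻¹) * ε⁻¹⁻¹ := by rw [← hεc]; group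
      _ = m * (k * v * k⁻¹) * m⁻¹ := by rw [hswap v hv, hm]; group
  have hmW : ∀ w ∈ wOf K, m * w * m⁻¹ = w := by
    intro w hw
    have hWk : (wOf K : Set G) = {1, z, k * z * k⁻¹, z * (k * z * k⁻¹)} := by
      have hW : k * z * k⁻¹ ∈ wOf K := conj_mem_wOf (fun h hh => K.mul_mem (K.mul_mem hk hh) (K.inv_mem hk)) hz.1
      have n1 : k * z * k⁻¹ ≠ z := fun e => hz1 (fpf_wOf hK hk hko hkQ hz.1 e)
      have n2 : k * z * k⁻¹ ≠ 1 := fun e => hz1 (by simpa using e)
      have m1 : z * (k * z * k⁻¹) ≠ 1 := fun e => n1 ((eq_inv_of_mul_eq_one_right e).trans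
        (inv_eq_of_mul_eq_one_left (hK.2.2.2.2.2 z hz.1)))
      refine (Set.eq_of_subset_of_ncard_le ?_ ?_ (Set.toFinite _)).symm
      · intro x hx
        simp only [Set.mem_insert_iff, Set.mem_singleton_iff] at hx
        rcases hx with rfl | rfl | rfl | rfl
        exacts [(wOf K).one_mem, hz.1, hW, (wOf K).mul_mem hz.1 hW]
      · rw [show (wOf K : Set G).ncard = 4 from hK.2.2.2.2.1,
          Set.ncard_insert_of_notMem (by simp [Ne.symm hz1, Ne.symm n2, Ne.symm m1]),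
          Set.ncard_insert_of_notMem (by simp [Ne.symm n1, n2]),
          Set.ncard_pair (by simp [hz1])]
    have hw' : w ∈ ({1, z, k * z * k⁻¹, z * (k * z * k⁻¹)} : Set G) := hWk ▸ hw
    have hkz : m * (k * z * k⁻¹) * m⁻¹ = k * z * k⁻¹ := by rw [← hswap' z (hWV hz.1), hmz]
    simp only [Set.mem_insert_iff, Set.mem_singleton_iff] at hw'
    rcases hw' with rfl | rfl | rfl | rfl
    · group
    · exact hmz
    · exact hkz
    · rw [show m * (z * (k * z * k⁻¹)) * m⁻¹ = (m * z * m⁻¹) * (m * (k * z * k⁻¹) * m⁻¹) by group, hmz, hkz]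
  have hW'eq : ∀ x ∈ wOf K', x ∈ wOf K := by
    have : (wOf K : Set G) = (wOf K' : Set G) := by
      refine Set.eq_of_subset_of_ncard_le ?_ ?_ (Set.toFinite _)
      · intro x hx
        have hx' : x ∈ ({1, z, z₁, z * z₁} : Set G) := hWset ▸ hx
        simp only [Set.mem_insert_iff, Set.mem_singleton_iff] at hx'
        rcases hx' with rfl | rfl | rfl | rfl
        exacts [(wOf K').one_mem, hz.2, hz₁', (wOf K').mul_mem hz.2 hz₁']
      · rw [show (wOf K : Set G).ncard = 4 from hK.2.2.2.2.1, show (wOf K' : Set G).ncard = 4 from hK'.2.2.2.2.1]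
    exact fun x hx => by rw [← SetLike.mem_coe, this]; exact hx
  have hmC : m ∈ cOf L := by
    refine mem_cOf.2 ⟨hmL, fun v hv => ?_⟩
    set d := m * v * m⁻¹ * v with hd
    have hvm := conj_mem_vOf hmL hv
    -- d lies in W
    have hdW : d ∈ wOf K := by
      have hsplit : ∀ g ∈ K, g * v * g⁻¹ * v⁻¹ ∈ wOf K := by
        intro g hg
        obtain ⟨hQC, -⟩ := component_data cx hT hK hKL
        have base : ∀ q ∈ pCoreOf 2 K, q * v * q⁻¹ = v := fun q hq => by
          rw [← (mem_cOf.1 (hQC q hq)).2 v hv, mul_inv_cancel_right]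
        have hk1 : ∀ u ∈ vOf L, k * u * k⁻¹ * u⁻¹ ∈ wOf K := fun u hu => by
          have := (wOf K).inv_mem (comm_mem_wOf cx hT hT1 hK hKL hk hko hkQ hu).1
          rwa [show (u * (k * u⁻¹ * k⁻¹))⁻¹ = k * u * k⁻¹ * u⁻¹ by group] at this
        have hk2 : k * k * v * (k * k)⁻¹ * v⁻¹ ∈ wOf K := by
          rw [show k * k * v * (k * k)⁻¹ * v⁻¹ =
            (k * (k * v * k⁻¹) * k⁻¹ * (k * v * k⁻¹)⁻¹) * (k * v * k⁻¹ * v⁻¹) by group]
          exact (wOf K).mul_mem (hk1 _ (conj_mem_vOf hkL hv)) (hk1 v hv)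
        have hqfix : ∀ q ∈ pCoreOf 2 K, ∀ u ∈ vOf L, q * u * q⁻¹ = u := fun q hq u hu => by
          rw [← (mem_cOf.1 (hQC q hq)).2 u hu, mul_inv_cancel_right]
        rcases (K_cases hK hk hkQ).2 g hg with h | h | h
        · rw [base g h, mul_inv_cancel]; exact (wOf K).one_mem
        · rw [show g * v * g⁻¹ = (g * k⁻¹) * (k * v * k⁻¹) * (g * k⁻¹)⁻¹ by group,
            hqfix _ h _ (conj_mem_vOf hkL hv)]
          exact hk1 v hv
        · rw [show g * v * g⁻¹ = (g * (k * k)⁻¹) * (k * k * v * (k * k)⁻¹) * (g * (k * k)⁻¹)⁻¹ by group,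
            hqfix _ h _ (conj_mem_vOf (L.mul_mem hkL hkL) hv)]
          exact hk2
      have h1 : k' * v * k'⁻¹ * v⁻¹ ∈ wOf K := by
        refine hW'eq _ ?_
        have := (wOf K').inv_mem (comm_mem_wOf cx hT' hT1' hK' hKL' hk' hko' hkQ' hv).1
        rwa [show (v * (k' * v⁻¹ * k'⁻¹))⁻¹ = k' * v * k'⁻¹ * v⁻¹ by group] at this
      have h2 := hsplit ε⁻¹ (K.inv_mem hεK)
      have h1' : ε⁻¹ * (k' * v * k'⁻¹ * v⁻¹) * ε⁻¹⁻¹ ∈ wOf K :=
        conj_mem_wOf (fun h hh => K.mul_mem (K.mul_mem (K.inv_mem hεK) hh) (K.inv_mem (K.inv_mem hεK))) h1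
      have h3 := (wOf K).mul_mem h1' h2
      rw [show ε⁻¹ * (k' * v * k'⁻¹ * v⁻¹) * ε⁻¹⁻¹ * (ε⁻¹ * v * ε⁻¹⁻¹ * v⁻¹) = m * v * m⁻¹ * v⁻¹ by
        rw [hm]; group, hsq v hv] at h3
      exact h3
    have hfix : k * d * k⁻¹ = d := by
      set u := k * v * k⁻¹ * v with hu'
      have huW : u ∈ wOf K := by
        have := (wOf K).inv_mem (comm_mem_wOf cx hT hT1 hK hKL hk hko hkQ hv).1
        rwa [show (v * (k * v⁻¹ * k⁻¹))⁻¹ = k * v * k⁻¹ * v⁻¹ by group, hsq v hv] at this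
      have huV := hWV huW
      have e0 : k * v * k⁻¹ = u * v := by rw [hu', mul_assoc (k * v * k⁻¹), el_sq vOf_el hv, mul_one]
      calc k * d * k⁻¹ = k * (m * v * m⁻¹) * k⁻¹ * (k * v * k⁻¹) := by rw [hd]; group
        _ = m * (u * v) * m⁻¹ * (u * v) := by rw [hswap' v hv, e0]
        _ = (m * u * m⁻¹) * ((m * v * m⁻¹) * u) * v := by group
        _ = (u * u) * d := by rw [hmW u huW, el_comm vOf_el hvm huV, hd]; group
        _ = d := by rw [el_sq vOf_el huV, one_mul]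
    have := fpf_wOf hK hk hko hkQ hdW hfix
    rw [hd, mul_eq_one_iff_eq_inv, hsq v hv, mul_inv_eq_iff_eq_mul] at this
    exact this.symm
  -- conclude
  have hk'mem : k' ∈ K ⊔ cOf L := by
    rw [show k' = ε * m by rw [hm]; group]
    exact Subgroup.mul_mem _ (Subgroup.mem_sup_left hεK) (Subgroup.mem_sup_right hmC)
  have hK'le : K' ≤ K ⊔ cOf L := (component_le_zpowers_sup cx hT' hK' hKL' hk' hkQ').trans
    (sup_le (Subgroup.zpowers_le.2 hk'mem) le_sup_right)
  have hCn := cOf_normalizes_component cx hT hT1 hK hKL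
  have hJn := J_normalizes_component cx hT hT1 hK hKL
  have hsmall : K' ≤ K ⊔ pCoreOf 2 L := by
    rw [← hK'.2.1, Subgroup.commutator_le]
    intro y hy j hj
    have hy' := hK'le hy
    rw [← SetLike.mem_coe, Subgroup.coe_mul_of_right_le_normalizer_left _ _ hCn] at hy'
    obtain ⟨x, hx, c, hc, rfl⟩ := hy'
    have hjJ := thompson_sylow_le hT' hj
    rw [commutatorElement_def]
    simp only []
    rw [show x * c * j * (x * c)⁻¹ * j⁻¹ = (x * (c * j * c⁻¹ * j⁻¹) * x⁻¹) * (x * (j * x⁻¹ * j⁻¹)) by group]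
    refine Subgroup.mul_mem _ (Subgroup.mem_sup_right (conj_mem_core (hKL hx) (cOf_comm_J cx hc hjJ))) ?_
    exact Subgroup.mem_sup_left (K.mul_mem hx ((Subgroup.mem_normalizer_iff.1 (hJn hjJ) x⁻¹).1 (K.inv_mem hx)))
  conv_lhs => rw [← hK'.1]
  rw [Subgroup.closure_le]
  exact fun g hg => odd_mem_of_sup cx hT hT1 hK hKL (hsmall hg.1) hg.2

theorem component_unique (cx : LocalCtx L) (hT : IsSylowTwoIn T L) (hT1 : T ≠ ⊥) (hK : IsJComponent T K)
    (hKL : K ≤ L) {T' K' : Subgroup G} (hT' : IsSylowTwoIn T' L) (hT1' : T' ≠ ⊥) (hK' : IsJComponent T' K')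
    (hKL' : K' ≤ L) (hint : wOf K ⊓ wOf K' ≠ ⊥) : K' = K :=
  le_antisymm (eq_mod_cOf cx hT hT1 hK hKL hT' hT1' hK' hKL' hint)
    (eq_mod_cOf cx hT' hT1' hK' hKL' hT hT1 hK hKL (by rwa [inf_comm]))

theorem component_subnormal (cx : LocalCtx L) (hT : IsSylowTwoIn T L) (hT1 : T ≠ ⊥) (hK : IsJComponent T K)
    (hKL : K ≤ L) : (K.subgroupOf L).IsSubnormal := by
  obtain ⟨k, hk, hko, hkQ⟩ := exists_odd_notMem hK
  have h1 := (ff_structure cx).2.1 k (component_le_J hT hK hKL hk) hko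
  have hle := component_le_zpowers_sup cx hT hK hKL hk hkQ
  have hn : Subgroup.zpowers k ⊔ cOf L ≤ Subgroup.normalizer (K : Set G) :=
    sup_le (Subgroup.zpowers_le.2 (Subgroup.le_normalizer hk)) (cOf_normalizes_component cx hT hT1 hK hKL)
  refine Components.subnormal_of_normal_le (K := (Subgroup.zpowers k ⊔ cOf L).subgroupOf L)
    (fun x hx => hle hx) (fun a ha => ?_) h1
  rw [Subgroup.mem_normalizer_iff]
  exact fun x => Subgroup.mem_normalizer_iff.1 (hn ha) (x : G)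

end components

end CfsgLib.JComp
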