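import Cfsg.Agent.JComp.Final
import Cfsg.Agent.JComp.Double

/-!
Components over a Sylow 2-subgroup `T`: two of them share a fixed point.
-/

set_option autoImplicit false
open Cfsg

namespace CfsgLib.JComp

variable {G : Type*} [Group G] [Finite G]

/-- A component with its maximal 2-local subgroup. -/
structure Comp (T K L : Subgroup G) : Prop where
  comp : IsJComponent T K
  maxi : IsMaximalTwoLocal L
  le : K ≤ L
  syl : IsSylowTwoIn T L
  tK : T ≤ Subgroup.normalizer (K : Set G)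
  only : ∀ L' : Subgroup G, IsMaximalTwoLocal L' → K ≤ L' → T ≤ L' → L' = L

/-- `T` is a Sylow 2-subgroup and `Ω₁(Z(J(T)))` is central in it. -/
structure SylCtx (T : Subgroup G) : Prop where
  char2 : IsCharacteristicTwoType G
  sol2 : ∀ N : Subgroup G, IsTwoLocal N → Group.IsSolvable ↥N
  zn : ∀ S : Sylow 2 G, Subgroup.centralizer (omegaCenterOf (S : Subgroup G) : Set G) ≤
    Subgroup.normalizer ((S : Subgroup G) : Set G)
  isSylow : ∃ P : Sylow 2 G, (P : Subgroup G) = T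
  ne_bot : T ≠ ⊥
  zc : z0Of T ≤ omegaCenterOf T

namespace SylCtx

variable {T : Subgroup G} (σ : SylCtx T)
include σ

theorem two : IsPGroup 2 ↥T := by
  obtain ⟨P, rfl⟩ := σ.isSylow
  exact P.isPGroup'

theorem sylowIn {H : Subgroup G} (hTH : T ≤ H) : IsSylowTwoIn T H := by
  haveI : Fact (Nat.Prime 2) := ⟨Nat.prime_two⟩
  refine ⟨hTH, σ.two, ?_⟩
  obtain ⟨P, rfl⟩ := σ.isSylow
  rw [Nat.odd_iff]
  have : ¬ 2 ∣ (P : Subgroup G).relIndex H := fun h =>
    P.not_dvd_index (h.trans (Subgroup.relIndex_dvd_index_of_le hTH))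
  omega

theorem ctx {L : Subgroup G} (hL : IsTwoLocal L) : LocalCtx L := isTwoLocal_ctx σ.char2 σ.sol2 σ.zn hL

theorem z_comm {z t : G} (hz : z ∈ z0Of T) (ht : t ∈ T) : t * z = z * t :=
  (mem_omegaCenterOf.1 (σ.zc hz)).2.1 t ht

theorem z_mem {z : G} (hz : z ∈ z0Of T) : z ∈ T := (mem_omegaCenterOf.1 (σ.zc hz)).1

theorem cent_le {x : G} (hx : ∀ z ∈ z0Of T, x * z = z * x) : x ∈ Subgroup.normalizer (T : Set G) := by
  obtain ⟨P, hP⟩ := σ.isSylow
  have h := σ.zn P (show x ∈ Subgroup.centralizer (omegaCenterOf (P : Subgroup G) : Set G) from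
    Subgroup.mem_centralizer_iff.2 fun z hz => (hx z (omegaCenterOf_le T (by rw [← hP]; exact hz))).symm)
  rwa [hP] at h

omit σ in
theorem conj_z {x z : G} (hx : x ∈ Subgroup.normalizer (T : Set G)) (hz : z ∈ z0Of T) :
    x * z * x⁻¹ ∈ z0Of T := conj_mem_omegaCenterOf (normalizer_le_thompson T hx) hz

theorem two_elem_mem {y : G} (hy : y ∈ Subgroup.normalizer (T : Set G)) {n : ℕ} (hn : y ^ 2 ^ n = 1) : y ∈ T := by
  haveI : Fact (Nat.Prime 2) := ⟨Nat.prime_two⟩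
  obtain ⟨P, hP⟩ := σ.isSylow
  have hyp : IsPGroup 2 ↥((P : Subgroup G) ⊔ Subgroup.zpowers y) := by
    refine P.isPGroup'.to_sup_of_normal_left' ?_ (Subgroup.zpowers_le.2 (hP ▸ hy))
    refine IsPGroup.of_card (n := Nat.log 2 (orderOf y)) ?_
    obtain ⟨j, -, hj⟩ := (Nat.dvd_prime_pow Nat.prime_two).1 (orderOf_dvd_of_pow_eq_one hn)
    rw [Nat.card_zpowers, hj, Nat.log_pow (by norm_num)]
  rw [← hP, ← P.is_maximal' hyp le_sup_left]
  exact Subgroup.mem_sup_right (Subgroup.mem_zpowers y)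

/-- An element of `N(T)` whose square fixes `z` fixes `z`. -/
theorem odd_move {g z : G} (hg : g ∈ Subgroup.normalizer (T : Set G)) (hz : z ∈ z0Of T)
    (h : g * (g * z * g⁻¹) * g⁻¹ = z) : g * z * g⁻¹ = z := by
  have hev : ∀ j : ℕ, g ^ (2 * j) * z * (g ^ (2 * j))⁻¹ = z := by
    intro j
    induction j with
    | zero => simp
    | succ j ih =>
      calc g ^ (2 * (j + 1)) * z * (g ^ (2 * (j + 1)))⁻¹
          = g * (g * (g ^ (2 * j) * z * (g ^ (2 * j))⁻¹) * g⁻¹) * g⁻¹ := by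
            rw [show 2 * (j + 1) = 2 * j + 1 + 1 by ring, pow_succ', pow_succ']; group
        _ = z := by rw [ih, h]
  obtain ⟨e, m, hm, hge⟩ : ∃ e m : ℕ, Odd m ∧ orderOf g = 2 ^ e * m := by
    obtain ⟨e, m, hm, h⟩ := Nat.exists_eq_two_pow_mul_odd (orderOf_pos g).ne'
    exact ⟨e, m, hm, h⟩
  have hmT : g ^ m ∈ T := σ.two_elem_mem ((Subgroup.normalizer (T : Set G)).pow_mem hg m) (n := e) (by
    rw [← pow_mul, mul_comm m, ← hge, pow_orderOf_eq_one])
  obtain ⟨j, rfl⟩ := hm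
  have h1 : g ^ (2 * j + 1) * z * (g ^ (2 * j + 1))⁻¹ = z := by
    rw [σ.z_comm hz hmT, mul_inv_cancel_right]
  calc g * z * g⁻¹ = g * (g ^ (2 * j) * z * (g ^ (2 * j))⁻¹) * g⁻¹ := by rw [hev j]
    _ = z := by rw [show g * (g ^ (2 * j) * z * (g ^ (2 * j))⁻¹) * g⁻¹ =
        g ^ (2 * j + 1) * z * (g ^ (2 * j + 1))⁻¹ by rw [pow_succ']; group, h1]

theorem z_cap {K : Subgroup G} (hK : IsJComponent T K) : Nat.card ↥(z0Of T ⊓ wOf K) = 2 :=
  (Cfsg.Agent.S2946.result σ.char2 σ.sol2 σ.zn T σ.two σ.ne_bot K hK (z0Of T) rfl).1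

theorem exists_u {K : Subgroup G} (hK : IsJComponent T K) :
    ∃ u ∈ z0Of T, u ∈ wOf K ∧ u ≠ 1 := by
  obtain ⟨u, ⟨hu1, hu2⟩, hu3⟩ := (Subgroup.bot_or_exists_ne_one (z0Of T ⊓ wOf K)).resolve_left fun h => by
    have := σ.z_cap hK
    rw [h, Subgroup.card_bot] at this
    omega
  exact ⟨u, hu1, hu2, hu3⟩

/-- Build a component datum; `T` normalizes the component automatically. -/
theorem mk_comp {K L : Subgroup G} (hK : IsJComponent T K) (hL : IsMaximalTwoLocal L) (hKL : K ≤ L)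
    (hTL : IsSylowTwoIn T L) (only : ∀ L' : Subgroup G, IsMaximalTwoLocal L' → K ≤ L' → T ≤ L' → L' = L) :
    Comp T K L := by
  refine ⟨hK, hL, hKL, hTL, fun t ht => Subgroup.mem_normalizer_iff_map_conj_eq.2 ?_, only⟩
  obtain ⟨u, huZ, huW, hu1⟩ := σ.exists_u hK
  have htJ := normalizer_le_thompson T (Subgroup.le_normalizer ht)
  have hK' : IsJComponent T (K.map (MulAut.conj t).toMonoidHom) := by
    refine IsJComponent.of_J_eq ?_ (IsJComponent.map (MulAut.conj t) hK)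
    rw [thompson_map]
    exact (Subgroup.mem_normalizer_iff_map_conj_eq.1 htJ).symm
  refine component_unique (σ.ctx hL.1) hTL σ.ne_bot hK hKL hTL σ.ne_bot hK' ?_ fun h0 => ?_
  · rintro _ ⟨y, hy, rfl⟩
    exact L.mul_mem (L.mul_mem (hTL.1 ht) (hKL hy)) (L.inv_mem (hTL.1 ht))
  · change wOf K ⊓ wOf (K.map (MulAut.conj t).toMonoidHom) = ⊥ at h0
    rw [wOf_map] at h0
    have hmem : u ∈ wOf K ⊓ (wOf K).map (MulAut.conj t).toMonoidHom :=
      ⟨huW, u, huW, by simp [σ.z_comm huZ ht]⟩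
    rw [h0, Subgroup.mem_bot] at hmem
    exact hu1 hmem

/-- Components given by a straddling context over `T`. -/
theorem comp_of_straddle {P : Sylow 2 G} {M : Subgroup G} (c : StraddleCtx P M T) {N : Subgroup G}
    (hN : IsTwoLocal N) (hTN : T ≤ N) (hNM : ¬ N ≤ M) : ∃ K L, Comp T K L ∧ K ≤ N ∧ ¬ K ≤ M := by
  obtain ⟨-, -, -, -, K, hK, hKN, hKM⟩ := straddle_main c.char2 c.sol2 c.zn P c.hMJ c.max hN hNM
    (σ.sylowIn hTN) (thompson_le_self T)
  obtain ⟨L, hL, hNL⟩ := exists_maximalTwoLocal hN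
  have hJ := thompson_le_self T
  exact ⟨K, L, σ.mk_comp hK hL (hKN.trans hNL) (σ.sylowIn (hTN.trans hNL)) fun L' hL' hKL' hTL' =>
    c.eq_of_maximal hK hKM hL (sup_le (hKN.trans hNL) (hJ.trans (hTN.trans hNL))) hL'
      (sup_le hKL' (hJ.trans hTL')), hKN, hKM⟩

theorem maxStraddling {L L' : Subgroup G} (hTL : T ≤ L) (hL' : IsTwoLocal L') (hTL' : T ≤ L')
    (hne : ¬ L' ≤ L) : T ∈ maxStraddlingTwoSubgroups L := by
  haveI : Fact (Nat.Prime 2) := ⟨Nat.prime_two⟩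
  refine ⟨⟨σ.two, σ.ne_bot, hTL, L', hL', hTL', hne⟩, fun R hR => ?_⟩
  obtain ⟨P, hP⟩ := σ.isSylow
  obtain ⟨P', hRP'⟩ := hR.1.exists_le_sylow
  obtain ⟨g, rfl⟩ := MulAction.exists_smul_eq G P P'
  set φ := (MulAut.conj g).toMonoidHom with hφ
  have hRT : R ≤ T.map φ := by
    rw [← hP, hφ]
    exact hRP'
  obtain ⟨A, hA⟩ := exists_maxEl T
  obtain ⟨B, hB⟩ := exists_maxEl R
  have hA' := hA.map (MulAut.conj g)
  have hcard := Subgroup.card_map_of_injective (K := A) (f := φ) (MulAut.conj g).injective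
  have h1 : Nat.card ↥B ≤ Nat.card ↥A := hcard ▸ hA'.max B (hB.le.trans hRT) hB.el
  rw [maxElemAbelianOrder_eq hB, maxElemAbelianOrder_eq hA]
  refine ⟨h1, fun heq => ⟨?_, fun _ => ?_⟩⟩
  · have hle : thompsonSubgroupOf 2 R ≤ thompsonSubgroupOf 2 (T.map φ) := thompson_le fun B' hB' =>
      IsMaxEl.le_thompson ⟨hB'.le.trans hRT, hB'.el, fun D hD hDe =>
        ((hA'.max D hD hDe).trans (hcard.trans heq.symm).le).trans (hB'.max B hB.le hB.el)⟩
    refine (Subgroup.card_le_of_le hle).trans ?_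
    rw [hφ, thompson_map, Subgroup.card_map_of_injective (f := (MulAut.conj g).toMonoidHom) (MulAut.conj g).injective]
  · refine (Subgroup.card_le_of_le hRT).trans ?_
    rw [hφ, Subgroup.card_map_of_injective (f := (MulAut.conj g).toMonoidHom) (MulAut.conj g).injective]

omit σ in
/-- The two-ended context of two components with different maximal subgroups. -/
theorem pair2 {K K' L L' : Subgroup G} {u u' : G} (h2 : IsPGroup 2 ↥T) (hc : Comp T K L) (hc' : Comp T K' L')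
    (hne : L ≠ L') (hu : u ∈ wOf K) (hu1 : u ≠ 1) (huT : ∀ t ∈ T, t * u = u * t)
    (hu' : u' ∈ wOf K') (hu1' : u' ≠ 1) (huT' : ∀ t ∈ T, t * u' = u' * t) :
    Pair2 T (fun i => cond i K' K) (fun i => cond i u' u) := by
  have hcore : ∀ {K L : Subgroup G}, Comp T K L → pCoreOf 2 K ≤ T := by
    intro K L hc
    have hn : T ≤ Subgroup.normalizer (pCoreOf 2 K : Set G) := fun t ht =>
      Subgroup.mem_normalizer_fintype fun y hy =>
        conj_mem_pCoreOf (fun k hk => (Subgroup.mem_normalizer_iff.1 (hc.tK ht) k).1 hk) hy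
    obtain ⟨l, hl, hmem⟩ := sylow_conj hc.syl (h2.to_sup_of_normal_right' (isPGroup_pCoreOf K) hn)
      (sup_le hc.syl.1 ((pCoreOf_le K).trans hc.le))
    have hT : T = T ⊔ pCoreOf 2 K := by
      refine Subgroup.eq_of_le_of_card_ge le_sup_left ?_
      rw [← Subgroup.card_map_of_injective (K := T ⊔ pCoreOf 2 K) (f := (MulAut.conj l).toMonoidHom) (MulAut.conj l).injective]
      refine Subgroup.card_le_of_le ?_
      rintro _ ⟨y, hy, rfl⟩
      exact hmem y hy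
    rw [hT]; exact le_sup_right
  refine ⟨fun i => ?_, fun i => ?_, fun i => ?_, fun i => ?_, fun R hR hK hT => ?_⟩
  · cases i
    exacts [⟨h2, hc.comp, hc.tK, hcore hc⟩, ⟨h2, hc'.comp, hc'.tK, hcore hc'⟩]
  · cases i; exacts [hu, hu']
  · cases i; exacts [hu1, hu1']
  · cases i; exacts [huT, huT']
  · by_contra hR1
    obtain ⟨L₃, hL₃, hle⟩ := exists_maximalTwoLocal (G := G) ⟨R, hR, hR1, rfl⟩
    exact hne ((hc.only L₃ hL₃ ((hK false).trans hle) (hT.trans hle)).symm.trans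
      (hc'.only L₃ hL₃ ((hK true).trans hle) (hT.trans hle)))

end SylCtx

/-- A component with the fixed point `u` and the central involution `h`. -/
structure Dat (T K L : Subgroup G) (u h : G) : Prop where
  cp : Comp T K L
  uW : u ∈ wOf K
  uZ : u ∈ z0Of T
  u1 : u ≠ 1
  hZ : h ∈ z0Of T
  h1 : h ≠ 1
  hK : ∀ y ∈ K, y * h = h * y

namespace Dat

variable {T K L K' L' : Subgroup G} {u h u' h' : G} (σ : SylCtx T) (d : Dat T K L u h)
include σ d

theorem not_cent : ¬ ∀ y ∈ K, y * u = u * y := fun hc => by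
  obtain ⟨k, hk, hko, hkQ⟩ := exists_odd_notMem d.cp.comp
  exact d.u1 (fpf_wOf d.cp.comp hk hko hkQ d.uW (by rw [hc k hk, mul_inv_cancel_right]))

theorem u_ne_h : u ≠ h := fun e => d.not_cent σ (e ▸ d.hK)

theorem u_unique {w : G} (hw : w ∈ z0Of T) (hw' : w ∈ wOf K) (hw1 : w ≠ 1) : w = u :=
  two_of_card_le (σ.z_cap d.cp.comp).le ⟨hw, hw'⟩ ⟨d.uZ, d.uW⟩ hw1 d.u1

variable (h4 : Nat.card ↥(z0Of T) = 4)
include h4

theorem four {y : G} (hy : y ∈ z0Of T) : y = 1 ∨ y = u ∨ y = h ∨ y = u * h :=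
  four_cases h4 (fun z hz => (mem_omegaCenterOf.1 hz).2.2) d.uZ d.hZ d.u1 d.h1 (d.u_ne_h σ) hy

theorem h_unique {w : G} (hw : w ∈ z0Of T) (hwK : ∀ y ∈ K, y * w = w * y) (hw1 : w ≠ 1) : w = h := by
  rcases d.four σ h4 hw with e | e | e | e
  · exact absurd e hw1
  · exact absurd (e ▸ hwK) (d.not_cent σ)
  · exact e
  · refine absurd (fun y hy => ?_) (d.not_cent σ)
    have h2 : Commute y (w * h⁻¹) :=
      (show Commute y w from hwK y hy).mul_right (show Commute y h from d.hK y hy).inv_right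
    rw [e, mul_inv_cancel_right] at h2
    exact h2.eq

omit h4

theorem cent_le : Subgroup.centralizer ({h} : Set G) ≤ L := by
  obtain ⟨L₁, hL₁, hle⟩ := exists_maximalTwoLocal
    (isTwoLocal_centralizer (mem_omegaCenterOf.1 d.hZ).2.2 d.h1)
  have e := d.cp.only L₁ hL₁
    (fun y hy => hle (Subgroup.mem_centralizer_singleton_iff.2 (d.hK y hy)))
    (fun t ht => hle (Subgroup.mem_centralizer_singleton_iff.2 (σ.z_comm d.hZ ht)))
  exact e ▸ hle

theorem same_h (d' : Dat T K' L' u' h) : L' = L :=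
  (d'.cp.only L d.cp.maxi (fun y hy => d.cent_le σ (Subgroup.mem_centralizer_singleton_iff.2 (d'.hK y hy)))
    d.cp.syl.1).symm

theorem same_u (d' : Dat T K' L u h') : K' = K :=
  component_unique (σ.ctx d.cp.maxi.1) d.cp.syl σ.ne_bot d.cp.comp d.cp.le d.cp.syl σ.ne_bot d'.cp.comp d'.cp.le
    fun h0 => d.u1 (Subgroup.mem_bot.1 (h0 ▸ (⟨d.uW, d'.uW⟩ : u ∈ wOf K ⊓ wOf K')))

theorem conj {g : G} (hg : g ∈ Subgroup.normalizer (T : Set G)) :
    Dat T (K.map (MulAut.conj g).toMonoidHom) (L.map (MulAut.conj g).toMonoidHom) (g * u * g⁻¹) (g * h * g⁻¹) := by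
  set φ := (MulAut.conj g).toMonoidHom with hφ
  have hinj : Function.Injective φ := (MulAut.conj g).injective
  have hTg : T.map φ = T := Subgroup.mem_normalizer_iff_map_conj_eq.1 hg
  have hback : ∀ {A B : Subgroup G}, A.map φ ≤ B → A ≤ B.map (MulAut.conj g⁻¹).toMonoidHom := fun hAB y hy =>
    ⟨g * y * g⁻¹, hAB ⟨y, hy, by simp [hφ]⟩, by simp [mul_assoc]⟩
  have hLc : IsMaximalTwoLocal (L.map φ) := by
    refine ⟨isTwoLocal_map g d.cp.maxi.1, fun L₁ hL₁ hle => ?_⟩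
    have e := d.cp.maxi.2 _ (isTwoLocal_map g⁻¹ hL₁) (hback hle)
    rw [← e, Subgroup.map_map]
    convert (Subgroup.map_id L₁).symm using 2
    ext y
    simp [hφ, mul_assoc]
  refine ⟨⟨?_, hLc, Subgroup.map_mono d.cp.le, σ.sylowIn (hTg ▸ Subgroup.map_mono d.cp.syl.1), ?_, ?_⟩,
    ?_, SylCtx.conj_z hg d.uZ, fun e => d.u1 (by simpa using e), SylCtx.conj_z hg d.hZ,
    fun e => d.h1 (by simpa using e), ?_⟩
  · refine IsJComponent.of_J_eq ?_ (IsJComponent.map (MulAut.conj g) d.cp.comp)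
    rw [← hφ, hTg]
  · have h1 := Subgroup.map_mono (f := φ) d.cp.tK
    rw [hTg] at h1
    exact h1.trans (Subgroup.le_normalizer_map φ)
  · intro L₁ hL₁ hKL₁ hTL₁
    obtain ⟨L₂, hL₂, hle₂⟩ := exists_maximalTwoLocal (isTwoLocal_map g⁻¹ hL₁.1)
    have e := d.cp.only L₂ hL₂ ((hback hKL₁).trans hle₂) ((hback (hTg.le.trans hTL₁)).trans hle₂)
    refine (hL₁.2 _ hLc.1 fun y hy => ⟨g⁻¹ * y * g, ?_, by simp [hφ, mul_assoc]⟩).symm
    rw [← e]
    exact hle₂ ⟨y, hy, by simp⟩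
  · rw [hφ, wOf_map]
    exact ⟨u, d.uW, by simp⟩
  · rintro _ ⟨y, hy, rfl⟩
    simpa [hφ] using conj_comm g (d.hK y hy)

theorem fix_norm {x : G} (hx : ∀ z ∈ z0Of T, x * z = z * x) : x ∈ Subgroup.normalizer (K : Set G) := by
  have hxT := σ.cent_le hx
  have d' := d.conj σ hxT
  rw [hx u d.uZ, mul_inv_cancel_right, hx h d.hZ, mul_inv_cancel_right] at d'
  have hLx := d.same_h σ d'
  rw [hLx] at d'
  exact Subgroup.mem_normalizer_iff_map_conj_eq.2 (d.same_u σ d')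

include h4

/-- `C(h) = ⟨K, T⟩ C(Z₀)`. -/
theorem cent_decomp {g : G} (hg : g * h = h * g) :
    ∃ k ∈ K ⊔ T, ∃ x, (∀ z ∈ z0Of T, x * z = z * x) ∧ g = k * x := by
  classical
  have hgL : g ∈ L := d.cent_le σ (Subgroup.mem_centralizer_singleton_iff.2 hg)
  set φ := (MulAut.conj g).toMonoidHom with hφ
  have hLg : L.map φ = L := Subgroup.mem_normalizer_iff_map_conj_eq.1 (Subgroup.le_normalizer hgL)
  have hTg : IsSylowTwoIn (T.map φ) L := by
    have h' := isSylowTwoIn_map (MulAut.conj g) d.cp.syl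
    rwa [hLg] at h'
  have hT1g : T.map φ ≠ ⊥ := fun e =>
    σ.ne_bot ((Subgroup.map_eq_bot_iff_of_injective _ (MulAut.conj g).injective).1 e)
  have hKg : IsJComponent (T.map φ) (K.map φ) := IsJComponent.map (MulAut.conj g) d.cp.comp
  have hKgL : K.map φ ≤ L := hLg ▸ Subgroup.map_mono d.cp.le
  have cx := σ.ctx d.cp.maxi.1
  have hgK : K.map φ = K := by
    by_contra hne
    have hcent := component_cent cx d.cp.syl σ.ne_bot d.cp.comp d.cp.le hTg hT1g hKg hKgL hne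
    set W' := wOf (K.map φ) with hW'
    have hW'T : W' ≤ T := (wOf_le_vOf cx hTg hT1g hKg hKgL).trans (vOf_le_core.trans (core_le_sylow d.cp.syl))
    set J := thompsonSubgroupOf 2 T with hJ
    have hJn : J ≤ Subgroup.normalizer (W' : Set G) :=
      ((thompson_sylow_le d.cp.syl).trans (J_normalizes_component cx hTg hT1g hKg hKgL)).trans
        (normalizer_le_normalizer_wOf _)
    set R := W' ⊔ J with hR
    have hRT : R ≤ T := sup_le hW'T (thompson_le_self T)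
    have hWR : W' ≤ R := le_sup_left
    have hnR : R ≤ Subgroup.normalizer (W' : Set G) := sup_le Subgroup.le_normalizer hJn
    haveI : (W'.subgroupOf R).Normal := (Subgroup.normal_subgroupOf_iff_le_normalizer hWR).2 hnR
    have hne' : W'.subgroupOf R ≠ ⊥ := fun e => wOf_ne_bot hKg (eq_bot_iff.2 fun w hw => by
      have h1 : (⟨w, hWR hw⟩ : ↥R) ∈ (⊥ : Subgroup ↥R) := e ▸ hw
      exact Subgroup.mem_bot.2 (congrArg Subtype.val (Subgroup.mem_bot.1 h1)))
    haveI : Fact (Nat.Prime 2) := ⟨Nat.prime_two⟩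
    obtain ⟨⟨w, hwR⟩, ⟨hw1, hw2⟩, hw3⟩ := (Subgroup.bot_or_exists_ne_one _).resolve_left
      (CfsgLib.PReduced.inf_center_ne_bot (σ.two.to_le hRT) hne')
    have hwW : w ∈ W' := hw1
    have hwc : ∀ j ∈ J, j * w = w * j := fun j hj =>
      congrArg Subtype.val (Subgroup.mem_center_iff.1 hw2 ⟨j, Subgroup.mem_sup_right hj⟩)
    have hwne : w ≠ 1 := fun e => hw3 (Subtype.ext e)
    have hwsq : w * w = 1 := hKg.2.2.2.2.2 w hwW
    have hwZ : w ∈ z0Of T := by
      obtain ⟨A, hA⟩ := exists_maxEl T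
      refine mem_omegaCenterOf.2 ⟨hA.le_thompson (hA.absorb (Y := Subgroup.zpowers w)
        (Subgroup.zpowers_le.2 (hW'T hwW)) (fun y hy => ?_) (fun y hy a ha => ?_)
        (fun y hy z hz => ?_) (Subgroup.mem_zpowers w)), hwc, hwsq⟩
      · obtain ⟨n, rfl⟩ := hy
        simp only []
        rw [← (Commute.refl w).mul_zpow, hwsq, one_zpow]
      · obtain ⟨n, rfl⟩ := hy
        exact (Commute.zpow_left (show Commute w a from (hwc a (hA.le_thompson ha)).symm) n).eq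
      · obtain ⟨n, rfl⟩ := hy
        obtain ⟨m, rfl⟩ := hz
        exact (Commute.zpow_zpow_self w n m).eq
    have hwh : w = h := d.h_unique σ h4 hwZ (fun y hy => (hcent w hwW y hy).symm) hwne
    obtain ⟨k, hk, hko, hkQ⟩ := exists_odd_notMem hKg
    refine hwne (fpf_wOf hKg hk hko hkQ hwW ?_)
    obtain ⟨k₀, hk₀, e⟩ := hk
    rw [hwh, ← e, show φ k₀ = g * k₀ * g⁻¹ by simp [hφ]]
    have h1 := conj_comm g (d.hK k₀ hk₀)
    rw [show g * h * g⁻¹ = h by rw [hg, mul_inv_cancel_right]] at h1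
    rw [h1, mul_inv_cancel_right]
  have hgW : g * u * g⁻¹ ∈ wOf K := conj_mem_wOf (fun y hy => by
    rw [← hgK]; exact ⟨y, hy, by simp [hφ]⟩) d.uW
  obtain ⟨k, hk, hko, hkQ⟩ := exists_odd_notMem d.cp.comp
  have hkW : ∀ w ∈ wOf K, k * w * k⁻¹ ∈ wOf K := fun w hw =>
    conj_mem_wOf (fun y hy => K.mul_mem (K.mul_mem hk hy) (K.inv_mem hk)) hw
  have hnfix : ∀ w ∈ wOf K, w ≠ 1 → k * w * k⁻¹ ≠ w ∧ k * w * k⁻¹ ≠ 1 := fun w hw hw1 =>
    ⟨fun e => hw1 (fpf_wOf d.cp.comp hk hko hkQ hw e), fun e => hw1 (by simpa using e)⟩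
  set v := k * u * k⁻¹ with hv
  obtain ⟨hvu, hv1⟩ := hnfix u d.uW d.u1
  obtain ⟨j, hj, hju⟩ : ∃ j ∈ K, j * u * j⁻¹ = g * u * g⁻¹ := by
    rcases four_cases d.cp.comp.2.2.2.2.1 (fun w hw => d.cp.comp.2.2.2.2.2 w hw) d.uW (hkW u d.uW) d.u1 hv1
      (Ne.symm hvu) hgW with e | e | e | e
    · exact absurd (by simpa using e) d.u1
    · exact ⟨1, K.one_mem, by rw [e]; simp⟩
    · exact ⟨k, hk, e.symm⟩
    · refine ⟨k * k, K.mul_mem hk hk, ?_⟩
      rw [e, show k * k * u * (k * k)⁻¹ = k * v * k⁻¹ by rw [hv]; group]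
      obtain ⟨h2a, h2b⟩ := hnfix v (hkW u d.uW) hv1
      rcases four_cases d.cp.comp.2.2.2.2.1 (fun w hw => d.cp.comp.2.2.2.2.2 w hw) d.uW (hkW u d.uW) d.u1 hv1
        (Ne.symm hvu) (hkW v (hkW u d.uW)) with e' | e' | e' | e'
      · exact absurd e' h2b
      · exfalso
        have hcube : (k * k * k) * u * (k * k * k)⁻¹ = u := by
          rw [← ((mem_omegaCenterOf.1 (wOf_le_omega K d.uW)).2.1 _ (K_cases d.cp.comp hk hkQ).1).symm,
            mul_inv_cancel_right]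
        refine hvu ?_
        calc v = k * u * k⁻¹ := hv
          _ = k * (k * v * k⁻¹) * k⁻¹ := by rw [e']
          _ = (k * k * k) * u * (k * k * k)⁻¹ := by rw [hv]; group
          _ = u := hcube
      · exact absurd e' h2a
      · exact e'
  refine ⟨j, Subgroup.mem_sup_left hj, j⁻¹ * g, ?_, by group⟩
  have hxu : j⁻¹ * g * u = u * (j⁻¹ * g) := by
    refine mul_inv_eq_iff_eq_mul.1 ?_
    rw [show j⁻¹ * g * u * (j⁻¹ * g)⁻¹ = j⁻¹ * (g * u * g⁻¹) * j by group, ← hju]; group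
  have hxh : Commute (j⁻¹ * g) h := (Commute.inv_left (show Commute j h from d.hK j hj)).mul_left hg
  intro z hz
  rcases d.four σ h4 hz with rfl | rfl | rfl | rfl
  · simp
  · exact hxu
  · exact hxh.eq
  · exact ((show Commute (j⁻¹ * g) u from hxu).mul_right hxh).eq

end Dat

namespace SylCtx

variable {T : Subgroup G} (σ : SylCtx T) (h4 : Nat.card ↥(z0Of T) = 4)
include σ h4

theorem exists_dat {K L : Subgroup G} (hc : Comp T K L) : ∃ u h, Dat T K L u h := by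
  obtain ⟨u, huZ, huW, hu1⟩ := σ.exists_u hc.comp
  obtain ⟨h2, hs⟩ := Cfsg.Agent.S2946.result σ.char2 σ.sol2 σ.zn T σ.two σ.ne_bot K hc.comp (z0Of T) rfl
  obtain ⟨h, hh, hh1⟩ := (Subgroup.bot_or_exists_ne_one (z0Of T ⊓ ((K ⊔ thompsonSubgroupOf 2 T) ⊓
      Subgroup.centralizer ((K : Set G) ⊔ (thompsonSubgroupOf 2 T : Set G))))).resolve_left fun e => by
    rw [e, bot_sup_eq] at hs
    rw [hs] at h2
    omega
  exact ⟨u, h, hc, huW, huZ, hu1, hh.1, hh1, fun y hy => Subgroup.mem_centralizer_iff.1 hh.2.2 y (Or.inl hy)⟩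

variable {KA LA KB LB : Subgroup G} {a b c' : G}

theorem chain_ne (dA : Dat T KA LA b a) (dB : Dat T KB LB c' b) (hca : c' ≠ a) (hcb : c' ≠ b) : LA ≠ LB := by
  intro e
  subst e
  have hK : KB ≠ KA := fun e => hcb (dA.u_unique σ dB.uZ (e ▸ dB.uW) dB.u1)
  have h := component_cent (σ.ctx dA.cp.maxi.1) dA.cp.syl σ.ne_bot dA.cp.comp dA.cp.le dB.cp.syl σ.ne_bot
    dB.cp.comp dB.cp.le hK c' dB.uW
  exact hca (dA.h_unique σ h4 dB.uZ (fun y hy => (h y hy).symm) dB.u1)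

/-- In a chain some conjugate of `W_B` by an element fixing `u_B` does not commute with `W_B`. -/
theorem chain_far (dA : Dat T KA LA b a) (dB : Dat T KB LB c' b) (hca : c' ≠ a) (hcb : c' ≠ b) :
    ∃ g, g * c' = c' * g ∧ ∃ x ∈ wOf KB, ∃ y ∈ wOf KB, x * (g * y * g⁻¹) ≠ g * y * g⁻¹ * x := by
  have hp := SylCtx.pair2 σ.two dA.cp dB.cp (σ.chain_ne h4 dA dB hca hcb) dA.uW dA.u1
    (fun t ht => σ.z_comm dA.uZ ht) dB.uW dB.u1 (fun t ht => σ.z_comm dB.uZ ht)
  obtain ⟨s, f, g, x, hx, y, hy, hne, hval, hs, hf⟩ := hp.far (hp.comm_of_ne fun e => hcb e.symm)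
  have hnA : ¬ ∀ z ∈ KA ⊔ T, z * c' = c' * z := fun h =>
    hca (dA.h_unique σ h4 dB.uZ (fun z hz => h z (Subgroup.mem_sup_left hz)) dB.u1)
  cases s
  · exact absurd hs hnA
  cases f
  · exact absurd hf hnA
  refine ⟨g, ?_, x, hx, y, hy, hne⟩
  change c' = g * c' * g⁻¹ at hval
  exact mul_inv_eq_iff_eq_mul.1 hval.symm

/-- There is no cycle of three components. -/
theorem no_cycle {KC LC : Subgroup G} (dA : Dat T KA LA b a) (dB : Dat T KB LB c' b) (dC : Dat T KC LC a c') :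
    False := by
  have hca : c' ≠ a := fun e => dC.u_ne_h σ e.symm
  have hcb : c' ≠ b := dB.u_ne_h σ
  have hba : b ≠ a := dA.u_ne_h σ
  obtain ⟨g, hg, x, hx, y, hy, hne⟩ := σ.chain_far h4 dA dB hca hcb
  obtain ⟨k, hk, z, hz, rfl⟩ := dC.cent_decomp σ h4 hg
  have hzn := dB.fix_norm σ hz
  have hy' : z * y * z⁻¹ ∈ wOf KB :=
    conj_mem_wOf (fun w hw => (Subgroup.mem_normalizer_iff.1 hzn w).1 hw) hy
  have hp := SylCtx.pair2 σ.two dB.cp dC.cp (σ.chain_ne h4 dB dC (Ne.symm hba) (Ne.symm hca)) dB.uW dB.u1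
    (fun t ht => σ.z_comm dB.uZ ht) dC.uW dC.u1 (fun t ht => σ.z_comm dC.uZ ht)
  have hBa := hp.dist_two (s := false) hca (p := k) hk hx hy' (by
    rw [show k * (z * y * z⁻¹) * k⁻¹ = k * z * y * (k * z)⁻¹ by group]
    exact hne)
  exact hba (dB.h_unique σ h4 dA.hZ (fun w hw => hBa w (Subgroup.mem_sup_left hw)) dA.h1).symm

/-- `N(T)` fixes `Ω₁(Z(J(T)))`. -/
theorem fix_z {K L : Subgroup G} {u h : G} (d : Dat T K L u h) {g : G}
    (hg : g ∈ Subgroup.normalizer (T : Set G)) : ∀ z ∈ z0Of T, g * z * g⁻¹ = z := by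
  by_contra hcon
  have hinj : ∀ {y z : G}, g * y * g⁻¹ = g * z * g⁻¹ → y = z := fun e => mul_left_cancel (mul_right_cancel e)
  have hne1 : ∀ {z : G}, z ≠ 1 → g * z * g⁻¹ ≠ 1 := fun hz e => hz (by simpa using e)
  have hgZ : ∀ {z : G}, z ∈ z0Of T → g * z * g⁻¹ ∈ z0Of T := fun hz => SylCtx.conj_z hg hz
  have hall : g * u * g⁻¹ = u → g * h * g⁻¹ = h → False := fun e1 e2 => hcon fun z hz => by
    rcases d.four σ h4 hz with rfl | rfl | rfl | rfl
    · simp
    · exact e1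
    · exact e2
    · rw [show g * (u * h) * g⁻¹ = (g * u * g⁻¹) * (g * h * g⁻¹) by group, e1, e2]
  have hgu : g * u * g⁻¹ ≠ u := by
    intro e1
    refine hall e1 (σ.odd_move hg d.hZ ?_)
    rcases d.four σ h4 (hgZ d.hZ) with e | e | e | e
    · exact absurd e (hne1 d.h1)
    · exact absurd (hinj (e.trans e1.symm)).symm (d.u_ne_h σ)
    · rw [e, e]
    · rw [e, show g * (u * h) * g⁻¹ = (g * u * g⁻¹) * (g * h * g⁻¹) by group, e1, e,
        ← mul_assoc, (mem_omegaCenterOf.1 d.uZ).2.2, one_mul]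
  -- an element with `u ↦ h ↦ uh ↦ u`
  obtain ⟨g', hg', e1, e2⟩ : ∃ g' ∈ Subgroup.normalizer (T : Set G),
      g' * u * g'⁻¹ = h ∧ g' * h * g'⁻¹ = u * h := by
    rcases d.four σ h4 (hgZ d.uZ) with e | e | e | e
    · exact absurd e (hne1 d.u1)
    · exact absurd e hgu
    · refine ⟨g, hg, e, ?_⟩
      rcases d.four σ h4 (hgZ d.hZ) with e' | e' | e' | e'
      · exact absurd e' (hne1 d.h1)
      · exact absurd (σ.odd_move hg d.uZ (by rw [e, e'])) hgu
      · exact absurd (hinj (e.trans e'.symm)) (d.u_ne_h σ)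
      · exact e'
    · have e' : g * h * g⁻¹ = u := by
        rcases d.four σ h4 (hgZ d.hZ) with e' | e' | e' | e'
        · exact absurd e' (hne1 d.h1)
        · exact e'
        · refine absurd (σ.odd_move hg d.uZ ?_) hgu
          rw [e, show g * (u * h) * g⁻¹ = (g * u * g⁻¹) * (g * h * g⁻¹) by group, e, e', mul_assoc,
            (mem_omegaCenterOf.1 d.hZ).2.2, mul_one]
        · exact absurd (hinj (e.trans e'.symm)) (d.u_ne_h σ)
      refine ⟨g * g, Subgroup.mul_mem _ hg hg, ?_, ?_⟩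
      · rw [show g * g * u * (g * g)⁻¹ = g * (g * u * g⁻¹) * g⁻¹ by group, e,
          show g * (u * h) * g⁻¹ = (g * u * g⁻¹) * (g * h * g⁻¹) by group, e, e', mul_assoc,
          ← σ.z_comm d.hZ (σ.z_mem d.uZ), ← mul_assoc, (mem_omegaCenterOf.1 d.uZ).2.2, one_mul]
      · rw [show g * g * h * (g * g)⁻¹ = g * (g * h * g⁻¹) * g⁻¹ by group, e', e]
  have e3 : g' * (u * h) * g'⁻¹ = u := by
    rw [show g' * (u * h) * g'⁻¹ = (g' * u * g'⁻¹) * (g' * h * g'⁻¹) by group, e1, e2,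
      σ.z_comm d.hZ (σ.z_mem d.uZ), ← mul_assoc, (mem_omegaCenterOf.1 d.hZ).2.2, one_mul]
  have dA := d.conj σ hg'
  have dC := dA.conj σ hg'
  rw [e1, e2] at dC dA
  rw [e3] at dC
  exact σ.no_cycle h4 dA d dC

/-- Two components with a common fixed point. -/
theorem exists_pair {K L : Subgroup G} (hc : Comp T K L) {L₂ : Subgroup G} (hL₂ : IsMaximalTwoLocal L₂)
    (hTL₂ : T ≤ L₂) (hL₂L : L₂ ≠ L)
    (hNJ : ∀ {K L : Subgroup G}, Comp T K L → (∀ g ∈ Subgroup.normalizer (T : Set G), g ∈ L) →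
      Subgroup.normalizer (thompsonSubgroupOf 2 T : Set G) ≤ L) :
    ∃ K L K' L' u, Comp T K L ∧ Comp T K' L' ∧ L ≠ L' ∧ u ∈ wOf K ∧ u ∈ wOf K' ∧ u ≠ 1 ∧
      ∀ t ∈ T, t * u = u * t := by
  by_contra hno
  push Not at hno
  have hnoeq : ∀ {K L K' L' : Subgroup G} {u h h' : G}, Dat T K L u h → Dat T K' L' u h' → h = h' := by
    intro K L K' L' u h h' d d'
    by_contra hh
    obtain ⟨t, ht, htu⟩ := hno K L K' L' u d.cp d'.cp (fun e => hh (by
      subst e
      have e' := d.same_u σ d'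
      subst e'
      exact (d.h_unique σ h4 d'.hZ d'.hK d'.h1).symm)) d.uW d'.uW d.u1
    exact htu (σ.z_comm d.uZ ht)
  obtain ⟨u₀, h₀, d₀⟩ := σ.exists_dat h4 hc
  -- components outside a given maximal subgroup
  have hout : ∀ {K L : Subgroup G} {u h : G}, Dat T K L u h → ∀ N : Subgroup G, IsTwoLocal N → T ≤ N →
      ¬ N ≤ L → ∃ K' L' u' h', Dat T K' L' u' h' ∧ K' ≤ N ∧ L' ≠ L := by
    intro K L u h d N hN hTN hNL
    have hfix : ∀ g ∈ Subgroup.normalizer (T : Set G), g ∈ L := by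
      intro g hg
      have d' := d.conj σ hg
      rw [σ.fix_z h4 d hg u d.uZ, σ.fix_z h4 d hg h d.hZ] at d'
      exact normalizer_maximalTwoLocal d.cp.maxi (Subgroup.mem_normalizer_iff_map_conj_eq.2 (d.same_h σ d'))
    obtain ⟨P, hP⟩ := σ.isSylow
    have c : StraddleCtx P L T := ⟨σ.char2, σ.sol2, σ.zn, by rw [hP]; exact hNJ d.cp hfix,
      σ.maxStraddling d.cp.syl.1 hN hTN hNL⟩
    obtain ⟨K', L', hc', hK'N, hK'L⟩ := σ.comp_of_straddle c hN hTN hNL
    obtain ⟨u', h', d'⟩ := σ.exists_dat h4 hc'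
    exact ⟨K', L', u', h', d', hK'N, fun e => hK'L (e ▸ d'.cp.le)⟩
  obtain ⟨K₁, L₁, u₁, h₁, d₁, -, hL₁⟩ := hout d₀ L₂ hL₂.1 hTL₂ fun hle =>
    hL₂L (hL₂.2 L d₀.cp.maxi.1 hle).symm
  have hh : h₁ ≠ h₀ := fun e => hL₁ (d₀.same_h σ (e ▸ d₁))
  have huu : u₁ ≠ u₀ := fun e => hh (hnoeq (e ▸ d₁) d₀)
  -- a chain is impossible
  have hchain : ∀ {KA LA KB LB : Subgroup G} {a b c' : G}, Dat T KA LA b a → Dat T KB LB c' b →
      c' ≠ a → False := by
    intro KA LA KB LB a b c' dA dB hca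
    have hcb : c' ≠ b := dB.u_ne_h σ
    obtain ⟨g, hg, x, hx, y, hy, hne⟩ := σ.chain_far h4 dA dB hca hcb
    have hnle : ¬ Subgroup.centralizer ({c'} : Set G) ≤ LB := by
      intro hle
      refine hne ((dB.cp.comp |> fun hK => ?_))
      have hgL : g ∈ LB := hle (Subgroup.mem_centralizer_singleton_iff.2 hg)
      set φ := (MulAut.conj g).toMonoidHom with hφ
      have hLg : LB.map φ = LB := Subgroup.mem_normalizer_iff_map_conj_eq.1 (Subgroup.le_normalizer hgL)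
      have hTg : IsSylowTwoIn (T.map φ) LB := by
        have h' := isSylowTwoIn_map (MulAut.conj g) dB.cp.syl
        rwa [hLg] at h'
      have e := component_unique (σ.ctx dB.cp.maxi.1) dB.cp.syl σ.ne_bot hK dB.cp.le hTg
        (fun e => σ.ne_bot ((Subgroup.map_eq_bot_iff_of_injective _ (MulAut.conj g).injective).1 e))
        (IsJComponent.map (MulAut.conj g) hK) (hLg ▸ Subgroup.map_mono dB.cp.le) fun h0 => ?_
      · have hy' : g * y * g⁻¹ ∈ wOf KB := by
          rw [← e, wOf_map]; exact ⟨y, hy, by simp⟩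
        exact ((dB.cp.comp.2.2.2.2.2 _ ((wOf KB).mul_mem hx hy')) |> fun hsq => by
          have i1 : x⁻¹ = x := inv_eq_of_mul_eq_one_left (hK.2.2.2.2.2 x hx)
          have i2 : (g * y * g⁻¹)⁻¹ = g * y * g⁻¹ := inv_eq_of_mul_eq_one_left (hK.2.2.2.2.2 _ hy')
          calc x * (g * y * g⁻¹) = (x * (g * y * g⁻¹))⁻¹ := (inv_eq_of_mul_eq_one_left hsq).symm
            _ = g * y * g⁻¹ * x := by rw [mul_inv_rev, i1, i2])
      · rw [wOf_map] at h0
        have hm : c' ∈ wOf KB ⊓ (wOf KB).map φ :=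
          ⟨dB.uW, c', dB.uW, by simp [hφ, hg]⟩
        rw [h0, Subgroup.mem_bot] at hm
        exact dB.u1 hm
    obtain ⟨K₃, L₃, u₃, h₃, d₃, hK₃, -⟩ := hout dB _
      (isTwoLocal_centralizer (mem_omegaCenterOf.1 dB.uZ).2.2 dB.u1)
      (fun t ht => Subgroup.mem_centralizer_singleton_iff.2 (σ.z_comm dB.uZ ht)) hnle
    have e₃ : c' = h₃ := d₃.h_unique σ h4 dB.uZ
      (fun y hy => Subgroup.mem_centralizer_singleton_iff.1 (hK₃ hy)) dB.u1
    subst e₃
    have hu3 : u₃ ≠ c' := d₃.u_ne_h σ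
    rcases dA.four σ h4 d₃.uZ with e | e | e | e
    · exact d₃.u1 e
    · subst e; exact hca (hnoeq d₃ dA)
    · subst e; exact σ.no_cycle h4 dA dB d₃
    · rcases dA.four σ h4 dB.uZ with e' | e' | e' | e'
      · exact dB.u1 e'
      · exact hcb e'
      · exact hca e'
      · exact hu3 (e.trans e'.symm)
  rcases d₀.four σ h4 d₁.uZ with e | e | e | e
  · exact d₁.u1 e
  · exact huu e
  · subst e
    rcases d₀.four σ h4 d₁.hZ with e' | e' | e' | e'
    · exact d₁.h1 e'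
    · -- the double case
      subst e'
      have hp := SylCtx.pair2 σ.two d₀.cp d₁.cp (Ne.symm hL₁) d₀.uW d₀.u1
        (fun t ht => σ.z_comm d₀.uZ ht) d₁.uW d₁.u1 (fun t ht => σ.z_comm d₁.uZ ht)
      obtain ⟨s, f, g, x, hx, y, hy, hne, hval, -, -⟩ := hp.far (hp.comm_of_ne (d₀.u_ne_h σ))
      have hcu : ∀ i, ∀ z ∈ (cond i K₁ K) ⊔ T, z * (cond (!i) u₁ h₁) = (cond (!i) u₁ h₁) * z := by
        intro i z hz
        refine Subgroup.mem_centralizer_singleton_iff.1 (show z ∈ Subgroup.centralizer ({cond (!i) u₁ h₁} : Set G) from ?_)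
        refine (sup_le (fun w hw => Subgroup.mem_centralizer_singleton_iff.2 ?_)
          (fun w hw => Subgroup.mem_centralizer_singleton_iff.2 ?_) : (cond i K₁ K) ⊔ T ≤ _) hz
        · cases i
          exacts [d₀.hK w hw, d₁.hK w hw]
        · cases i
          exacts [σ.z_comm d₁.uZ hw, σ.z_comm d₁.hZ hw]
      have hsf : s = f := by
        by_contra hsf
        set us := cond s u₁ h₁ with hus
        set uf := cond f u₁ h₁ with huf
        have hval' : us = g * uf * g⁻¹ := hval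
        have husZ : us ∈ z0Of T := by cases s; exacts [d₁.hZ, d₁.uZ]
        have hufZ : uf ∈ z0Of T := by cases f; exacts [d₁.hZ, d₁.uZ]
        set H := Subgroup.centralizer ({us} : Set G) with hH
        have hTH : T ≤ H := fun t ht => Subgroup.mem_centralizer_singleton_iff.2 (σ.z_comm husZ ht)
        have hTgH : T.map (MulAut.conj g).toMonoidHom ≤ H := by
          rintro _ ⟨t, ht, rfl⟩
          refine Subgroup.mem_centralizer_singleton_iff.2 ?_
          rw [hval']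
          simpa using conj_comm g (σ.z_comm hufZ ht)
        obtain ⟨l, hl, hmem⟩ := sylow_conj (σ.sylowIn hTH) (σ.two.map _) hTgH
        have hlg : l * g ∈ Subgroup.normalizer (T : Set G) :=
          Subgroup.mem_normalizer_fintype fun t ht => by
            have := hmem (g * t * g⁻¹) ⟨t, ht, by simp⟩
            show l * g * t * (l * g)⁻¹ ∈ T
            rwa [show l * g * t * (l * g)⁻¹ = l * (g * t * g⁻¹) * l⁻¹ by group]
        have e1 : l * g * uf * (l * g)⁻¹ = us := by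
          rw [show l * g * uf * (l * g)⁻¹ = l * (g * uf * g⁻¹) * l⁻¹ by group, ← hval',
            Subgroup.mem_centralizer_singleton_iff.1 hl, mul_inv_cancel_right]
        rw [σ.fix_z h4 d₀ hlg uf hufZ] at e1
        cases s <;> cases f
        · exact hsf rfl
        · exact d₀.u_ne_h σ e1.symm
        · exact d₀.u_ne_h σ e1
        · exact hsf rfl
      subst hsf
      have hg : g * cond s u₁ h₁ = cond s u₁ h₁ * g := mul_inv_eq_iff_eq_mul.1 hval.symm
      obtain ⟨k, hk, z, hz, rfl, hzn⟩ : ∃ k, k ∈ cond (!s) K₁ K ⊔ T ∧ ∃ z, (∀ w ∈ z0Of T, z * w = w * z) ∧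
          g = k * z ∧ z ∈ Subgroup.normalizer ((cond s K₁ K : Subgroup G) : Set G) := by
        cases s
        · obtain ⟨k, hk, z, hz, e⟩ := d₁.cent_decomp σ h4 hg
          exact ⟨k, hk, z, hz, e, d₀.fix_norm σ hz⟩
        · obtain ⟨k, hk, z, hz, e⟩ := d₀.cent_decomp σ h4 hg
          exact ⟨k, hk, z, hz, e, d₁.fix_norm σ hz⟩
      have hy' : z * y * z⁻¹ ∈ wOf (cond s K₁ K) :=
        conj_mem_wOf (fun w hw => (Subgroup.mem_normalizer_iff.1 hzn w).1 hw) hy
      refine hp.double_false (d₀.u_ne_h σ) hcu hk hx hy' ?_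
      rw [show k * (z * y * z⁻¹) * k⁻¹ = k * z * y * (k * z)⁻¹ by group]
      exact hne
    · exact hh e'
    · refine hchain d₁ d₀ (fun e'' => d₀.h1 ?_)
      -- `u₀ ≠ u₀ h₀`
      rw [e'] at e''
      exact mul_left_cancel (a := u₀) ((e''.symm).trans (mul_one _).symm)
  · -- `u₁ = u₀ h₀`
    rcases d₀.four σ h4 d₁.hZ with e' | e' | e' | e'
    · exact d₁.h1 e'
    · subst e'
      refine hchain d₀ d₁ fun e'' => ?_
      rw [e] at e''
      exact d₀.u1 (mul_right_cancel (b := h₀) (by rw [one_mul]; exact e''))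
    · exact hh e'
    · exact d₁.u_ne_h σ (e.trans e'.symm)

end SylCtx

end CfsgLib.JComp
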