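import Cfsg.Agent.JComp.Basic
import Cfsg.Agent.PCore.Basic

/-!
Invariance of the J(T)-component notions under automorphisms of the ambient group.
-/

set_option autoImplicit false
open scoped commutatorElement
open Cfsg

namespace CfsgLib.JComp

variable {G H : Type*} [Group G] [Finite G] [Group H] [Finite H]

omit [Finite H] in
theorem el_map (φ : G →* H) {A : Subgroup G} (hA : IsElementaryAbelian 2 A) :
    IsElementaryAbelian 2 (A.map φ) := by
  refine ⟨⟨⟨?_⟩⟩, ?_⟩
  · rintro ⟨_, p, hp, rfl⟩ ⟨_, q, hq, rfl⟩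
    refine Subtype.ext ?_
    show φ p * φ q = φ q * φ p
    rw [← map_mul, (el_comm hA hp hq).eq, map_mul]
  · rintro _ ⟨p, hp, rfl⟩
    rw [← map_pow, hA.2 p hp, map_one]

theorem map_map_symm (φ : G ≃* H) (B : Subgroup H) :
    (B.map φ.symm.toMonoidHom).map φ.toMonoidHom = B := by
  rw [Subgroup.map_map]
  convert Subgroup.map_id B
  ext x; simp

theorem map_symm_map (φ : G ≃* H) (B : Subgroup G) :
    (B.map φ.toMonoidHom).map φ.symm.toMonoidHom = B := by
  rw [Subgroup.map_map]
  convert Subgroup.map_id B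
  ext x; simp

theorem IsMaxEl.map (φ : G ≃* H) {S A : Subgroup G} (h : IsMaxEl S A) :
    IsMaxEl (S.map φ.toMonoidHom) (A.map φ.toMonoidHom) := by
  refine ⟨Subgroup.map_mono h.le, el_map _ h.el, fun B hB hBe => ?_⟩
  rw [Subgroup.card_map_of_injective φ.injective]
  have hB' : B.map φ.symm.toMonoidHom ≤ S := by
    rw [← map_symm_map φ S]; exact Subgroup.map_mono hB
  have := h.max _ hB' (el_map _ hBe)
  rwa [Subgroup.card_map_of_injective φ.symm.injective] at this

theorem thompson_map (φ : G ≃* H) (S : Subgroup G) :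
    thompsonSubgroupOf 2 (S.map φ.toMonoidHom) = (thompsonSubgroupOf 2 S).map φ.toMonoidHom := by
  refine le_antisymm (thompson_le fun A hA => ?_) ?_
  · have h := hA.map φ.symm
    rw [map_symm_map] at h
    rw [← map_map_symm φ A]
    exact Subgroup.map_mono h.le_thompson
  · rw [Subgroup.map_le_iff_le_comap]
    refine thompson_le fun A hA => ?_
    rw [← Subgroup.map_le_iff_le_comap]
    exact (hA.map φ).le_thompson

omit [Finite G] [Finite H] in
theorem pCoreOf_map (φ : G ≃* H) (K : Subgroup G) :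
    pCoreOf 2 (K.map φ.toMonoidHom) = (pCoreOf 2 K).map φ.toMonoidHom := by
  rw [pCoreOf, pCoreOf, ← CfsgLib.PCore.map_pCore_equiv (K.equivMapOfInjective φ.toMonoidHom φ.injective),
    Subgroup.map_map, Subgroup.map_map]
  rfl

theorem omegaCenterOf_map (φ : G ≃* H) (X : Subgroup G) :
    omegaCenterOf (X.map φ.toMonoidHom) = (omegaCenterOf X).map φ.toMonoidHom := by
  ext x
  obtain ⟨y, rfl⟩ := φ.surjective x
  rw [show (φ y) = φ.toMonoidHom y from rfl, Subgroup.mem_map_iff_mem (f := φ.toMonoidHom) φ.injective,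
    mem_omegaCenterOf, mem_omegaCenterOf, Subgroup.mem_map_iff_mem (f := φ.toMonoidHom) φ.injective]
  constructor
  · rintro ⟨h1, h2, h3⟩
    refine ⟨h1, fun z hz => φ.injective ?_, φ.injective ?_⟩
    · simpa using h2 (φ z) ⟨z, hz, rfl⟩
    · simpa using h3
  · rintro ⟨h1, h2, h3⟩
    refine ⟨h1, ?_, ?_⟩
    · rintro _ ⟨z, hz, rfl⟩
      rw [← map_mul, ← map_mul, h2 z hz]
    · rw [← map_mul, h3, map_one]

theorem wOf_map (φ : G ≃* H) (K : Subgroup G) : wOf (K.map φ.toMonoidHom) = (wOf K).map φ.toMonoidHom := by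
  rw [wOf, wOf, pCoreOf_map, omegaCenterOf_map, Subgroup.map_commutator]

omit [Finite G] [Finite H] in
theorem isSylowTwoIn_map (φ : G ≃* H) {S K : Subgroup G} (h : IsSylowTwoIn S K) :
    IsSylowTwoIn (S.map φ.toMonoidHom) (K.map φ.toMonoidHom) := by
  refine ⟨Subgroup.map_mono h.1, h.2.1.map _, ?_⟩
  rw [Subgroup.relIndex_map_map_of_injective _ _ (f := φ.toMonoidHom) φ.injective]
  exact h.2.2

theorem IsJComponent.map (φ : G ≃* H) {T K : Subgroup G} (h : IsJComponent T K) :
    IsJComponent (T.map φ.toMonoidHom) (K.map φ.toMonoidHom) := by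
  obtain ⟨h1, h2, h3, h4, h5, h6⟩ := h
  refine ⟨?_, ?_, ?_, ?_, ?_, ?_⟩
  · conv_rhs => rw [← h1, MonoidHom.map_closure]
    congr 1
    ext x
    simp only [Set.mem_image, Set.mem_ofPred_eq]
    constructor
    · rintro ⟨⟨y, hy, rfl⟩, ho⟩
      exact ⟨y, ⟨hy, by rwa [show φ.toMonoidHom y = φ y from rfl, MulEquiv.orderOf_eq] at ho⟩, rfl⟩
    · rintro ⟨y, ⟨hy, ho⟩, rfl⟩
      exact ⟨⟨y, hy, rfl⟩, by rwa [show φ.toMonoidHom y = φ y from rfl, MulEquiv.orderOf_eq]⟩
  · rw [thompson_map, ← Subgroup.map_commutator, h2]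
  · rw [pCoreOf_map, Subgroup.relIndex_map_map_of_injective _ _ (f := φ.toMonoidHom) φ.injective, h3]
  · intro S hS hJS
    rw [thompson_map] at hJS ⊢
    rw [thompson_map, ← Subgroup.map_sup] at hS
    have hS' := isSylowTwoIn_map φ.symm hS
    rw [map_symm_map] at hS'
    have hJ' : thompsonSubgroupOf 2 T ≤ S.map φ.symm.toMonoidHom := by
      rw [← map_symm_map φ (thompsonSubgroupOf 2 T)]
      exact Subgroup.map_mono hJS
    have h7 := h4 _ hS' hJ'
    rw [thompson_map] at h7
    rw [← h7, map_map_symm]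
  · rw [wOf_map, Subgroup.card_map_of_injective φ.injective]; exact h5
  · rw [wOf_map]
    rintro _ ⟨w, hw, rfl⟩
    rw [← map_mul, h6 w hw, map_one]

omit [Finite G] in
theorem IsJComponent.of_J_eq {T T' K : Subgroup G} (h : thompsonSubgroupOf 2 T' = thompsonSubgroupOf 2 T)
    (hK : IsJComponent T K) : IsJComponent T' K := by
  simpa only [IsJComponent, h] using hK

end CfsgLib.JComp
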