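import Cfsg.Agent.JComp.Straddle

/-!
Uniqueness of the maximal 2-local subgroup over an outside component.
-/

set_option autoImplicit false
open Cfsg

namespace CfsgLib.JComp

variable {G : Type*} [Group G] [Finite G] {M T K : Subgroup G}

omit [Finite G] in
theorem isPGroup_wOf (hK : IsJComponent T K) : IsPGroup 2 ↥(wOf K) := fun w => ⟨1, Subtype.ext (by
  rw [SubmonoidClass.coe_pow, pow_one, pow_two]; exact hK.2.2.2.2.2 w w.2)⟩

omit [Finite G] in
theorem wOf_ne_bot (hK : IsJComponent T K) : wOf K ≠ ⊥ := fun h => by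
  have := hK.2.2.2.2.1
  rw [h, Subgroup.card_bot] at this
  omega

theorem normalizer_le_normalizer_wOf (K : Subgroup G) :
    Subgroup.normalizer (K : Set G) ≤ Subgroup.normalizer (wOf K : Set G) := fun g hg =>
  Subgroup.mem_normalizer_fintype fun x hx =>
    conj_mem_wOf (fun y hy => (Subgroup.mem_normalizer_iff.1 hg y).1 hy) hx

theorem exists_maximalTwoLocal {N : Subgroup G} (hN : IsTwoLocal N) :
    ∃ L : Subgroup G, IsMaximalTwoLocal L ∧ N ≤ L := by
  obtain ⟨L, hL, hmax⟩ := Set.exists_max_image {L : Subgroup G | IsTwoLocal L ∧ N ≤ L}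
    (fun L => Nat.card ↥L) (Set.toFinite _) ⟨N, hN, le_rfl⟩
  exact ⟨L, ⟨hL.1, fun L' hL' hle =>
    (Subgroup.eq_of_le_of_card_ge hle (hmax L' ⟨hL', hL.2.trans hle⟩)).symm⟩, hL.2⟩

/-- Thompson subgroups of two overgroups with the same `J` of Sylow subgroups. -/
theorem thompson_overgroup_le {L₁ L₂ T₁ T₂ : Subgroup G} (h₁ : IsSylowTwoIn T₁ L₁) (h₂ : IsSylowTwoIn T₂ L₂)
    (hJ : thompsonSubgroupOf 2 T₁ = thompsonSubgroupOf 2 T₂) (hle : thompsonSubgroupOf 2 L₁ ≤ L₂) :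
    thompsonSubgroupOf 2 L₁ ≤ thompsonSubgroupOf 2 L₂ := by
  refine thompson_le fun A hA => IsMaxEl.le_thompson ⟨hA.le_thompson.trans hle, hA.el, fun B hB hBe => ?_⟩
  obtain ⟨A₀, hA₀⟩ := exists_maxEl T₂
  have h3 := maxEl_conj h₁ (hA₀.of_thompson_eq hJ)
  exact ((maxEl_conj h₂ hA₀).max B hB hBe).trans (hA.max A₀ h3.le h3.el)

/-- The 2-core of `J(N(W_K))`. -/
abbrev dOf (K : Subgroup G) : Subgroup G :=
  pCoreOf 2 (thompsonSubgroupOf 2 (Subgroup.normalizer (wOf K : Set G)))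

/-- The only maximal 2-local over an outside component. -/
theorem maximal_overgroup (hL : IsCharacteristicTwoType G) (hN : ∀ N : Subgroup G, IsTwoLocal N → Group.IsSolvable ↥N)
    (hZ : ∀ S : Sylow 2 G, Subgroup.centralizer (omegaCenterOf (S : Subgroup G) : Set G) ≤
      Subgroup.normalizer ((S : Subgroup G) : Set G)) (S : Sylow 2 G)
    (hMJ : Subgroup.normalizer (thompsonSubgroupOf 2 (S : Subgroup G) : Set G) ≤ M)
    (hT : T ∈ maxStraddlingTwoSubgroups M) (hK : IsJComponent T K) (hKM : ¬ K ≤ M)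
    {L : Subgroup G} (hLmax : IsMaximalTwoLocal L) (hKL : K ⊔ thompsonSubgroupOf 2 T ≤ L) :
    L = Subgroup.normalizer (dOf K : Set G) ∧ Subgroup.normalizer (wOf K : Set G) ≤ L ∧
      thompsonSubgroupOf 2 L = thompsonSubgroupOf 2 (Subgroup.normalizer (wOf K : Set G)) := by
  obtain ⟨hKL', hJL⟩ := sup_le_iff.1 hKL
  have hL2 : IsTwoLocal L := hLmax.1
  have hTp : IsPGroup 2 ↥T := hT.1.1
  obtain ⟨T₁, hJT₁, hT₁⟩ := exists_sylowTwoIn (isPGroup_thompson hTp) hJL
  have hJeq₁ := (straddle_main hL hN hZ S hMJ hT hL2 (fun h => hKM (hKL'.trans h)) hT₁ hJT₁).1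
  have hK₁ : IsJComponent T₁ K := IsJComponent.of_J_eq hJeq₁.symm hK
  have cx := isTwoLocal_ctx hL hN hZ hL2
  have hJ1 := thompson_ne_bot hK
  have hT₁1 : T₁ ≠ ⊥ := fun h => hJ1 (eq_bot_iff.2 (h ▸ hJT₁))
  set N := Subgroup.normalizer (wOf K : Set G) with hNdef
  have hN2 : IsTwoLocal N := ⟨_, isPGroup_wOf hK, wOf_ne_bot hK, rfl⟩
  have hKN : K ≤ N := Subgroup.le_normalizer.trans (normalizer_le_normalizer_wOf K)
  have hJN : thompsonSubgroupOf 2 T ≤ N := (J_normalizes hK).trans (normalizer_le_normalizer_wOf K)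
  obtain ⟨T₂, hJT₂, hT₂⟩ := exists_sylowTwoIn (isPGroup_thompson hTp) hJN
  have hJeq₂ := (straddle_main hL hN hZ S hMJ hT hN2 (fun h => hKM (hKN.trans h)) hT₂ hJT₂).1
  have cxN := isTwoLocal_ctx hL hN hZ hN2
  have hT₂1 : T₂ ≠ ⊥ := fun h => hJ1 (eq_bot_iff.2 (h ▸ hJT₂))
  have hJLN : thompsonSubgroupOf 2 L ≤ N :=
    (J_normalizes_component cx hT₁ hT₁1 hK₁ hKL').trans (normalizer_le_normalizer_wOf K)
  -- the closure of the conjugates of W under L
  set U := Subgroup.closure {x : G | ∃ g ∈ L, ∃ w ∈ wOf K, g * w * g⁻¹ = x} with hU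
  have hUV : U ≤ vOf L := by
    rw [hU, Subgroup.closure_le]
    rintro _ ⟨g, hg, w, hw, rfl⟩
    exact conj_mem_vOf hg (wOf_le_vOf cx hT₁ hT₁1 hK₁ hKL' hw)
  have hUp : IsPGroup 2 ↥U := (isPGroup_pCoreOf L).to_le (hUV.trans vOf_le_core)
  have hU1 : U ≠ ⊥ := fun h => wOf_ne_bot hK (eq_bot_iff.2 fun w hw => by
    rw [← h]; exact Subgroup.subset_closure ⟨1, L.one_mem, w, hw, by simp⟩)
  have hLU : L ≤ Subgroup.normalizer (U : Set G) := by
    intro x hx
    refine Subgroup.mem_normalizer_fintype fun u hu => ?_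
    have hle : U ≤ U.comap (MulAut.conj x).toMonoidHom := by
      conv_lhs => rw [hU]
      rw [Subgroup.closure_le]
      rintro _ ⟨g, hg, w, hw, rfl⟩
      exact Subgroup.subset_closure ⟨x * g, L.mul_mem hx hg, w, hw, by simp [mul_assoc]⟩
    exact hle hu
  have hLeqU : Subgroup.normalizer (U : Set G) = L := hLmax.2 _ ⟨U, hUp, hU1, rfl⟩ hLU
  have hJNL : thompsonSubgroupOf 2 N ≤ L := by
    rw [← hLeqU]
    intro x hx
    refine Subgroup.mem_normalizer_fintype fun u hu => ?_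
    have hle : U ≤ U.comap (MulAut.conj x).toMonoidHom := by
      conv_lhs => rw [hU]
      rw [Subgroup.closure_le]
      rintro _ ⟨g, hg, w, hw, rfl⟩
      have hTg : IsSylowTwoIn (T₁.map (MulAut.conj g).toMonoidHom) L := by
        have h := isSylowTwoIn_map (MulAut.conj g) hT₁
        rwa [show L.map (MulAut.conj g).toMonoidHom = L from
          Subgroup.mem_normalizer_iff_map_conj_eq.1 (Subgroup.le_normalizer hg)] at h
      have hKg : IsJComponent (T₁.map (MulAut.conj g).toMonoidHom) (K.map (MulAut.conj g).toMonoidHom) :=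
        IsJComponent.map (MulAut.conj g) hK₁
      have hKgL : K.map (MulAut.conj g).toMonoidHom ≤ L := by
        rintro _ ⟨y, hy, rfl⟩
        exact L.mul_mem (L.mul_mem hg (hKL' hy)) (L.inv_mem hg)
      have hJgN : thompsonSubgroupOf 2 (T₁.map (MulAut.conj g).toMonoidHom) ≤ N :=
        (thompson_sylow_le hTg).trans hJLN
      have hKgN : K.map (MulAut.conj g).toMonoidHom ≤ N := (component_le_J hTg hKg hKgL).trans hJLN
      obtain ⟨h, hh, hhx⟩ := sylow_conj hT₂ (isPGroup_thompson hTg.2.1) hJgN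
      set X := T₂.map (MulAut.conj h⁻¹).toMonoidHom with hX
      have hXN : IsSylowTwoIn X N := by
        have h' := isSylowTwoIn_map (MulAut.conj h⁻¹) hT₂
        rwa [show N.map (MulAut.conj h⁻¹).toMonoidHom = N from
          Subgroup.mem_normalizer_iff_map_conj_eq.1 (Subgroup.le_normalizer (N.inv_mem hh))] at h'
      have hle : thompsonSubgroupOf 2 (T₁.map (MulAut.conj g).toMonoidHom) ≤ X := fun y hy =>
        ⟨h * y * h⁻¹, hhx y hy, by simp [MulAut.conj_apply, mul_assoc]⟩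
      have hJX : thompsonSubgroupOf 2 X =
          (thompsonSubgroupOf 2 T₁).map (MulAut.conj h⁻¹).toMonoidHom := by
        rw [hX, thompson_map, ← hJeq₁, hJeq₂]
      have hfin := card_thompson_conj hJX hle
      have hKX := IsJComponent.of_J_eq hfin.symm hKg
      have hX1 : X ≠ ⊥ := fun e => hT₂1 ((Subgroup.map_eq_bot_iff_of_injective _
        (MulAut.conj h⁻¹).injective).1 e)
      have hnorm := normalizer_le_normalizer_wOf _ (J_normalizes_component cxN hXN hX1 hKX hKgN hx)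
      rw [wOf_map] at hnorm
      obtain ⟨w', hw', he⟩ := (Subgroup.mem_normalizer_iff.1 hnorm (g * w * g⁻¹)).1 ⟨w, hw, rfl⟩
      exact Subgroup.subset_closure ⟨g, hg, w', hw', he⟩
    exact hle hu
  have hJJ : thompsonSubgroupOf 2 L = thompsonSubgroupOf 2 N :=
    le_antisymm (thompson_overgroup_le hT₁ hT₂ (hJeq₁.symm.trans hJeq₂) hJLN)
      (thompson_overgroup_le hT₂ hT₁ (hJeq₂.symm.trans hJeq₁) hJNL)
  -- L normalises the 2-core of J(L)
  set JL := thompsonSubgroupOf 2 L with hJLdef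
  have hconj : ∀ (H : Subgroup G) {x : G}, x ∈ H → ∀ y ∈ thompsonSubgroupOf 2 H,
      x * y * x⁻¹ ∈ thompsonSubgroupOf 2 H := fun H x hx y hy =>
    conj_mem_thompson (fun s hs => H.mul_mem (H.mul_mem hx hs) (H.inv_mem hx)) hy
  have hD1 : pCoreOf 2 JL ≠ ⊥ := by
    intro h
    refine wOf_ne_bot hK (eq_bot_iff.2 fun w hw => ?_)
    have hn : ((pCoreOf 2 L ⊓ JL).subgroupOf JL).Normal := ⟨fun y hy g =>
      ⟨conj_mem_core (thompson_le_self L g.2) hy.1, JL.mul_mem (JL.mul_mem g.2 hy.2) (JL.inv_mem g.2)⟩⟩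
    have h1 := CfsgLib.Components.le_pCore hn (p := 2)
      ((isPGroup_pCoreOf L).to_le inf_le_left).comap_subtype
    have hwJ : w ∈ JL := component_le_J hT₁ hK₁ hKL' ((wOf_le_pCoreOf K).trans (pCoreOf_le K) hw)
    rw [← h]
    exact ⟨⟨w, hwJ⟩, h1 ⟨vOf_le_core (wOf_le_vOf cx hT₁ hT₁1 hK₁ hKL' hw), hwJ⟩, rfl⟩
  have hLD : L ≤ Subgroup.normalizer (pCoreOf 2 JL : Set G) := fun x hx =>
    Subgroup.mem_normalizer_fintype fun y hy => conj_mem_pCoreOf (hconj L hx) hy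
  have hLeqD : L = Subgroup.normalizer (pCoreOf 2 JL : Set G) :=
    (hLmax.2 _ ⟨_, isPGroup_pCoreOf JL, hD1, rfl⟩ hLD).symm
  have hdK : dOf K = pCoreOf 2 JL := by rw [dOf, ← hNdef, hJJ]
  refine ⟨by rw [hdK]; exact hLeqD, fun x hx => ?_, hJJ⟩
  rw [hLeqD]
  refine Subgroup.mem_normalizer_fintype fun y hy => ?_
  show x * y * x⁻¹ ∈ pCoreOf 2 JL
  rw [← hdK] at hy ⊢
  exact conj_mem_pCoreOf (hconj N hx) hy

end CfsgLib.JComp
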